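import Cfsg.Agent.SympWreath17.Basic
import Cfsg.Agent.WreathTensor14.Descent

/-!
One factor split off: the product form on matrices, contractions, and the elementary members of a
group of similitudes containing the isometries of both sides.
-/

set_option autoImplicit false
set_option linter.unusedSectionVars false

namespace CfsgLib.SympWreath17

open Matrix Module
open CfsgLib.Aschbacher (kroneckerPow)
open CfsgLib.TensorMax (InM rootMap pure pure_mulVec memb mem_memb pure_mem_memb exists_dual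
  pureL pureL_apply mem_memb_of_forall_orth pure_eq_zero_iff)
open CfsgLib.WreathTensor14 (TV pv slot slotGroup slotConj kronE linearMap_ext_pv)

variable {F : Type*} [Field F] {k t s : ℕ} {ι : Type} [Fintype ι] [DecidableEq ι]
  {f : LinearMap.BilinForm F (Fin k → F)}

section general

variable (hf : IsSymp f)
include hf

lemma sdual_surjective : Function.Surjective (sdual f) :=
  LinearMap.surjective_of_injective fun x y h => sub_eq_zero.1 (hf.nd _ fun z => by
    rw [hf.skew z, map_sub, ← dotProduct_sdual, ← dotProduct_sdual, h, sub_self, neg_zero])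

/-- A matrix with no contraction is zero. -/
lemma sctr_ext {X : Matrix ι (Fin k) F} (h : ∀ w, sctr f w X = 0) : X = 0 :=
  Matrix.ext_of_mulVec_single fun j => by
    obtain ⟨w, hw⟩ := sdual_surjective hf (Pi.single j 1)
    rw [← hw, zero_mulVec]
    exact h w

/-- A matrix killed by the contractions orthogonal to `w` lies in the member of `w`. -/
lemma mem_memb_of_sctr {w : Fin k → F} (hw : w ≠ 0) {X : Matrix ι (Fin k) F}
    (h : ∀ y, f w y = 0 → sctr f y X = 0) : X ∈ memb w :=
  mem_memb_of_forall_orth hw fun φ hφ => by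
    obtain ⟨y, rfl⟩ := sdual_surjective hf φ
    exact h y (by rwa [dotProduct_sdual] at hφ)

/-- The complement of the kernel of a contraction. -/
lemma sctr_sub_pure {w z : Fin k → F} (hwz : f w z = 1) (X : Matrix ι (Fin k) F) :
    sctr f w (X - pure (-sctr f w X) z) = 0 := by
  rw [map_sub, sctr_pure, hf.skew w z, hwz]
  simp

/-- A linear form on vectors is a value of the form. -/
lemma exists_form_eq (φ : (Fin k → F) →ₗ[F] F) : ∃ x, ∀ y, f x y = φ y :=
  ⟨(f.toDual hf.nondegenerate).symm φ, fun y => by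
    rw [LinearMap.BilinForm.apply_toDual_symm_apply]⟩

end general

lemma tform_nd (hf : IsSymp f) : ∀ (t : ℕ) (x : TV F k t), (∀ y, tform f t x y = 0) → x = 0
  | 0, x, h => funext fun p => by
      have h1 := h (Pi.single p 1)
      simpa [tform_apply, Fintype.sum_unique, Subsingleton.elim (default : Fin 0 → Fin k) p] using h1
  | t + 1, x, h => by
      refine (slot (0 : Fin (t + 1))).map_eq_zero_iff.1 (sctr_ext hf fun w => tform_nd hf t _ fun u => ?_)
      obtain ⟨y, hy⟩ := (slot (F := F) (m := k) (0 : Fin (t + 1))).surjective (pure u w)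
      rw [← sphi_pure_right, ← hy, tform_slot]
      exact h y

lemma tform_nd' (hf : IsSymp f) (t : ℕ) (x : TV F k t) (h : ∀ y, tform f t y x = 0) : x = 0 :=
  tform_nd hf t x fun y => by rw [tform_comm hf, h, mul_zero]

lemma tform_nondegenerate (hf : IsSymp f) (t : ℕ) : (tform f t).Nondegenerate :=
  ⟨tform_nd hf t, tform_nd' hf t⟩

lemma exists_tform_adjoint (hf : IsSymp f) (A : Matrix (Fin t → Fin k) (Fin t → Fin k) F) :
    ∃ A' : Matrix (Fin t → Fin k) (Fin t → Fin k) F,
      ∀ x y, tform f t (A *ᵥ x) y = tform f t x (A' *ᵥ y) := by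
  let ψ : TV F k t →ₗ[F] TV F k t :=
    ((tform f t).flip.toDual (tform_nondegenerate hf t).flip).symm.toLinearMap ∘ₗ
      LinearMap.flip (LinearMap.comp (tform f t) A.mulVecLin)
  refine ⟨LinearMap.toMatrix' ψ, fun x y => ?_⟩
  rw [LinearMap.toMatrix'_mulVec]
  change _ = (tform f t).flip (ψ y) x
  simp only [ψ, LinearMap.comp_apply, LinearEquiv.coe_coe,
    LinearMap.BilinForm.apply_toDual_symm_apply]
  rfl

/-- A group of similitudes of one split-off factor, with only scalar root coefficients. -/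
structure Sctx (f : LinearMap.BilinForm F (Fin k → F))
    (M : Subgroup (Matrix (Fin s → Fin k) (Fin k) F ≃ₗ[F] Matrix (Fin s → Fin k) (Fin k) F)) :
    Prop where
  symp : IsSymp f
  two : (2 : F) ≠ 0
  small : (k = 2 ∧ ∃ r : F, r ≠ 0 ∧ r ^ 2 ≠ 1) ∨ 4 ≤ k
  sim : ∀ g ∈ M, ∃ c : F, c ≠ 0 ∧
    ∀ X Y, sphi (tform f s) f (g X) (g Y) = c * sphi (tform f s) f X Y
  right : ∀ a : GL (Fin k) F, Isom f a → ∃ e ∈ M, ∀ X, e X = X * (a.val)ᵀ
  left : ∀ gs : Fin s → GL (Fin k) F, (∀ i, Isom f (gs i)) →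
    ∃ e ∈ M, ∀ X, e X = kroneckerPow (fun i => (gs i).val) * X
  only : ∀ (θ : Matrix (Fin s → Fin k) (Fin s → Fin k) F) (w : Fin k → F), w ≠ 0 →
    InM M (sroot f θ w) → ∃ c : F, θ = c • 1

/-- What the monomiality argument uses: only the three-cycle permutations are assumed. -/
structure WBase (f : LinearMap.BilinForm F (Fin k → F))
    (M : Subgroup (TV F k t ≃ₗ[F] TV F k t)) : Prop where
  symp : IsSymp f
  two : (2 : F) ≠ 0
  small : (k = 2 ∧ ∃ r : F, r ≠ 0 ∧ r ^ 2 ≠ 1) ∨ 4 ≤ k
  sim : ∀ g ∈ M, ∃ c : F, c ≠ 0 ∧ ∀ u v, tform f t (g u) (g v) = c * tform f t u v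
  kron_mem : ∀ gs : Fin t → GL (Fin k) F, (∀ i, Isom f (gs i)) → kronE gs ∈ M
  perm_mem : ∀ σ : Equiv.Perm (Fin t), σ ^ 3 = 1 → WreathTensor14.permE σ ∈ M

lemma SBase.wbase {M : Subgroup (TV F k t ≃ₗ[F] TV F k t)} (hM : SBase f M) : WBase f M :=
  ⟨hM.symp, hM.two, hM.small, hM.sim, hM.kron_mem, fun σ _ => hM.perm_mem σ⟩

/-- The context of a factor. -/
lemma WBase.sctx {M : Subgroup (TV F k (s + 1) ≃ₗ[F] TV F k (s + 1))} (hM : WBase f M)
    (hsc : OnlyScal f M) (i : Fin (s + 1)) : Sctx f (slotGroup M i) where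
  symp := hM.symp
  two := hM.two
  small := hM.small
  sim := by
    rintro _ ⟨g, hg, rfl⟩
    obtain ⟨c, hc0, hc⟩ := hM.sim g hg
    refine ⟨c, hc0, fun X Y => ?_⟩
    obtain ⟨u, rfl⟩ := (slot i).surjective X
    obtain ⟨v, rfl⟩ := (slot i).surjective Y
    simp [tform_slot, hc]
  right a ha := ⟨_, Subgroup.mem_map_of_mem _ (hM.kron_mem
    (Fin.insertNth (α := fun _ => GL (Fin k) F) i a 1) fun l => by
      rcases Fin.eq_self_or_eq_succAbove i l with rfl | ⟨j, rfl⟩
      · simpa using ha
      · simpa using isom_one f), WreathTensor14.kronE_insertNth_one i a⟩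
  left gs hgs := ⟨_, Subgroup.mem_map_of_mem _ (hM.kron_mem
    (Fin.insertNth (α := fun _ => GL (Fin k) F) i 1 gs) fun l => by
      rcases Fin.eq_self_or_eq_succAbove i l with rfl | ⟨j, rfl⟩
      · simpa using isom_one f
      · simpa using hgs j), WreathTensor14.kronE_insertNth_left i gs⟩
  only := hsc i

namespace Sctx

variable {M : Subgroup (Matrix (Fin s → Fin k) (Fin k) F ≃ₗ[F] Matrix (Fin s → Fin k) (Fin k) F)}
  (hM : Sctx f M)
include hM

lemma two_le : 2 ≤ k := by rcases hM.small with ⟨h, -⟩ | h <;> omega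

lemma inM_root_one (c : F) (w : Fin k → F) :
    InM M (sroot f (c • (1 : Matrix (Fin s → Fin k) (Fin s → Fin k) F)) w) := by
  obtain ⟨a, ha, hval, -, -⟩ := exists_transvection hM.symp c w
  obtain ⟨e, he, heX⟩ := hM.right a ha
  refine ⟨e, he, fun X => ?_⟩
  rw [heX, hval, transpose_add, transpose_one, Matrix.mul_add, Matrix.mul_one, transpose_smul,
    Matrix.mul_smul, nmat, transpose_vecMulVec, mul_vecMulVec, sroot_apply, sctr_apply,
    smul_mulVec, one_mulVec, TensorMax.pure, smul_vecMulVec]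

lemma sroot_sroot {θ θ' : Matrix (Fin s → Fin k) (Fin s → Fin k) F} (w : Fin k → F)
    (X : Matrix (Fin s → Fin k) (Fin k) F) : sroot f θ w (sroot f θ' w X) = 0 := by
  rw [sroot_apply f θ, sroot_apply f θ', sctr_pure, hM.symp.alt, zero_smul, mulVec_zero]
  simp

lemma exists_z {w : Fin k → F} (hw : w ≠ 0) : ∃ z, f w z = 1 := hM.symp.exists_one hw

/-- Halving inside a group. -/
lemma inM_half [Finite F] {N : Matrix (Fin s → Fin k) (Fin k) F →ₗ[F] Matrix (Fin s → Fin k) (Fin k) F}
    (hsq : ∀ X, N (N X) = 0) (h : InM M ((2 : F) • N)) : InM M N := by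
  have hn : ∀ n : ℕ, InM M ((n : F) • ((2 : F) • N)) := fun n => by
    induction n with
    | zero => simpa using InM.zero
    | succ n ih =>
      rw [Nat.cast_succ, add_smul, one_smul]
      exact ih.add h fun X => by simp [hsq]
  obtain ⟨p, hp⟩ := CharP.exists F
  have hpp : p.Prime := CharP.char_is_prime F p
  have := hpp.two_le
  have hodd : p % 2 = 1 := by
    rcases Nat.mod_two_eq_zero_or_one p with h0 | h0
    · exfalso
      have hp2 : p = 2 := ((Nat.prime_dvd_prime_iff_eq Nat.prime_two hpp).1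
        (Nat.dvd_of_mod_eq_zero h0)).symm
      subst hp2
      exact hM.two (CharP.cast_eq_zero F 2)
    · exact h0
  convert hn ((p + 1) / 2) using 1
  have e : (((p + 1) / 2 : ℕ) : F) * 2 = 1 := by
    have : ((((p + 1) / 2) * 2 : ℕ) : F) = ((p + 1 : ℕ) : F) := by
      rw [Nat.div_mul_cancel (by omega)]
    push_cast at this
    rw [this, CharP.cast_eq_zero, zero_add]
  rw [smul_smul, e, one_smul]

end Sctx

end CfsgLib.SympWreath17
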