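import Cfsg.Agent.WreathTensor14.Classify

/-!
A monomial element `g` in odd characteristic with `(g - 1)² = 0` moving as much as a member moves
exactly a member.
-/

set_option autoImplicit false

namespace CfsgLib.SympWreath17

open Matrix Function Module
open CfsgLib.Aschbacher (kroneckerPow kroneckerPow_smul)
open CfsgLib.WreathTensor14 (TV pv pv_dot_pv kronE kronE_apply kronE_pv permE nil nil_apply smemb
  monoGroup kronE_permE_pv slot slotConj kronE_insertNth_one symm_pure_mem finrank_smemb)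
open CfsgLib.TensorMax (exists_covec exists_dual)

variable {F : Type*} [Field F] {k t s : ℕ}

/-- A vector outside two lines. -/
lemma exists_off_two_lines (hk : 2 ≤ k) (p r : Fin k → F) :
    ∃ z : Fin k → F, z ≠ 0 ∧ z ∉ Submodule.span F ({p} : Set (Fin k → F)) ∧
      z ∉ Submodule.span F ({r} : Set (Fin k → F)) := by
  have hne : ∀ x : Fin k → F, Submodule.span F ({x} : Set (Fin k → F)) ≠ ⊤ := fun x h => by
    have h1 := finrank_span_le_card (R := F) ({x} : Set (Fin k → F))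
    rw [h, finrank_top, finrank_pi, Fintype.card_fin] at h1
    simp at h1
    omega
  obtain ⟨a, ha⟩ : ∃ a, a ∉ Submodule.span F ({p} : Set (Fin k → F)) := by
    by_contra! h
    exact hne p (eq_top_iff.2 fun x _ => h x)
  obtain ⟨b, hb⟩ : ∃ b, b ∉ Submodule.span F ({r} : Set (Fin k → F)) := by
    by_contra! h
    exact hne r (eq_top_iff.2 fun x _ => h x)
  by_cases h1 : a ∈ Submodule.span F ({r} : Set (Fin k → F))
  · by_cases h2 : b ∈ Submodule.span F ({p} : Set (Fin k → F))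
    · refine ⟨a + b, fun h0 => ha ?_, fun h => ha ?_, fun h => hb ?_⟩
      · rw [eq_neg_of_add_eq_zero_left h0]
        exact Submodule.neg_mem _ h2
      · simpa using Submodule.sub_mem _ h h2
      · simpa using Submodule.sub_mem _ h h1
    · exact ⟨b, fun h0 => hb (h0 ▸ zero_mem _), h2, hb⟩
  · exact ⟨a, fun h0 => ha (h0 ▸ zero_mem _), ha, h1⟩

/-- A covector non-zero at two vectors. -/
lemma exists_covec_two {x y : Fin k → F} (hx : x ≠ 0) (hy : y ≠ 0) :
    ∃ φ : Fin k → F, φ ⬝ᵥ x ≠ 0 ∧ φ ⬝ᵥ y ≠ 0 := by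
  obtain ⟨a, ha⟩ := exists_dual hx
  obtain ⟨b, hb⟩ := exists_dual hy
  rw [dotProduct_comm] at ha hb
  by_cases h1 : a ⬝ᵥ y = 0
  · by_cases h2 : b ⬝ᵥ x = 0
    · exact ⟨a + b, by simp [add_dotProduct, ha, h2], by simp [add_dotProduct, hb, h1]⟩
    · exact ⟨b, h2, by simp [hb]⟩
  · exact ⟨a, by simp [ha], h1⟩

/-- Three pure tensors in a linear relation differ in one factor only. -/
lemma differ_one {x y z : Fin t → Fin k → F} {a b : F} (ha : a ≠ 0) (hb : b ≠ 0)
    (hx : ∀ i, x i ≠ 0) (hy : ∀ i, y i ≠ 0) (h : pv z = a • pv x + b • pv y) {i j : Fin t}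
    (hij : i ≠ j) (hi : y i ∉ Submodule.span F ({x i} : Set (Fin k → F))) :
    y j ∈ Submodule.span F ({x j} : Set (Fin k → F)) := by
  classical
  by_contra hj
  have sep : ∀ l, y l ∉ Submodule.span F ({x l} : Set (Fin k → F)) →
      (∃ p : Fin k → F, p ⬝ᵥ x l = 0 ∧ p ⬝ᵥ y l = 1) ∧
      (∃ p : Fin k → F, p ⬝ᵥ x l = 1 ∧ p ⬝ᵥ y l = 0) := by
    intro l hl
    obtain ⟨p, hp, hp'⟩ := exists_covec hl
    have hx' : x l ∉ Submodule.span F ({y l} : Set (Fin k → F)) := fun h' => by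
      obtain ⟨c, hc⟩ := Submodule.mem_span_singleton.1 h'
      rcases eq_or_ne c 0 with rfl | hc0
      · exact hx l (by rw [← hc, zero_smul])
      · exact hl (Submodule.mem_span_singleton.2 ⟨c⁻¹, by rw [← hc, inv_smul_smul₀ hc0]⟩)
    obtain ⟨p', hp2, hp2'⟩ := exists_covec hx'
    exact ⟨⟨p, hp' _ (Submodule.mem_span_singleton_self _), hp⟩,
      ⟨p', hp2, hp2' _ (Submodule.mem_span_singleton_self _)⟩⟩
  obtain ⟨⟨pi', hpix, hpiy⟩, ⟨qi, hqix, hqiy⟩⟩ := sep i hi
  obtain ⟨⟨pj, hpjx, hpjy⟩, ⟨qj, hqjx, hqjy⟩⟩ := sep j hj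
  choose φ hφx hφy using fun l => exists_covec_two (hx l) (hy l)
  let Φ : (Fin k → F) → (Fin k → F) → Fin t → Fin k → F := fun u v => update (update φ i u) j v
  have val : ∀ (w : Fin t → Fin k → F) u v, pv (Φ u v) ⬝ᵥ pv w =
      (u ⬝ᵥ w i) * (v ⬝ᵥ w j) * ∏ l ∈ (Finset.univ.erase i).erase j, φ l ⬝ᵥ w l := by
    intro w u v
    have hjm : j ∈ Finset.univ.erase i := Finset.mem_erase.2 ⟨hij.symm, Finset.mem_univ _⟩
    rw [pv_dot_pv, ← Finset.mul_prod_erase _ _ (Finset.mem_univ i),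
      ← Finset.mul_prod_erase _ _ hjm, ← mul_assoc,
      Finset.prod_congr rfl fun l hl => by
        simp only [Finset.mem_erase] at hl
        rw [show Φ u v l = φ l by simp [Φ, hl.1, hl.2.1]]]
    simp [Φ, hij]
  have ev : ∀ u v, pv (Φ u v) ⬝ᵥ pv z = a * (pv (Φ u v) ⬝ᵥ pv x) + b * (pv (Φ u v) ⬝ᵥ pv y) :=
    fun u v => by rw [h, dotProduct_add, dotProduct_smul, dotProduct_smul, smul_eq_mul, smul_eq_mul]
  have h11 := ev qi qj
  have h22 := ev pi' pj
  have h12 := ev qi pj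
  simp only [val, hpix, hpiy, hqix, hqiy, hpjx, hpjy, hqjx, hqjy, mul_zero, zero_mul, mul_one,
    one_mul, add_zero, zero_add] at h11 h22 h12
  set R := fun w : Fin t → Fin k → F => ∏ l ∈ (Finset.univ.erase i).erase j, φ l ⬝ᵥ w l with hR
  have h11' : (qi ⬝ᵥ z i) * (qj ⬝ᵥ z j) * R z = a * R x := h11
  have h22' : (pi' ⬝ᵥ z i) * (pj ⬝ᵥ z j) * R z = b * R y := h22
  have h12' : (qi ⬝ᵥ z i) * (pj ⬝ᵥ z j) * R z = 0 := h12
  have n1 : a * R x ≠ 0 := mul_ne_zero ha (Finset.prod_ne_zero_iff.2 fun l _ => hφx l)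
  have n2 : b * R y ≠ 0 := mul_ne_zero hb (Finset.prod_ne_zero_iff.2 fun l _ => hφy l)
  rw [← h11'] at n1
  rw [← h22'] at n2
  exact mul_ne_zero (mul_ne_zero (left_ne_zero_of_mul (left_ne_zero_of_mul n1))
    (right_ne_zero_of_mul (left_ne_zero_of_mul n2))) (right_ne_zero_of_mul n1) h12'

/-- A monomial quadratic element with the rank of a member moves exactly a member. -/
theorem exists_smemb_of_sq_zero (hk : 2 ≤ k) (h2 : (2 : F) ≠ 0)
    {g : TV F k (s + 1) ≃ₗ[F] TV F k (s + 1)} (hg : g ∈ monoGroup F k (s + 1))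
    (hsq : ∀ v, nil g (nil g v) = 0) (hne : g ≠ 1)
    (hrk : finrank F (LinearMap.range (nil g)) ≤ k ^ s) :
    ∃ i w, w ≠ 0 ∧ LinearMap.range (nil g) = smemb i w := by
  classical
  obtain ⟨σ, gs, rfl⟩ := hg
  have hinj : ∀ l (v : Fin k → F), v ≠ 0 → (gs l).val *ᵥ v ≠ 0 := fun l v hv h => hv (by
    have := congrArg (fun w => ((gs l)⁻¹).val *ᵥ w) h
    simpa [mulVec_mulVec] using this)
  have key : ∀ x : Fin (s + 1) → Fin k → F, (∀ l, x l ≠ 0) → ∀ i j, i ≠ j →
      (gs i).val *ᵥ x (σ⁻¹ i) ∉ Submodule.span F ({x i} : Set (Fin k → F)) →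
      (gs j).val *ᵥ x (σ⁻¹ j) ∈ Submodule.span F ({x j} : Set (Fin k → F)) := by
    intro x hx i j hij hi
    set y := fun l => (gs l).val *ᵥ x (σ⁻¹ l)
    refine differ_one (z := fun l => (gs l).val *ᵥ y (σ⁻¹ l)) (a := -1) (b := 2)
      (neg_ne_zero.2 one_ne_zero) h2 hx (fun l => hinj l _ (hx _)) ?_ hij hi
    have h := hsq (pv x)
    rw [nil_apply, nil_apply, kronE_permE_pv, map_sub, kronE_permE_pv, kronE_permE_pv] at h
    linear_combination (norm := module) h
  have hσ : σ = 1 := by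
    by_contra hσ
    obtain ⟨i, hi⟩ : ∃ i, σ⁻¹ i ≠ i := by
      by_contra! h
      exact hσ (inv_eq_one.1 (Equiv.ext h))
    set j := σ⁻¹ i with hj
    set l := σ⁻¹ j with hl
    have hlj : l ≠ j := fun h => hi (σ⁻¹.injective h)
    let o : Fin k := ⟨0, by omega⟩
    have he : (Pi.single o 1 : Fin k → F) ≠ 0 := by simp
    obtain ⟨z, hz0, hzp, hzr⟩ := exists_off_two_lines hk ((gs i).val *ᵥ Pi.single o 1)
      (((gs j)⁻¹).val *ᵥ Pi.single o 1)
    let x : Fin (s + 1) → Fin k → F := fun m => if m = i ∨ m = l then z else Pi.single o 1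
    have hxj : x j = Pi.single o 1 := if_neg (by rintro (h | h) <;> [exact hi h; exact hlj h.symm])
    have hxi : x i = z := if_pos (Or.inl rfl)
    have hxl : x l = z := if_pos (Or.inr rfl)
    have h1 := key x (fun m => by dsimp only [x]; split_ifs <;> assumption) i j (Ne.symm hi) (by
      rw [← hj, hxi, hxj]
      intro h
      obtain ⟨c, hc⟩ := Submodule.mem_span_singleton.1 h
      rcases eq_or_ne c 0 with rfl | hc0
      · exact hinj i _ he (by rw [← hc, zero_smul])
      · exact hzp (Submodule.mem_span_singleton.2 ⟨c⁻¹, by rw [← hc, inv_smul_smul₀ hc0]⟩))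
    rw [← hl, hxl, hxj] at h1
    obtain ⟨c, hc⟩ := Submodule.mem_span_singleton.1 h1
    refine hzr (Submodule.mem_span_singleton.2 ⟨c, ?_⟩)
    have := congrArg (fun w => ((gs j)⁻¹).val *ᵥ w) hc
    simpa [mulVec_smul, mulVec_mulVec] using this
  subst hσ
  rw [map_one, mul_one] at hsq hne hrk ⊢
  obtain ⟨i, hi⟩ : ∃ i, ∀ j, j ≠ i → ∃ c : F, (gs j).val = c • 1 := by
    by_cases hall : ∀ j, ∃ c : F, (gs j).val = c • 1
    · exact ⟨0, fun j _ => hall j⟩
    push Not at hall
    obtain ⟨i, hi⟩ := hall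
    obtain ⟨u, hu⟩ : ∃ u, (gs i).val *ᵥ u ∉ Submodule.span F ({u} : Set (Fin k → F)) := by
      by_contra! h
      obtain ⟨c, hc⟩ := TensorMax.eq_smul_one_of_forall_mem_span (gs i).val h
      exact hi c hc
    refine ⟨i, fun j hji => TensorMax.eq_smul_one_of_forall_mem_span _ fun v => ?_⟩
    rcases eq_or_ne v 0 with rfl | hv
    · simp
    have hu0 : u ≠ 0 := fun h => hu (by simp [h])
    let o : Fin k := ⟨0, by omega⟩
    let x : Fin (s + 1) → Fin k → F := update (update (fun _ => Pi.single o 1) i u) j v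
    have := key x (fun m => by
      rcases eq_or_ne m j with rfl | h1
      · simpa [x] using hv
      rcases eq_or_ne m i with rfl | h2
      · simpa [x, h1] using hu0
      · simp [x, h1, h2]) i j (Ne.symm hji) (by simpa [x, Ne.symm hji] using hu)
    simpa [x] using this
  choose! cs hcs using hi
  have : Nonempty (Fin k) := ⟨⟨0, by omega⟩⟩
  set C := ∏ j ∈ Finset.univ.erase i, cs j
  have hC : C ≠ 0 := Finset.prod_ne_zero_iff.2 fun j hj h0 => (gs j).ne_zero (by
    rw [hcs j (Finset.ne_of_mem_erase hj), h0, zero_smul])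
  set B : Matrix (Fin k) (Fin k) F := C • (gs i).val with hB
  have hgB : ∀ v, kronE gs v = (slot i).symm (slot i v * Bᵀ) := by
    intro v
    have e1 : kronE gs = C • (kronE (Fin.insertNth (α := fun _ => GL (Fin k) F) i (gs i) 1)
        : TV F k (s + 1) ≃ₗ[F] TV F k (s + 1)).toLinearMap := by
      refine WreathTensor14.linearMap_ext_pv fun x => ?_
      rw [LinearMap.smul_apply, LinearEquiv.coe_coe, LinearEquiv.coe_coe, kronE_pv, kronE_pv]
      funext p
      simp only [pv, Pi.smul_apply, smul_eq_mul]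
      rw [← Finset.mul_prod_erase _ _ (Finset.mem_univ i),
        ← Finset.mul_prod_erase _ (fun l => (((Fin.insertNth (α := fun _ => GL (Fin k) F) i (gs i) 1
          : Fin (s + 1) → GL (Fin k) F) l).val *ᵥ x l) (p l)) (Finset.mem_univ i)]
      have : ∀ l ∈ Finset.univ.erase i, ((gs l).val *ᵥ x l) (p l) = cs l *
          (((Fin.insertNth (α := fun _ => GL (Fin k) F) i (gs i) 1 : Fin (s + 1) → GL (Fin k) F) l).val
            *ᵥ x l) (p l) := by
        intro l hl
        have hli := Finset.ne_of_mem_erase hl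
        obtain ⟨l', rfl⟩ := Fin.exists_succAbove_eq hli
        simp [hcs _ hli, smul_mulVec]
      rw [Finset.prod_congr rfl this, Finset.prod_mul_distrib]
      simp [C]
      ring
    have := LinearMap.congr_fun e1 v
    rw [LinearEquiv.coe_coe] at this
    rw [this, LinearMap.smul_apply, LinearEquiv.coe_coe, hB, transpose_smul, Matrix.mul_smul,
      map_smul, ← kronE_insertNth_one, WreathTensor14.slotConj_apply, LinearEquiv.symm_apply_apply,
      LinearEquiv.symm_apply_apply]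
  obtain ⟨y, hy⟩ : ∃ y, B *ᵥ y - y ≠ 0 := by
    by_contra! h
    refine hne (LinearEquiv.ext fun v => ?_)
    have : B = 1 := Matrix.ext_of_mulVec_single fun j => by
      rw [one_mulVec]; exact sub_eq_zero.1 (h _)
    rw [hgB, this, transpose_one, Matrix.mul_one, LinearEquiv.symm_apply_apply]
    rfl
  refine ⟨i, _, hy, (Submodule.eq_of_le_of_finrank_le (?_ : smemb i (B *ᵥ y - y) ≤ _) ?_).symm⟩
  · intro x hx
    obtain ⟨u, hu⟩ := TensorMax.mem_memb.1 hx
    rw [LinearEquiv.coe_coe] at hu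
    refine ⟨(slot i).symm (TensorMax.pure u y), ?_⟩
    rw [nil_apply, hgB, LinearEquiv.apply_symm_apply, ← map_sub, ← LinearEquiv.eq_symm_apply,
      LinearEquiv.symm_symm, ← hu]
    simp [TensorMax.pure, vecMulVec_mul, vecMul_transpose, vecMulVec_sub]
  · rwa [finrank_smemb _ hy]

end CfsgLib.SympWreath17
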