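import Cfsg.Agent.SympWreath17.TwoDim
import Cfsg.Agent.SympWreath17.Quadratic
import Cfsg.Agent.WreathTensor14.Rigid

/-!
Similitude groups of a tensor power with only scalar root coefficients consist of monomial
elements.
-/

set_option autoImplicit false
set_option linter.unusedSectionVars false

namespace CfsgLib.SympWreath17

open Matrix Module Function
open CfsgLib.Aschbacher (kroneckerPow)
open CfsgLib.TensorMax (InM memb mem_memb pure_mem_memb)
open CfsgLib.WreathTensor14 (TV pv slot slot_pv slot_pv_insertNth slotGroup slotConj slotConj_apply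
  kronE kronE_pv permE permE_pv InV monoGroup permE_mem_mono linearMap_ext_pv linearEquiv_ext_pv
  smemb mem_smemb symm_pure_mem factor extPerm extPerm_self extPerm_succAbove mono_of_split
  finrank_smemb permE_smemb nil nil_apply kronE_insertNth_left kronE_insertNth_one slot_kronE
  symm_pure_swap mem_mono_one inM_slotGroup_iff mem_span_of_pv_eq)

local notation "⟪" u "⊗" w "⟫" => TensorMax.pure u w

variable {F : Type*} [Field F] {k s : ℕ} {f : LinearMap.BilinForm F (Fin k → F)}

/-- The root map of the factor `i`. -/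
def srootV (f : LinearMap.BilinForm F (Fin k → F)) (i : Fin (s + 1)) (w : Fin k → F) :
    TV F k (s + 1) →ₗ[F] TV F k (s + 1) :=
  (slot i).symm.toLinearMap ∘ₗ
    sroot f (1 : Matrix (Fin s → Fin k) (Fin s → Fin k) F) w ∘ₗ (slot i).toLinearMap

lemma slot_srootV (i : Fin (s + 1)) (w : Fin k → F) (x : TV F k (s + 1)) :
    slot i (srootV f i w x) = sroot f 1 w (slot i x) := by
  simp [srootV]

lemma range_srootV (hf : IsSymp f) (i : Fin (s + 1)) {w : Fin k → F} (hw : w ≠ 0) :
    LinearMap.range (srootV f i w) = smemb i w := by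
  refine le_antisymm ?_ fun x hx => ?_
  · rintro _ ⟨x, rfl⟩
    rw [mem_smemb, slot_srootV, sroot_apply]
    exact pure_mem_memb _ _
  · obtain ⟨u, hu⟩ := mem_memb.1 hx
    rw [LinearEquiv.coe_coe] at hu
    obtain ⟨z, hwz⟩ := hf.exists_one hw
    refine ⟨(slot i).symm ⟪(-u)⊗z⟫, (slot i).injective ?_⟩
    rw [slot_srootV, LinearEquiv.apply_symm_apply, sroot_apply, one_mulVec, sctr_pure,
      hf.skew w z, hwz, ← hu]
    simp

lemma srootV_srootV (hf : IsSymp f) (i : Fin (s + 1)) (w : Fin k → F) (x : TV F k (s + 1)) :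
    srootV f i w (srootV f i w x) = 0 := by
  apply (slot i).injective
  rw [slot_srootV, slot_srootV, map_zero, sroot_apply, sroot_apply, sctr_pure, hf.alt, zero_smul,
    mulVec_zero, TensorMax.pure_zero_left]

variable {M : Subgroup (TV F k (s + 1) ≃ₗ[F] TV F k (s + 1))}

lemma inV_srootV (hM : WBase f M) (hsc : OnlyScal f M) (i : Fin (s + 1)) (w : Fin k → F) :
    InV M (srootV f i w) := by
  refine inM_slotGroup_iff.1 (((hM.sctx hsc i).inM_root_one 1 w).congr fun X => ?_)
  rw [one_smul]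

/-- An element carrying one member to a member is monomial. -/
theorem mono_of_member [Finite F] (hM : WBase f M) (hsc : OnlyScal f M)
    (hmove : ∀ i j : Fin (s + 1), ∃ σ, permE σ ∈ M ∧ σ j = i)
    (hIH : ∀ i, ∀ a ∈ factor M i, a ∈ monoGroup F k s)
    {g : TV F k (s + 1) ≃ₗ[F] TV F k (s + 1)} (hg : g ∈ M) {i j : Fin (s + 1)}
    {w v : Fin k → F} (hw : w ≠ 0) (hv : v ≠ 0) (hmap : ∀ x ∈ smemb i w, g x ∈ smemb j v) :
    g ∈ monoGroup F k (s + 1) := by
  obtain ⟨σ, hσ, hσj⟩ := hmove i j
  have hhg := M.mul_mem hσ hg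
  obtain ⟨α, β, hαβ⟩ := (hM.sctx hsc i).exists_split hw hv (Subgroup.mem_map_of_mem _ hhg)
    fun u => by
      have h1 := permE_smemb σ j hv (hmap _ (symm_pure_mem i u w))
      rw [hσj] at h1
      exact h1
  have := mono_of_split (hIH i α ⟨_, hhg, β, hαβ⟩) (g := permE σ * g) (k := i) (j := i) hαβ
  simpa using (monoGroup F k (s + 1)).mul_mem
    ((monoGroup F k (s + 1)).inv_mem (permE_mem_mono σ)) this

/-- If a conjugate of a root element is monomial then the conjugating element is. -/
theorem mono_of_conj [Finite F] (hM : WBase f M) (hsc : OnlyScal f M)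
    (hmove : ∀ i j : Fin (s + 1), ∃ σ, permE σ ∈ M ∧ σ j = i)
    (hIH : ∀ i, ∀ a ∈ factor M i, a ∈ monoGroup F k s)
    {g x : TV F k (s + 1) ≃ₗ[F] TV F k (s + 1)} (hg : g ∈ M) {j : Fin (s + 1)} {w : Fin k → F}
    (hw : w ≠ 0) (hx : ∀ v, x v = v + srootV f j w v)
    (hmono : g⁻¹ * x * g ∈ monoGroup F k (s + 1)) : g ∈ monoGroup F k (s + 1) := by
  have hf := hM.symp
  have hk2 : 2 ≤ k := by rcases hM.small with ⟨h, -⟩ | h <;> omega
  have hnil : nil (g⁻¹ * x * g) = g.symm.toLinearMap ∘ₗ srootV f j w ∘ₗ g.toLinearMap :=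
    LinearMap.ext fun v => by
      change g.symm (x (g v)) - v = g.symm (srootV f j w (g v))
      rw [hx, map_add, LinearEquiv.symm_apply_apply, add_sub_cancel_left]
  have hr : LinearMap.range (nil (g⁻¹ * x * g)) = (smemb j w).map g.symm.toLinearMap := by
    rw [hnil, LinearMap.range_comp, LinearMap.range_comp_of_range_eq_top _ g.range,
      range_srootV hf _ hw]
  have hrank : finrank F (LinearMap.range (nil (g⁻¹ * x * g))) = k ^ s := by
    rw [hr, LinearEquiv.finrank_map_eq, finrank_smemb _ hw]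
  have hne : g⁻¹ * x * g ≠ 1 := fun h => by
    rw [h, show nil (1 : TV F k (s + 1) ≃ₗ[F] TV F k (s + 1)) = 0 from
      LinearMap.ext fun v => sub_self v, LinearMap.range_zero, finrank_bot] at hrank
    exact (pow_pos (show 0 < k by omega) s).ne hrank
  obtain ⟨i, w', hw', hiw⟩ := exists_smemb_of_sq_zero hk2 hM.two hmono (fun v => by
    rw [hnil]
    simp only [LinearMap.comp_apply, LinearEquiv.coe_coe, LinearEquiv.apply_symm_apply,
      srootV_srootV hf, map_zero]) hne hrank.le
  have := mono_of_member hM hsc hmove hIH (M.inv_mem hg) hw hw' fun z hz => by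
    rw [← hiw, hr]; exact ⟨z, hz, rfl⟩
  simpa using (monoGroup F k (s + 1)).inv_mem this

/-- A monomial element with meeting members stabilises the member's conjugate root group. -/
lemma mono_big (hf : IsSymp f) {h : TV F k (s + 1) ≃ₗ[F] TV F k (s + 1)}
    (hh : h ∈ monoGroup F k (s + 1)) (j : Fin (s + 1)) {v : Fin k → F} (hv : v ≠ 0)
    (hne : (smemb j v).map h.toLinearMap ⊓ smemb j v ≠ ⊥) :
    ∀ x ∈ smemb j v, h (srootV f j v (h.symm x)) ∈ smemb j v := by
  classical
  obtain ⟨σ, gs, rfl⟩ := hh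
  set h := kronE gs * permE (F := F) (m := k) σ with hh
  have hpv : ∀ y : Fin (s + 1) → Fin k → F,
      h (pv y) = pv fun m => (gs m).val *ᵥ y (σ⁻¹ m) := fun y => by
    rw [hh, LinearEquiv.mul_apply, permE_pv, kronE_pv]
  by_cases hσ : σ j = j
  · -- the member is preserved
    have hmap : ∀ x ∈ smemb j v, h x ∈ smemb j ((gs j).val *ᵥ v) := fun x hx => by
      obtain ⟨u, hu⟩ := mem_memb.1 (permE_smemb σ j hv hx)
      rw [hσ, LinearEquiv.coe_coe] at hu
      rw [hh, LinearEquiv.mul_apply, ← (slot j).symm_apply_apply (permE σ x), ← hu, slot_kronE]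
      exact symm_pure_mem _ _ _
    obtain ⟨c, hc⟩ : ∃ c : F, c • v = (gs j).val *ᵥ v := by
      by_contra hc
      refine hne ((Submodule.eq_bot_iff _).2 fun y hy => ?_)
      obtain ⟨⟨x, hx, rfl⟩, hy2⟩ := hy
      have h1 := (WreathTensor14.inf_memb_eq_bot (ι := Fin s → Fin k)
        (fun hm => hc (Submodule.mem_span_singleton.1 hm))).le
        (show slot j (h x) ∈ memb ((gs j).val *ᵥ v) ⊓ memb v from ⟨hmap x hx, hy2⟩)
      rw [Submodule.mem_bot, LinearEquiv.map_eq_zero_iff] at h1
      exact h1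
    intro x _
    have h1 := hmap (srootV f j v (h.symm x)) (by
      rw [mem_smemb, slot_srootV, sroot_apply]; exact pure_mem_memb _ _)
    rw [mem_smemb] at h1 ⊢
    obtain ⟨u, hu⟩ := mem_memb.1 h1
    rw [← hu, ← hc, pure_smul_right, ← pure_smul_left]
    exact pure_mem_memb _ _
  · -- only one factor is moved
    have hσ' : σ⁻¹ j ≠ j := fun h' => hσ (by
      conv_lhs => rw [← h']
      simp)
    intro x hx
    rw [mem_smemb]
    refine TensorMax.mem_memb_of_forall_orth hv fun φ hφ => ?_
    obtain ⟨u, hu⟩ := mem_memb.1 hx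
    rw [LinearEquiv.coe_coe] at hu
    rw [← (slot j).symm_apply_apply x, ← hu]
    have : TensorMax.colL φ ∘ₗ (slot j).toLinearMap ∘ₗ h.toLinearMap ∘ₗ srootV f j v ∘ₗ
        h.symm.toLinearMap ∘ₗ (slot j).symm.toLinearMap ∘ₗ TensorMax.pureL v = 0 := by
      refine linearMap_ext_pv fun x' => ?_
      simp only [LinearMap.comp_apply, LinearEquiv.coe_coe, TensorMax.pureL_apply,
        TensorMax.colL_apply, LinearMap.zero_apply]
      rw [← slot_pv_insertNth j v x', LinearEquiv.symm_apply_apply]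
      set y := Fin.insertNth (α := fun _ => Fin k → F) j v x' with hy
      by_cases hy0 : ∀ m, y m ≠ 0
      swap
      · push Not at hy0
        obtain ⟨m, hm⟩ := hy0
        rw [show pv y = 0 from funext fun p => Finset.prod_eq_zero (Finset.mem_univ m) (by simp [hm])]
        simp
      set z : Fin (s + 1) → Fin k → F := fun m => ((gs (σ m))⁻¹).val *ᵥ y (σ m) with hz
      have hzy : h (pv z) = pv y := by
        rw [hpv]
        congr 1
        funext m
        simp [hz, mulVec_mulVec]
      rw [← hzy, LinearEquiv.symm_apply_apply]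
      have hr : srootV f j v (pv z) = pv (update z j (f (z j) v • v)) := by
        apply (slot j).injective
        rw [slot_srootV, slot_pv, slot_pv, sroot_apply, one_mulVec, sctr_pure, pure_smul_left,
          update_self, pure_smul_right]
        congr 3
        funext m
        simp [Fin.removeNth_apply]
      rw [hr, hpv, slot_pv, TensorMax.pure_mulVec, update_of_ne hσ', hz]
      simp [mulVec_mulVec, hy, hφ]
    exact LinearMap.congr_fun this u

set_option maxHeartbeats 1000000 in
/-- With monomial factors, all elements are monomial. -/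
theorem mono_step [Finite F] (hM : WBase f M) (hsc : OnlyScal f M)
    (hmove : ∀ i j : Fin (s + 1), ∃ σ, permE σ ∈ M ∧ σ j = i)
    (hIH : ∀ i, ∀ a ∈ factor M i, a ∈ monoGroup F k s)
    {g : TV F k (s + 1) ≃ₗ[F] TV F k (s + 1)} (hg : g ∈ M) : g ∈ monoGroup F k (s + 1) := by
  classical
  by_contra hgm
  have hf := hM.symp
  have hk2 : 2 ≤ k := by rcases hM.small with ⟨h, -⟩ | h <;> omega
  let P : ℕ → Prop := fun n => ∃ g ∈ M, g ∉ monoGroup F k (s + 1) ∧
    ∃ (i : Fin (s + 1)) (w : Fin k → F) (j : Fin (s + 1)) (v : Fin k → F), w ≠ 0 ∧ v ≠ 0 ∧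
      n = finrank F ↥((smemb i w).map g.toLinearMap ⊓ smemb j v)
  set B := finrank F (TV F k (s + 1))
  set d := Nat.findGreatest P B
  have hd : ∀ g ∈ M, g ∉ monoGroup F k (s + 1) → ∀ (i : Fin (s + 1)) (w : Fin k → F)
      (j : Fin (s + 1)) (v : Fin k → F), w ≠ 0 → v ≠ 0 →
      finrank F ↥((smemb i w).map g.toLinearMap ⊓ smemb j v) ≤ d :=
    fun g hg hgm i w j v hw hv => Nat.le_findGreatest (Submodule.finrank_le _)
      ⟨g, hg, hgm, i, w, j, v, hw, hv, rfl⟩
  obtain ⟨g₀, hg₀, hg₀m, i, w, j, v₀, hw, hv₀, hdatt⟩ : P d := by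
    obtain ⟨e₀, he₀⟩ : ∃ e₀ : Fin k → F, e₀ ≠ 0 := ⟨Pi.single ⟨0, by omega⟩ 1, by simp⟩
    exact Nat.findGreatest_spec (Submodule.finrank_le _)
      ⟨g, hg, hgm, 0, e₀, 0, e₀, he₀, he₀, rfl⟩
  -- coordinates of the factor `j`
  set ψ : TV F k (s + 1) ≃ₗ[F] Matrix (Fin s → Fin k) (Fin k) F := g₀.trans (slot j) with hψ
  set T := (smemb i w).map ψ.toLinearMap with hTdef
  set e : Matrix (Fin s → Fin k) (Fin k) F ≃ₗ[F] Matrix (Fin s → Fin k) (Fin k) F :=
    (slot i).symm.trans ψ with he
  set Q := e.toLinearMap ∘ₗ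
    sroot f (1 : Matrix (Fin s → Fin k) (Fin s → Fin k) F) w ∘ₗ e.symm.toLinearMap with hQ
  have hmemT : ∀ X, X ∈ T ↔ e.symm X ∈ memb w := fun X => by
    rw [hTdef, Submodule.mem_map_equiv, mem_smemb]; rfl
  have hinf : ∀ v, finrank F ↥((smemb i w).map g₀.toLinearMap ⊓ smemb j v)
      = finrank F ↥(memb v ⊓ T) := fun v => by
    have e1 : (smemb j v).map (slot j).toLinearMap = memb v :=
      Submodule.map_comap_eq_of_surjective (slot j).surjective _
    rw [← LinearEquiv.finrank_map_eq (slot j), Submodule.map_inf _ (slot j).injective,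
      ← Submodule.map_comp, inf_comm, e1]
    rfl
  obtain ⟨c₀, hc₀, hsim⟩ := hM.sim g₀ hg₀
  have hesim : ∀ X Y, sphi (tform f s) f (e X) (e Y) = c₀ * sphi (tform f s) f X Y := fun X Y => by
    simp only [he, hψ, LinearEquiv.trans_apply, tform_slot, hsim]
    rw [← tform_slot (i := i), LinearEquiv.apply_symm_apply, LinearEquiv.apply_symm_apply]
  have hSj := hM.sctx hsc j
  -- general position
  have hmeet : ∀ v : Fin k → F, v ≠ 0 → finrank F ↥(memb v ⊓ T) = d →
      Meet f (slotGroup M j) v T Q := by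
    intro v hv hvd
    obtain ⟨x, hx, hxy⟩ := inV_srootV hM hsc j v
    obtain ⟨y, hy, hyy⟩ := inV_srootV hM hsc i w
    refine ⟨hv, ?_, ?_, fun Y => ?_, fun Y => ?_, fun c => ?_, fun t ht hNt => ?_,
      fun u hu hQu => ?_, fun hle => ?_⟩
    · rw [hTdef, LinearEquiv.finrank_map_eq, finrank_smemb _ hw]
      simp
    · intro X hX Y hY
      rw [hmemT] at hX hY
      rw [← e.apply_symm_apply X, ← e.apply_symm_apply Y, hesim]
      obtain ⟨a, ha⟩ := mem_memb.1 hX
      obtain ⟨b, hb⟩ := mem_memb.1 hY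
      rw [← ha, ← hb, sphi_pure_pure, hf.alt, zero_mul, mul_zero]
    · rw [hmemT, hQ, LinearMap.comp_apply, LinearEquiv.coe_coe, LinearEquiv.symm_apply_apply]
      exact pure_mem_memb _ _
    · rw [hQ, LinearMap.comp_apply, LinearEquiv.coe_coe, LinearEquiv.map_eq_zero_iff,
        LinearMap.comp_apply, LinearEquiv.coe_coe, sroot_apply, one_mulVec,
        TensorMax.pure_eq_zero_iff hw]
      refine ⟨fun h0 t ht => ?_, fun h0 => tform_nd hf s _ fun a => ?_⟩
      · rw [hmemT] at ht
        obtain ⟨a, ha⟩ := mem_memb.1 ht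
        rw [← e.apply_symm_apply Y, ← e.apply_symm_apply t, hesim, ← ha, sphi_pure_right, h0,
          map_zero, LinearMap.zero_apply, mul_zero]
      · have h1 := h0 (e ⟪a⊗w⟫) (by rw [hmemT, e.symm_apply_apply]; exact pure_mem_memb _ _)
        rw [← e.apply_symm_apply Y, hesim, mul_eq_zero] at h1
        rw [← sphi_pure_right]
        exact h1.resolve_left hc₀
    · obtain ⟨z, hz, hzy⟩ := (inM_slotGroup_iff (k := i)).1 ((hM.sctx hsc i).inM_root_one c w)
      refine ⟨slotConj j (g₀ * z * g₀⁻¹),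
        Subgroup.mem_map_of_mem _ (M.mul_mem (M.mul_mem hg₀ hz) (M.inv_mem hg₀)), fun X => ?_⟩
      rw [slotConj_apply]
      change slot j (g₀ (z (g₀.symm ((slot j).symm X)))) = _
      rw [hzy, map_add, map_add, LinearEquiv.apply_symm_apply, LinearEquiv.apply_symm_apply]
      simp [hQ, he, hψ, smul_mulVec, pure_smul_left]
    · -- a conjugate root with a larger meet
      by_contra htU
      have hnm : g₀⁻¹ * x * g₀ ∉ monoGroup F k (s + 1) := fun h =>
        hg₀m (mono_of_conj hM hsc hmove hIH hg₀ hv hxy h)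
      refine absurd (hd _ (M.mul_mem (M.mul_mem (M.inv_mem hg₀) hx) hg₀) hnm i w i w hw hw)
        (not_le.2 ?_)
      rw [← hvd, ← LinearEquiv.finrank_map_eq ψ (Submodule.map _ _ ⊓ _)]
      have hψh : ∀ z, ψ ((g₀⁻¹ * x * g₀) z) = ψ z + sroot f 1 v (ψ z) := fun z => by
        simp only [hψ, LinearEquiv.trans_apply, LinearEquiv.mul_apply]
        rw [show g₀ (g₀⁻¹ (x (g₀ z))) = x (g₀ z) from g₀.apply_symm_apply _, hxy, map_add,
          slot_srootV]
      have hmem : ∀ X, X ∈ T → ∀ Y, Y ∈ T → Y + sroot f 1 v Y = X → X ∈ (Submodule.map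
          (g₀⁻¹ * x * g₀).toLinearMap (smemb i w) ⊓ smemb i w).map ψ.toLinearMap := by
        intro X hX Y hY hYX
        rw [hTdef, Submodule.mem_map_equiv] at hX hY
        refine ⟨ψ.symm X, ⟨⟨ψ.symm Y, hY, ψ.injective ?_⟩, hX⟩, ψ.apply_symm_apply X⟩
        rw [LinearEquiv.coe_coe, hψh, LinearEquiv.apply_symm_apply, LinearEquiv.apply_symm_apply,
          hYX]
      refine Submodule.finrank_lt_finrank_of_lt (SetLike.lt_iff_le_and_exists.2
        ⟨fun X hX => hmem X hX.2 X hX.2 (by rw [Meet.NU hSj hX.1, add_zero]), t, ?_,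
          fun h => htU (Submodule.mem_inf.1 h).1⟩)
      refine hmem t ht (t - sroot f 1 v t) (T.sub_mem ht hNt) ?_
      rw [map_sub, Meet.NU hSj (Meet.imN t), sub_zero, sub_add_cancel]
    · -- the same for the other root
      by_contra huT
      have hnm : g₀ * y * g₀⁻¹ ∉ monoGroup F k (s + 1) := fun h => by
        have := mono_of_conj hM hsc hmove hIH (M.inv_mem hg₀) hw hyy (by rwa [inv_inv])
        exact hg₀m (by simpa using (monoGroup F k (s + 1)).inv_mem this)
      refine absurd (hd _ (M.mul_mem (M.mul_mem hg₀ hy) (M.inv_mem hg₀)) hnm j v j v hv hv)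
        (not_le.2 ?_)
      rw [← hvd, ← LinearEquiv.finrank_map_eq (slot j) (Submodule.map _ _ ⊓ _)]
      have hh : ∀ z, slot j ((g₀ * y * g₀⁻¹) z) = slot j z + Q (slot j z) := fun z => by
        rw [LinearEquiv.mul_apply, LinearEquiv.mul_apply, hyy, map_add, map_add,
          show g₀ (g₀⁻¹ z) = z from g₀.apply_symm_apply z]
        congr 1
        simp [hQ, he, hψ, srootV]
      have hmem : ∀ X, X ∈ memb v → ∀ Y, Y ∈ memb v → Y + Q Y = X → X ∈ (Submodule.map
          (g₀ * y * g₀⁻¹).toLinearMap (smemb j v) ⊓ smemb j v).map (slot j).toLinearMap := by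
        intro X hX Y hY hYX
        refine ⟨(slot j).symm X, ⟨⟨(slot j).symm Y, by rwa [SetLike.mem_coe, mem_smemb,
          LinearEquiv.apply_symm_apply], (slot j).injective ?_⟩, by rwa [SetLike.mem_coe, mem_smemb,
          LinearEquiv.apply_symm_apply]⟩, (slot j).apply_symm_apply X⟩
        rw [LinearEquiv.coe_coe, hh, LinearEquiv.apply_symm_apply, LinearEquiv.apply_symm_apply, hYX]
      have hQT : ∀ X ∈ T, Q X = 0 := fun X hX => by
        obtain ⟨a, ha⟩ := mem_memb.1 ((hmemT X).1 hX)
        simp only [hQ, LinearMap.comp_apply, LinearEquiv.coe_coe, ← ha, sroot_apply, sctr_pure,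
          hf.alt, zero_smul, mulVec_zero, TensorMax.pure_zero_left, map_zero]
      refine Submodule.finrank_lt_finrank_of_lt (SetLike.lt_iff_le_and_exists.2
        ⟨fun X hX => hmem X hX.1 X hX.1 (by rw [hQT X hX.2, add_zero]), u, ?_, fun h => huT (Submodule.mem_inf.1 h).2⟩)
      refine hmem u hu (u - Q u) (Submodule.sub_mem _ hu hQu) ?_
      have hQT' : Q u ∈ T := by
        rw [hmemT, hQ, LinearMap.comp_apply, LinearEquiv.coe_coe, LinearEquiv.symm_apply_apply]
        exact pure_mem_memb _ _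
      rw [map_sub, hQT _ hQT', sub_zero, sub_add_cancel]
    · exact hg₀m (mono_of_member hM hsc hmove hIH hg₀ hw hv fun z hz => hle ⟨z, hz, rfl⟩)
  have hend : ∀ z : Fin k → F, z ≠ 0 → T ≤ memb z → False := fun z hz hle =>
    hg₀m (mono_of_member hM hsc hmove hIH hg₀ hw hz fun x hx => hle ⟨x, hx, rfl⟩)
  have hv₀d : finrank F ↥(memb v₀ ⊓ T) = d := by rw [← hinf]; exact hdatt.symm
  have hMeet := hmeet v₀ hv₀ hv₀d
  rcases hM.small with ⟨hk, hr⟩ | hk
  · obtain ⟨z, hvz, hle⟩ := hMeet.two_dim hSj hk hr (fun g' hg' hlt => by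
      obtain ⟨h, hh, rfl⟩ := hg'
      rw [hv₀d] at hlt
      have hmap : ((memb v₀).map (slotConj j h).toLinearMap ⊓ memb v₀ :
          Submodule F (Matrix (Fin s → Fin k) (Fin k) F))
          = ((smemb j v₀).map h.toLinearMap ⊓ smemb j v₀).map (slot j).toLinearMap := by
        rw [Submodule.map_inf _ (slot j).injective, smemb,
          Submodule.map_comap_eq_of_surjective (slot j).surjective, ← Submodule.map_comp,
          Submodule.comap_equiv_eq_map_symm, ← Submodule.map_comp]
        rfl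
      rw [hmap, LinearEquiv.finrank_map_eq] at hlt
      have hhm : h ∈ monoGroup F k (s + 1) := by
        by_contra hhm
        exact absurd (hd h hh hhm j v₀ j v₀ hv₀ hv₀) (not_le.2 hlt)
      intro u hu
      have h1 := mono_big hf hhm j hv₀ (fun h0 => by rw [h0, finrank_bot] at hlt; omega)
        ((slot j).symm u) (by rwa [mem_smemb, LinearEquiv.apply_symm_apply])
      rw [mem_smemb] at h1
      convert h1 using 1
      simp [slotConj, srootV])
    exact hend z (fun h0 => by simp [h0] at hvz) hle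
  · obtain ⟨hbot, z₀, hvz₀, hT₀⟩ := hMeet.plane hSj hk
    have hd0 : d = 0 := by rw [← hv₀d, hbot, finrank_bot]
    have hall : ∀ a : Fin k → F, a ≠ 0 → ∃ z, f a z = 1 ∧
        ∀ t ∈ T, ∀ b, f b a = 0 → f b z = 0 → sctr f b t = 0 := fun a ha => by
      have : finrank F ↥(memb a ⊓ T) = d := by
        rw [← hinf]
        have := hd g₀ hg₀ hg₀m i w j a hw ha
        omega
      exact ((hmeet a ha this).plane hSj hk).2
    obtain ⟨a, ha0, hav, haz⟩ := TensorMax.exists_ne_zero_orth_two (κ := Fin k) (by simp; omega)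
      (sdual f v₀) (sdual f z₀)
    rw [dotProduct_comm, dotProduct_sdual] at hav haz
    obtain ⟨za, -, hTa⟩ := hall a ha0
    -- a vector in the plane
    obtain ⟨α, β, hαβ, hp⟩ : ∃ α β : F, (α ≠ 0 ∨ β ≠ 0) ∧ α * f v₀ za + β * f z₀ za = 0 := by
      by_cases h0 : f v₀ za = 0
      · exact ⟨1, 0, Or.inl one_ne_zero, by simp [h0]⟩
      · exact ⟨f z₀ za, -f v₀ za, Or.inr (neg_ne_zero.2 h0), by ring⟩
    set p := α • v₀ + β • z₀ with hpdef
    have hpa : f p a = 0 := by
      simp [p, hf.skew a v₀, hf.skew a z₀, hav, haz]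
    have hpza : f p za = 0 := by simpa [p] using hp
    have hpv : f p v₀ = -β := by simp [p, hf.alt, hf.skew v₀ z₀, hvz₀]
    have hpz : f p z₀ = α := by simp [p, hf.alt, hvz₀]
    have hp0 : p ≠ 0 := fun h0 => by
      rcases hαβ with h | h
      · exact h (by rw [← hpz, h0]; simp)
      · exact h (by rw [← neg_eq_zero, ← hpv, h0]; simp)
    refine hend p hp0 fun t ht => mem_memb_of_sctr hf hp0 fun q hq => ?_
    set q₁ := f q z₀ • v₀ - f q v₀ • z₀ with hq₁
    have h0 : sctr f (q - q₁) t = 0 := hT₀ t ht _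
      (by simp [q₁, hf.alt, hf.skew v₀ z₀, hvz₀]) (by simp [q₁, hf.alt, hvz₀])
    have hq' : α * f q v₀ + β * f q z₀ = 0 := by
      rw [hpdef] at hq
      simp only [map_add, map_smul, LinearMap.add_apply, LinearMap.smul_apply, smul_eq_mul,
        hf.skew q v₀, hf.skew q z₀] at hq
      linear_combination -hq
    obtain ⟨c, hc⟩ : ∃ c : F, q₁ = c • p := by
      rcases hαβ with h | h
      · refine ⟨f q z₀ / α, ?_⟩
        have : f q v₀ = -(f q z₀ / α * β) := by field_simp; linear_combination hq'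
        rw [hq₁, hpdef, this]
        match_scalars <;> field_simp
      · refine ⟨-(f q v₀ / β), ?_⟩
        have : f q z₀ = -(f q v₀ / β * α) := by field_simp; linear_combination hq'
        rw [hq₁, hpdef, this]
        match_scalars <;> field_simp
    have h1 : sctr f q₁ t = 0 := by
      have hp' : sctr f p t = 0 := hTa t ht p hpa hpza
      rw [hc, sctr_apply, map_smul, mulVec_smul, ← sctr_apply, hp', smul_zero]
    rw [sctr_apply] at h0 h1 ⊢
    rw [show q = (q - q₁) + q₁ by abel, map_add, mulVec_add, h0, h1, add_zero]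

/-- The factor group of an overgroup is one again. -/
lemma SBase.factor {M : Subgroup (TV F k (s + 2) ≃ₗ[F] TV F k (s + 2))} (hM : SBase f M)
    (i : Fin (s + 2)) : SBase f (WreathTensor14.factor M i) where
  symp := hM.symp
  two := hM.two
  small := hM.small
  sim := by
    rintro a ⟨g, hg, b, hgb⟩
    obtain ⟨c, hc, hsim⟩ := hM.sim g hg
    have hk2 : 2 ≤ k := by rcases hM.small with ⟨h, -⟩ | h <;> omega
    obtain ⟨e₀, he₀⟩ : ∃ e₀ : Fin k → F, e₀ ≠ 0 := ⟨Pi.single ⟨0, by omega⟩ 1, by simp⟩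
    obtain ⟨z₀, hez⟩ := hM.symp.exists_one he₀
    set d := f (b.val *ᵥ e₀) (b.val *ᵥ z₀) with hdef
    have key : ∀ u u', d * tform f (s + 1) (a u) (a u') = c * tform f (s + 1) u u' := fun u u' => by
      have h1 := hsim ((slot i).symm ⟪u⊗e₀⟫) ((slot i).symm ⟪u'⊗z₀⟫)
      rw [← tform_slot i, ← slotConj_apply, ← slotConj_apply, hgb, hgb, sphi_pure_pure,
        ← tform_slot i, LinearEquiv.apply_symm_apply, LinearEquiv.apply_symm_apply, sphi_pure_pure,
        hez, one_mul] at h1
      exact h1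
    have hd : d ≠ 0 := fun h0 => by
      have : Nonempty (Fin k) := ⟨⟨0, by omega⟩⟩
      obtain ⟨u, hu⟩ := exists_ne (0 : TV F k (s + 1))
      refine hu (tform_nd hM.symp _ u fun u' => ?_)
      have h1 := key u u'
      rw [h0, zero_mul, eq_comm, mul_eq_zero] at h1
      exact h1.resolve_left hc
    refine ⟨c / d, div_ne_zero hc hd, fun u u' => ?_⟩
    rw [div_mul_eq_mul_div, eq_div_iff hd, mul_comm, key]
  kron_mem gs hgs := ⟨kronE (Fin.insertNth (α := fun _ => GL (Fin k) F) i 1 gs),
    hM.kron_mem _ fun l => by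
      rcases Fin.eq_self_or_eq_succAbove i l with rfl | ⟨l, rfl⟩
      · simpa using isom_one f
      · simpa using hgs l, 1, fun u w => by
      rw [kronE_insertNth_left, TensorMax.pure, mul_vecMulVec, Units.val_one, one_mulVec]; rfl⟩
  perm_mem σ := ⟨permE (extPerm i i σ), hM.perm_mem _, 1, fun u w => by
    have : (slotConj i (permE (extPerm i i σ))).toLinearMap ∘ₗ TensorMax.pureL w
        = TensorMax.pureL w ∘ₗ (permE (F := F) (m := k) σ).toLinearMap := by
      refine linearMap_ext_pv fun x => ?_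
      simp only [LinearMap.comp_apply, LinearEquiv.coe_coe, TensorMax.pureL_apply, slotConj_apply,
        permE_pv]
      rw [← slot_pv_insertNth i w x, LinearEquiv.symm_apply_apply, permE_pv, slot_pv]
      have hk : (extPerm i i σ)⁻¹ i = i := by
        rw [Equiv.Perm.inv_eq_iff_eq]; simp
      congr 1
      · congr 1
        funext l
        have hi : (extPerm i i σ)⁻¹ (i.succAbove l) = i.succAbove (σ⁻¹ l) := by
          rw [Equiv.Perm.inv_eq_iff_eq]; simp
        rw [Fin.removeNth_apply, hi]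
        simp
      · simp [hk]
    rw [Units.val_one, one_mulVec]
    exact LinearMap.congr_fun this u⟩

set_option maxHeartbeats 1000000 in
/-- Scalar coefficients pass to the factor groups. -/
lemma OnlyScal.factor [Finite F] {M : Subgroup (TV F k (s + 2) ≃ₗ[F] TV F k (s + 2))}
    (hM : SBase f M) (hsc : OnlyScal f M) (i : Fin (s + 2)) :
    OnlyScal f (WreathTensor14.factor M i) := by
  classical
  intro l θ w hw hθ
  have hf := hM.symp
  have hk2 : 2 ≤ k := by rcases hM.small with ⟨h, -⟩ | h <;> omega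
  obtain ⟨a, hamem, hav⟩ := inM_slotGroup_iff.1 hθ
  obtain ⟨g, hg, b, hgb⟩ := hamem
  set N := (slot l).symm.toLinearMap ∘ₗ sroot f θ w ∘ₗ (slot l).toLinearMap with hN
  have hN2 : ∀ y, N (N y) = 0 := fun y => by
    simp only [hN, LinearMap.comp_apply, LinearEquiv.coe_coe, LinearEquiv.apply_symm_apply]
    rw [sroot_apply f θ w (sroot f θ w _), sroot_apply, sctr_pure, hf.alt, zero_smul, mulVec_zero,
      TensorMax.pure_zero_left, map_zero]
  -- a power of unit multiplier
  have := Fintype.ofFinite F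
  obtain ⟨p, hp⟩ := CharP.exists F
  have hpp : p.Prime := CharP.char_is_prime F p
  set n := (Fintype.card F - 1) * (p - 1) with hn
  have hn1 : (n : F) = 1 := by
    rw [hn, Nat.cast_mul, Nat.cast_sub (show 1 ≤ Fintype.card F from Fintype.card_pos), Nat.cast_sub hpp.one_le,
      FiniteField.cast_card_eq_zero, CharP.cast_eq_zero F p, Nat.cast_one]
    ring
  have hpow : ∀ (m : ℕ) y, (a ^ m) y = y + (m : F) • N y := fun m y => by
    induction m generalizing y with
    | zero => simp
    | succ m ih =>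
      rw [pow_succ, LinearEquiv.mul_apply, ih, hav, map_add, hN2, add_zero, Nat.cast_succ, add_smul,
        one_smul]
      abel
  have han : a ^ n = a := LinearEquiv.ext fun y => by rw [hpow, hn1, one_smul, hav]
  have hgn : ∀ (m : ℕ) u v, slotConj i (g ^ m) ⟪u⊗v⟫ = ⟪((a ^ m) u)⊗((b ^ m).val *ᵥ v)⟫ :=
    fun m => by
      induction m with
      | zero => intro u v; simp
      | succ m ih =>
        intro u v
        rw [pow_succ, map_mul, LinearEquiv.mul_apply, hgb, ih, pow_succ a, pow_succ b,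
          LinearEquiv.mul_apply, Units.val_mul, mulVec_mulVec]
  have hcn : ∀ c : F, c ≠ 0 → c ^ n = 1 := fun c hc => by
    rw [hn, pow_mul, FiniteField.pow_card_sub_one_eq_one c hc, one_pow]
  have simpow : ∀ {t : ℕ} {e : TV F k t ≃ₗ[F] TV F k t} {c : F},
      (∀ x y, tform f t (e x) (e y) = c * tform f t x y) →
      ∀ (m : ℕ) x y, tform f t ((e ^ m) x) ((e ^ m) y) = c ^ m * tform f t x y := by
    intro t e c he m
    induction m with
    | zero => simp
    | succ m ih =>
      intro x y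
      rw [pow_succ, LinearEquiv.mul_apply, LinearEquiv.mul_apply, ih, he, pow_succ, mul_assoc]
  obtain ⟨c, hc, hsim⟩ := hM.sim g hg
  obtain ⟨c', hc', hasim⟩ := (hM.factor i).sim a ⟨g, hg, b, hgb⟩
  have haiso : ∀ x y, tform f (s + 1) (a x) (a y) = tform f (s + 1) x y := fun x y => by
    have := simpow hasim n x y
    rwa [han, hcn c' hc', one_mul] at this
  have hgiso : ∀ x y, tform f (s + 2) ((g ^ n) x) ((g ^ n) y) = tform f (s + 2) x y := fun x y => by
    rw [simpow hsim n, hcn c hc, one_mul]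
  have : Nonempty (Fin k) := ⟨⟨0, by omega⟩⟩
  have hb : Isom f (b ^ n) := fun x y => by
    obtain ⟨u, hu⟩ := exists_ne (0 : TV F k (s + 1))
    obtain ⟨u', hu'⟩ : ∃ u', tform f (s + 1) u u' ≠ 0 := by
      by_contra! h0
      exact hu (tform_nd hf _ u h0)
    have h1 := hgiso ((slot i).symm ⟪u⊗x⟫) ((slot i).symm ⟪u'⊗y⟫)
    rw [← tform_slot i, ← slotConj_apply, ← slotConj_apply, hgn, hgn, han, sphi_pure_pure,
      ← tform_slot i, LinearEquiv.apply_symm_apply, LinearEquiv.apply_symm_apply, sphi_pure_pure,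
      haiso] at h1
    exact mul_right_cancel₀ hu' h1
  -- the left part alone
  obtain ⟨e, he, heX⟩ := (hM.wbase.kron_mem (Fin.insertNth (α := fun _ => GL (Fin k) F) i (b ^ n)⁻¹ 1)
    fun m => by
      rcases Fin.eq_self_or_eq_succAbove i m with rfl | ⟨m, rfl⟩
      · simpa using hb.inv
      · simpa using isom_one f) |> fun h => (⟨_, h, fun X => kronE_insertNth_one i (b ^ n)⁻¹ X⟩ :
        ∃ e ∈ M, ∀ X, slotConj i e X = X * ((b ^ n)⁻¹.val)ᵀ)
  set h := e * g ^ n
  have hh : ∀ u v, slotConj i h ⟪u⊗v⟫ = ⟪(a u)⊗v⟫ := fun u v => by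
    rw [map_mul, LinearEquiv.mul_apply, hgn, han, heX, TensorMax.pure, vecMulVec_mul,
      vecMul_transpose, mulVec_mulVec, ← Units.val_mul, inv_mul_cancel, Units.val_one, one_mulVec]
    rfl
  set l' := i.succAbove l
  set k' := l.predAbove i
  let T : Matrix (Fin (s + 1) → Fin k) (Fin (s + 1) → Fin k) F :=
    LinearMap.toMatrix' ((slot k').symm.toLinearMap ∘ₗ mulLeftLinearMap (Fin k) F θ ∘ₗ
      (slot k').toLinearMap)
  have hT : InM (slotGroup M l') (sroot f T w) := by
    refine inM_slotGroup_iff.2 ⟨h, M.mul_mem he (M.pow_mem hg n), fun v => ?_⟩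
    suffices h' : h.toLinearMap = LinearMap.id +
        (slot l').symm.toLinearMap ∘ₗ sroot f T w ∘ₗ (slot l').toLinearMap from
      LinearMap.congr_fun h' v
    refine linearMap_ext_pv fun x => ?_
    have e1 := hh (pv (Fin.removeNth i x)) (x i)
    rw [slotConj_apply, ← slot_pv, LinearEquiv.symm_apply_apply, hav] at e1
    rw [LinearEquiv.coe_coe, LinearMap.add_apply, LinearMap.id_apply]
    apply (slot i).injective
    rw [e1, map_add, TensorMax.pure, add_vecMulVec]
    refine congrArg₂ (· + ·) (slot_pv i x).symm ?_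
    rw [← LinearEquiv.symm_apply_eq]
    simp only [hN, T, LinearMap.comp_apply, LinearEquiv.coe_coe, sroot_apply, slot_pv, sctr_apply,
      TensorMax.pure_mulVec, mulVec_smul, LinearMap.toMatrix'_mulVec, map_smul,
      mulLeftLinearMap_apply]
    simp only [TensorMax.pure, smul_vecMulVec, mul_vecMulVec, mulVec_smul, map_smul]
    have hxl : Fin.removeNth i x l = x l' := Fin.removeNth_apply ..
    have hxk : Fin.removeNth l' x k' = x i := by
      simp [Fin.removeNth_apply, l', k', Fin.succAbove_succAbove_predAbove]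
    have hr : Fin.removeNth l (Fin.removeNth i x) = Fin.removeNth k' (Fin.removeNth l' x) :=
      funext fun m => by
        simp [Fin.removeNth_apply, l', k', Fin.succAbove_succAbove_succAbove_predAbove]
    rw [hxl, hxk, hr]
    exact congrArg _ (symm_pure_swap i l _ _ _)
  obtain ⟨c₁, hc₁⟩ := hsc l' T w hw hT
  refine ⟨c₁, ?_⟩
  ext r r'
  let o : Fin k := ⟨0, by omega⟩
  have := congrFun (congrFun hc₁ (Fin.insertNth (α := fun _ => Fin k) k' o r))
    (Fin.insertNth (α := fun _ => Fin k) k' o r')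
  simp only [T, LinearMap.toMatrix'_apply, LinearMap.comp_apply, LinearEquiv.coe_coe,
    mulLeftLinearMap_apply, WreathTensor14.slot_symm_apply, Fin.removeNth_insertNth,
    Fin.insertNth_apply_same, Matrix.mul_apply, Matrix.smul_apply] at this
  have e2 : (1 : Matrix (Fin (s + 1) → Fin k) (Fin (s + 1) → Fin k) F)
      (Fin.insertNth (α := fun _ => Fin k) k' o r) (Fin.insertNth (α := fun _ => Fin k) k' o r')
      = (1 : Matrix (Fin s → Fin k) (Fin s → Fin k) F) r r' := by
    simp only [one_apply, (Fin.insertNth_right_injective (α := fun _ => Fin k) o).eq_iff]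
  rw [e2, Fintype.sum_eq_single r' fun u hu => by simp [WreathTensor14.slot_apply, hu]] at this
  rw [Matrix.smul_apply, ← this]
  simp [WreathTensor14.slot_apply]

/-- With only scalar coefficients all elements are monomial. -/
theorem mono_all [Finite F] : ∀ (s : ℕ) (M : Subgroup (TV F k (s + 1) ≃ₗ[F] TV F k (s + 1))),
    SBase f M → OnlyScal f M → ∀ g ∈ M, g ∈ monoGroup F k (s + 1) := by
  intro s
  induction s with
  | zero => exact fun _ _ _ g _ => mem_mono_one g
  | succ s ih =>
    exact fun M hM hsc g hg => mono_step hM.wbase hsc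
      (fun i j => ⟨Equiv.swap j i, hM.perm_mem _, Equiv.swap_apply_left _ _⟩)
      (fun i => ih _ (hM.factor i) (hsc.factor hM i)) hg

end CfsgLib.SympWreath17
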