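import Cfsg.Agent.SympWreath17.NonScalar
import Cfsg.Agent.Classical.SympFormStd

/-!
The passage from the coordinates of the tensor power to the standard symplectic group: maximality of
the tensor wreath product follows once the groups with only scalar coefficients are monomial.
-/

set_option autoImplicit false
set_option linter.unusedSectionVars false

namespace CfsgLib.SympWreath17

open Matrix Module Function
open CfsgLib.WreathTensor14 (TV pv toE toE_apply toE_injective monoGroup krGL kronE kronE_pv permE permE_pv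
  map_toE_tensorWreathStandard kronE_mem_mono permE_mem_mono InV)

variable {F : Type*} [Field F] {k t : ℕ} {f : LinearMap.BilinForm F (Fin k → F)}

/-- Monomial maps preserve purity. -/
lemma exists_pv_image {g : TV F k t ≃ₗ[F] TV F k t} (hg : g ∈ monoGroup F k t) (x : Fin t → Fin k → F) :
    ∃ y, g (pv x) = pv y := by
  obtain ⟨σ, gs, rfl⟩ := hg
  exact ⟨_, by rw [LinearEquiv.mul_apply, permE_pv, kronE_pv]⟩

/-- A transvection that is not monomial. -/
lemma exists_stv_not_mono (hf : IsSymp f) (ht : 2 ≤ t) {a b : Fin k → F} (hab : f a b = 1)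
    {g : TV F k t ≃ₗ[F] TV F k t}
    (hg : ∀ v, g v = v + stv (tform f t) 1 (pv fun _ => b) v) : g ∉ monoGroup F k t := by
  classical
  intro hm
  obtain ⟨y, hy⟩ := exists_pv_image hm fun _ => a
  have hba : f b a = -1 := by rw [hf.skew, hab]
  have hB : ∀ w : Fin t → Fin k → F,
      ∏ i, f (y i) (w i) = (∏ i, f a (w i)) + ∏ i, f b (w i) := fun w => by
    rw [← tform_pv, ← hy, hg, stv_apply, tform_pv, map_add, map_smul, LinearMap.add_apply,
      LinearMap.smul_apply, tform_pv, tform_pv]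
    simp [hab]
  have h1 := hB fun _ => b
  have h2 := hB fun _ => a
  simp only [hab, hba, hf.alt, Finset.prod_const, Finset.card_univ, Fintype.card_fin, one_pow,
    zero_pow (show t ≠ 0 by omega), add_zero, zero_add] at h1 h2
  let i₀ : Fin t := ⟨0, by omega⟩
  let i₁ : Fin t := ⟨1, by omega⟩
  have h01 : i₁ ≠ i₀ := by simp [i₀, i₁]
  have h3 := hB (update (fun _ => b) i₀ a)
  have z1 : ∏ i, f a (update (fun _ => b) i₀ a i) = 0 :=
    Finset.prod_eq_zero (Finset.mem_univ i₀) (by simp [hf.alt])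
  have z2 : ∏ i, f b (update (fun _ => b) i₀ a i) = 0 :=
    Finset.prod_eq_zero (Finset.mem_univ i₁) (by simp [update_of_ne h01, hf.alt])
  rw [z1, z2, add_zero, Finset.prod_eq_zero_iff] at h3
  obtain ⟨i, -, hi⟩ := h3
  rcases eq_or_ne i i₀ with rfl | hne
  · rw [update_self] at hi
    rw [Finset.prod_eq_zero (Finset.mem_univ i₀) hi] at h2
    exact pow_ne_zero t (by norm_num : (-1 : F) ≠ 0) h2.symm
  · rw [update_of_ne hne] at hi
    rw [Finset.prod_eq_zero (Finset.mem_univ i) hi] at h1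
    exact zero_ne_one h1

/-- The stabiliser of an odd symplectic tensor power is maximal, given that overgroups with only scalar
coefficients are monomial. -/
theorem isMaximalIn_of_mono [Fintype F] {m s : ℕ} (hm : 7 ≤ m) (hodd : Odd (Fintype.card F))
    (hs : Even s) (hs2 : 2 ≤ s) (hex : ¬ (Fintype.card F = 3 ∧ k = 2))
    (hmono : ∀ (f : LinearMap.BilinForm F (Fin k → F))
      (M : Subgroup (TV F k (s + 1) ≃ₗ[F] TV F k (s + 1))),
      SBase f M → OnlyScal f M → ∀ g ∈ M, g ∈ monoGroup F k (s + 1))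
    (e : (Fin m ⊕ Fin m) ≃ (Fin (s + 1) → Fin k)) (P : GL (Fin m ⊕ Fin m) F)
    {f₁ : (Fin k → F) → (Fin k → F) → F} (hf₁ : Cfsg.Geo.IsSymplecticForm f₁)
    (hT : Cfsg.Geo.IsTensorPowerFormStructure id (Cfsg.sympForm m F) f₁ e P) :
    Cfsg.Geo.IsMaximalIn (Cfsg.spGL m F)
      (Cfsg.Geo.tensorWreathSubgroup k (s + 1) e P ⊓ Cfsg.spGL m F) := by
  classical
  obtain ⟨c, hc, hcT⟩ := hT
  let f : LinearMap.BilinForm F (Fin k → F) := LinearMap.mk₂ F f₁ hf₁.bilinear.add_left
    hf₁.bilinear.smul_left (fun v x y => hf₁.bilinear.add_right v x y)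
    (fun a v x => hf₁.bilinear.smul_right a v x)
  have hf : IsSymp f := ⟨hf₁.alternating, fun x h => by
    by_contra hx
    obtain ⟨y, hy⟩ := (hf₁.nondegenerate x hx).2
    exact hy (h y)⟩
  set Φ := tform f (s + 1) with hΦdef
  let φ : TV F k (s + 1) → (Fin m ⊕ Fin m → F) := fun x =>
    (P : Matrix (Fin m ⊕ Fin m) (Fin m ⊕ Fin m) F) *ᵥ (x ∘ e)
  have hform : ∀ x y, Cfsg.sympForm m F (φ x) (φ y) = c * Φ x y := fun x y => by
    rw [hcT, hΦdef, tform_apply]
    rfl
  have hφ : Surjective φ := fun v =>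
    ⟨(((P⁻¹ : GL (Fin m ⊕ Fin m) F) : Matrix (Fin m ⊕ Fin m) (Fin m ⊕ Fin m) F) *ᵥ v) ∘ e.symm, by
      simp [φ, Function.comp_assoc, Matrix.mulVec_mulVec]⟩
  have hφinj : Injective φ := fun x y hxy => by
    have := congrArg (fun w => ((P⁻¹ : GL (Fin m ⊕ Fin m) F) :
      Matrix (Fin m ⊕ Fin m) (Fin m ⊕ Fin m) F) *ᵥ w) hxy
    simp only [φ, Matrix.mulVec_mulVec, ← Units.val_mul, inv_mul_cancel, Units.val_one,
      one_mulVec] at this
    exact e.surjective.injective_comp_right this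
  have hφadd : ∀ x y, φ (x + y) = φ x + φ y := fun x y => by
    rw [← Matrix.mulVec_add]; rfl
  have hφsmul : ∀ (a : F) x, φ (a • x) = a • φ x := fun a x => by
    rw [← Matrix.mulVec_smul]; rfl
  set ψ : GL (Fin (s + 1) → Fin k) F ≃* GL (Fin m ⊕ Fin m) F :=
    (Cfsg.Geo.glReindex e.symm).trans (MulAut.conj P)
  have hψ : ∀ g u, (ψ g : Matrix (Fin m ⊕ Fin m) (Fin m ⊕ Fin m) F) *ᵥ φ u = φ (toE g u) :=
    fun g u => by
    change ((P : Matrix (Fin m ⊕ Fin m) (Fin m ⊕ Fin m) F) * Matrix.reindex e.symm e.symm g.val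
      * ((P⁻¹ : GL (Fin m ⊕ Fin m) F) : Matrix (Fin m ⊕ Fin m) (Fin m ⊕ Fin m) F)) *ᵥ _ = _
    simp only [φ, ← Matrix.mulVec_mulVec]
    rw [Matrix.mulVec_mulVec (M := ((P⁻¹ : GL (Fin m ⊕ Fin m) F) :
        Matrix (Fin m ⊕ Fin m) (Fin m ⊕ Fin m) F)),
      ← Units.val_mul, inv_mul_cancel, Units.val_one, one_mulVec, Matrix.reindex_apply,
      Matrix.submatrix_mulVec_equiv]
    simp [Function.comp_assoc]
  have hψW : ∀ g, ψ g ∈ Cfsg.Geo.tensorWreathSubgroup k (s + 1) e P ↔
      toE g ∈ monoGroup F k (s + 1) := fun g => by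
    rw [show Cfsg.Geo.tensorWreathSubgroup k (s + 1) e P
        = (Cfsg.Geo.tensorWreathStandard k (s + 1) F).map ψ.toMonoidHom from by
          rw [Cfsg.Geo.tensorWreathSubgroup, Subgroup.map_map]; rfl,
      ← map_toE_tensorWreathStandard]
    exact (Subgroup.mem_map_iff_mem ψ.injective).trans
      (Subgroup.mem_map_iff_mem toE_injective).symm
  have hψK : ∀ g, ψ g ∈ Cfsg.spGL m F ↔ ∀ u v, Φ (toE g u) (toE g v) = Φ u v := fun g => by
    rw [CfsgLib.SympFormStd.mem_spGL]
    refine ⟨fun h u v => ?_, fun h x y => ?_⟩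
    · have := h (φ u) (φ v)
      rw [hψ, hψ, hform, hform] at this
      exact mul_left_cancel₀ hc this
    · obtain ⟨u, rfl⟩ := hφ x
      obtain ⟨v, rfl⟩ := hφ y
      rw [hψ, hψ, hform, hform, h]
  have hk0 : k ≠ 0 := by
    rintro rfl
    have h := Fintype.card_congr e
    simp at h
    omega
  have hkeven : Even k := by
    have h : Even (k ^ (s + 1)) := by
      have := Fintype.card_congr e
      simp at this
      exact this ▸ ⟨m, rfl⟩
    exact (Nat.even_pow.1 h).1
  have h2 : (2 : F) ≠ 0 := fun h =>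
    Nat.not_even_iff_odd.2 hodd (Nat.even_iff.2 (FiniteField.even_card_iff_char_two.1
      (CharP.ringChar_of_prime_eq_zero Nat.prime_two (by exact_mod_cast h))))
  have hsmall : (k = 2 ∧ ∃ r : F, r ≠ 0 ∧ r ^ 2 ≠ 1) ∨ 4 ≤ k := by
    rcases eq_or_ne k 2 with hk | hk
    · refine Or.inl ⟨hk, ?_⟩
      by_contra! hr
      have hle : Finset.univ ⊆ ({0, 1, -1} : Finset F) := fun r _ => by
        rcases eq_or_ne r 0 with h | h
        · simp [h]
        · rcases sq_eq_one_iff.1 (hr r h) with h' | h' <;> simp [h']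
      have hcard := (Finset.card_le_card hle).trans Finset.card_le_three
      rw [Finset.card_univ] at hcard
      obtain ⟨r, hr⟩ := hodd
      have : 1 < Fintype.card F := Fintype.one_lt_card
      exact hex ⟨by omega, hk⟩
    · obtain ⟨r, hr⟩ := hkeven
      exact Or.inr (by omega)
  refine ⟨lt_of_le_of_ne inf_le_right fun h => ?_, fun M hle hMle => ?_⟩
  · -- some transvection is not monomial
    obtain ⟨b, hb⟩ := hf.exists_one (x := Pi.single (⟨0, Nat.pos_of_ne_zero hk0⟩ : Fin k) 1) (by simp)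
    obtain ⟨g, hg⟩ := ψ.surjective
      (CfsgLib.AltFormTransv.sympT (CfsgLib.SympFormStd.isSymplecticForm m F) (φ (pv fun _ => b)) c⁻¹)
    refine exists_stv_not_mono hf (by omega) hb (g := toE g) (fun u => hφinj ?_)
      ((hψW g).1 (hg ▸ (h.ge (CfsgLib.SympFormStd.sympT_mem_spGL _ _)).1))
    rw [← hψ, hg, CfsgLib.AltFormTransv.sympT_mulVec, hform, ← mul_assoc, inv_mul_cancel₀ hc,
      stv_apply, hφadd, hφsmul]
  set M' : Subgroup (TV F k (s + 1) ≃ₗ[F] TV F k (s + 1)) := (M.comap ψ.toMonoidHom).map toE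
  have hlift : ∀ {h}, h ∈ monoGroup F k (s + 1) → (∀ u v, Φ (h u) (h v) = Φ u v) → h ∈ M' := by
    intro h hh hi
    obtain ⟨g, -, rfl⟩ := (map_toE_tensorWreathStandard (F := F) k (s + 1)).ge hh
    exact Subgroup.mem_map_of_mem _ (hle ⟨(hψW g).2 hh, (hψK g).2 hi⟩ : ψ g ∈ M)
  have hS : SBase f M' :=
    { symp := hf
      two := h2
      small := hsmall
      sim := by
        rintro _ ⟨g, hg, rfl⟩
        exact ⟨1, one_ne_zero, fun u v => by rw [one_mul]; exact (hψK g).1 (hMle hg) u v⟩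
      kron_mem := fun gs hiso => hlift (kronE_mem_mono gs) fun u v => by
        have := kronE_sim (f := f) (gs := gs) (cs := fun _ => 1)
          (fun i x y => by rw [one_mul]; exact hiso i x y) u v
        rwa [Finset.prod_const_one, one_mul] at this
      perm_mem := fun σ => hlift (permE_mem_mono σ) (permE_sim σ) }
  by_cases hsc : OnlyScal f M'
  · refine Or.inl (le_antisymm (le_inf (fun g hg => ?_) hMle) hle)
    obtain ⟨g, rfl⟩ := ψ.surjective g
    exact (hψW g).2 (hmono f M' hS hsc _ (Subgroup.mem_map_of_mem _ hg))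
  · refine Or.inr (le_antisymm hMle (CfsgLib.SympFormStd.spGL_le_of_sympT_mem M fun v d => ?_))
    obtain ⟨Z, rfl⟩ := hφ v
    obtain ⟨_, ⟨g, hg, rfl⟩, hgX⟩ := inV_stv_of_not_onlyScal hS hs hs2 hsc (d * c) Z
    convert (Subgroup.mem_comap.1 hg) using 1
    refine CfsgLib.TransvGL.ext_mulVec fun x => ?_
    obtain ⟨u, rfl⟩ := hφ x
    change _ = (ψ g : Matrix (Fin m ⊕ Fin m) (Fin m ⊕ Fin m) F) *ᵥ φ u
    rw [CfsgLib.AltFormTransv.sympT_mulVec, hψ, hgX, stv_apply, hform, hφadd, hφsmul, ← mul_assoc]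

end CfsgLib.SympWreath17
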