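import Cfsg.Agent.WreathTensor14.Basic

/-!
The tensor power of an alternating form in coordinates, and groups of its similitudes containing
the products of isometries of the factors and the permutations of the factors.
-/

set_option autoImplicit false
set_option linter.unusedSectionVars false

namespace CfsgLib.SympWreath17

open Matrix Module
open CfsgLib.TensorMax (InM rootMap pure pure_mulVec rootMap_apply)
open CfsgLib.WreathTensor14 (TV pv slot slot_apply slot_pv slotGroup slotConj kronE kronE_pv permE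
  permE_pv InV linearMap_ext_pv)

variable {F : Type*} [Field F] {k t s : ℕ} {ι : Type} [Fintype ι] [DecidableEq ι]

/-- A non-degenerate alternating form. -/
structure IsSymp (f : LinearMap.BilinForm F (Fin k → F)) : Prop where
  alt : ∀ x, f x x = 0
  nd : ∀ x, (∀ y, f x y = 0) → x = 0

/-- The covector `z ↦ f z w`. -/
def sdual (f : LinearMap.BilinForm F (Fin k → F)) : (Fin k → F) →ₗ[F] (Fin k → F) where
  toFun w := fun j => f (Pi.single j 1) w
  map_add' u v := funext fun j => by simp
  map_smul' c u := funext fun j => by simp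

/-- The rank one map `z ↦ f z w • w`. -/
def nmat (f : LinearMap.BilinForm F (Fin k → F)) (w : Fin k → F) : Matrix (Fin k) (Fin k) F :=
  vecMulVec w (sdual f w)

/-- The rank two map `z ↦ f z v • u - f z u • v`. -/
def amat (f : LinearMap.BilinForm F (Fin k → F)) (u v : Fin k → F) : Matrix (Fin k) (Fin k) F :=
  vecMulVec u (sdual f v) - vecMulVec v (sdual f u)

/-- The contraction with a vector of the second factor. -/
def sctr (f : LinearMap.BilinForm F (Fin k → F)) (w : Fin k → F) :
    Matrix ι (Fin k) F →ₗ[F] (ι → F) where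
  toFun X := X *ᵥ sdual f w
  map_add' X Y := add_mulVec X Y _
  map_smul' c X := smul_mulVec c X _

/-- The root map with coefficient `θ`. -/
def sroot (f : LinearMap.BilinForm F (Fin k → F)) (θ : Matrix ι ι F) (w : Fin k → F) :
    Matrix ι (Fin k) F →ₗ[F] Matrix ι (Fin k) F := rootMap θ w (sdual f w)

/-- The product of two forms. -/
def sphi (b : LinearMap.BilinForm F (ι → F)) (f : LinearMap.BilinForm F (Fin k → F)) :
    LinearMap.BilinForm F (Matrix ι (Fin k) F) :=
  LinearMap.mk₂ F
    (fun X Y => ∑ j, ∑ l, b (Xᵀ j) (Yᵀ l) * f (Pi.single j 1) (Pi.single l 1))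
    (fun X X' Y => by
      simp only [← Finset.sum_add_distrib, ← add_mul]
      refine Finset.sum_congr rfl fun j _ => Finset.sum_congr rfl fun l _ => ?_
      rw [← LinearMap.add_apply, ← map_add]
      rfl)
    (fun c X Y => by
      simp only [smul_eq_mul, Finset.mul_sum]
      refine Finset.sum_congr rfl fun j _ => Finset.sum_congr rfl fun l _ => ?_
      rw [show (c • X)ᵀ j = c • Xᵀ j from rfl, map_smul, LinearMap.smul_apply, smul_eq_mul,
        mul_assoc])
    (fun X Y Y' => by
      simp only [← Finset.sum_add_distrib, ← add_mul]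
      refine Finset.sum_congr rfl fun j _ => Finset.sum_congr rfl fun l _ => ?_
      rw [← map_add]
      rfl)
    (fun c X Y => by
      simp only [smul_eq_mul, Finset.mul_sum]
      refine Finset.sum_congr rfl fun j _ => Finset.sum_congr rfl fun l _ => ?_
      rw [show (c • Y)ᵀ l = c • Yᵀ l from rfl, map_smul, smul_eq_mul, mul_assoc])

/-- The tensor power of a form, in coordinates. -/
def tform (f : LinearMap.BilinForm F (Fin k → F)) (t : ℕ) : LinearMap.BilinForm F (TV F k t) :=
  Matrix.toBilin' (Matrix.of fun p q => ∏ i, f (Pi.single (p i) 1) (Pi.single (q i) 1))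

/-- The transvection map with centre `v`. -/
def stv {V : Type*} [AddCommGroup V] [Module F V] (B : LinearMap.BilinForm F V) (c : F) (v : V) :
    V →ₗ[F] V :=
  (LinearMap.toSpanSingleton F V v).comp (c • B.flip v)

@[simp] lemma stv_apply {V : Type*} [AddCommGroup V] [Module F V] (B : LinearMap.BilinForm F V)
    (c : F) (v X : V) : stv B c v X = (c * B X v) • v := by simp [stv]

lemma sdual_apply (f : LinearMap.BilinForm F (Fin k → F)) (w : Fin k → F) (j : Fin k) :
    sdual f w j = f (Pi.single j 1) w := rfl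

lemma dotProduct_sdual (f : LinearMap.BilinForm F (Fin k → F)) (z w : Fin k → F) :
    z ⬝ᵥ sdual f w = f z w := by
  conv_rhs => rw [pi_eq_sum_univ' z, map_sum, LinearMap.sum_apply]
  exact Finset.sum_congr rfl fun j _ => by simp [sdual]

@[simp] lemma sctr_apply (f : LinearMap.BilinForm F (Fin k → F)) (w : Fin k → F)
    (X : Matrix ι (Fin k) F) : sctr f w X = X *ᵥ sdual f w := rfl

lemma sctr_pure (f : LinearMap.BilinForm F (Fin k → F)) (u : ι → F) (z w : Fin k → F) :
    sctr f w (pure u z) = f z w • u := by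
  rw [sctr_apply, pure_mulVec, dotProduct_sdual]

@[simp] lemma sroot_apply (f : LinearMap.BilinForm F (Fin k → F)) (θ : Matrix ι ι F)
    (w : Fin k → F) (X : Matrix ι (Fin k) F) :
    sroot f θ w X = pure (θ *ᵥ sctr f w X) w := rfl

lemma nmat_mulVec (f : LinearMap.BilinForm F (Fin k → F)) (w z : Fin k → F) :
    nmat f w *ᵥ z = f z w • w := by
  rw [nmat, vecMulVec_mulVec, dotProduct_comm, dotProduct_sdual]
  ext i; simp [mul_comm]

lemma amat_mulVec (f : LinearMap.BilinForm F (Fin k → F)) (u v z : Fin k → F) :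
    amat f u v *ᵥ z = f z v • u - f z u • v := by
  rw [amat, sub_mulVec, vecMulVec_mulVec, vecMulVec_mulVec, dotProduct_comm, dotProduct_sdual,
    dotProduct_comm, dotProduct_sdual]
  ext i; simp [mul_comm]

lemma IsSymp.skew {f : LinearMap.BilinForm F (Fin k → F)} (hf : IsSymp f) (x y : Fin k → F) :
    f y x = -f x y := by
  have := hf.alt (x + y)
  simp only [map_add, LinearMap.add_apply, hf.alt, zero_add, add_zero] at this
  exact eq_neg_of_add_eq_zero_left this

lemma IsSymp.ne_zero_comm {f : LinearMap.BilinForm F (Fin k → F)} (hf : IsSymp f) {x y : Fin k → F}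
    (h : f x y ≠ 0) : f y x ≠ 0 := by rw [hf.skew]; exact neg_ne_zero.2 h

lemma IsSymp.exists_one {f : LinearMap.BilinForm F (Fin k → F)} (hf : IsSymp f) {x : Fin k → F}
    (hx : x ≠ 0) : ∃ y, f x y = 1 := by
  obtain ⟨y, hy⟩ : ∃ y, f x y ≠ 0 := by
    by_contra! h0
    exact hx (hf.nd x h0)
  exact ⟨(f x y)⁻¹ • y, by simp [inv_mul_cancel₀ hy]⟩

lemma IsSymp.nondegenerate {f : LinearMap.BilinForm F (Fin k → F)} (hf : IsSymp f) :
    f.Nondegenerate :=
  ⟨hf.nd, fun y h => hf.nd y fun x => by rw [hf.skew, h x, neg_zero]⟩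

/-- A matrix preserving the form. -/
def Isom (f : LinearMap.BilinForm F (Fin k → F)) (a : GL (Fin k) F) : Prop :=
  ∀ x y, f (a.val *ᵥ x) (a.val *ᵥ y) = f x y

/-- The transvection as a matrix. -/
lemma exists_transvection {f : LinearMap.BilinForm F (Fin k → F)} (hf : IsSymp f) (c : F)
    (w : Fin k → F) :
    ∃ a : GL (Fin k) F, Isom f a ∧ a.val = 1 + c • nmat f w ∧
      (∀ z, a.val *ᵥ z = z + (c * f z w) • w) ∧ a⁻¹.val = 1 - c • nmat f w := by
  have hsq : (c • nmat f w) * (c • nmat f w) = 0 := Matrix.ext_of_mulVec_single fun j => by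
    simp only [← mulVec_mulVec, smul_mulVec, nmat_mulVec, map_smul, LinearMap.smul_apply, hf.alt,
      smul_zero, zero_smul, zero_mulVec]
  let a : GL (Fin k) F := ⟨1 + c • nmat f w, 1 - c • nmat f w,
    by rw [add_mul, mul_sub, mul_sub, hsq]; simp,
    by rw [sub_mul, mul_add, mul_add, hsq]; simp⟩
  have hz : ∀ z, a.val *ᵥ z = z + (c * f z w) • w := fun z => by
    simp [a, add_mulVec, smul_mulVec, nmat_mulVec, smul_smul]
  refine ⟨a, fun x y => ?_, rfl, hz, rfl⟩
  simp only [hz, map_add, map_smul, LinearMap.add_apply, LinearMap.smul_apply, smul_eq_mul, hf.alt,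
    hf.skew y w]
  ring

lemma Isom.mul {f : LinearMap.BilinForm F (Fin k → F)} {a b : GL (Fin k) F} (ha : Isom f a)
    (hb : Isom f b) : Isom f (a * b) := fun x y => by
  simp only [Units.val_mul, ← mulVec_mulVec]
  rw [ha, hb]

lemma Isom.inv {f : LinearMap.BilinForm F (Fin k → F)} {a : GL (Fin k) F} (ha : Isom f a) :
    Isom f a⁻¹ := fun x y => by
  rw [← ha (a⁻¹.val *ᵥ x), mulVec_mulVec, mulVec_mulVec, ← Units.val_mul, mul_inv_cancel,
    Units.val_one, one_mulVec, one_mulVec]

lemma isom_one (f : LinearMap.BilinForm F (Fin k → F)) : Isom f 1 := fun x y => by simp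

/-- Isometries are transitive on non-zero vectors. -/
lemma exists_isom_map {f : LinearMap.BilinForm F (Fin k → F)} (hf : IsSymp f) {x y : Fin k → F}
    (hx : x ≠ 0) (hy : y ≠ 0) : ∃ a : GL (Fin k) F, Isom f a ∧ a.val *ᵥ x = y := by
  have direct : ∀ u v, f u v ≠ 0 → ∃ a : GL (Fin k) F, Isom f a ∧ a.val *ᵥ u = v := by
    intro u v huv
    obtain ⟨a, ha, -, haz, -⟩ := exists_transvection hf (f u v)⁻¹ (v - u)
    refine ⟨a, ha, ?_⟩
    rw [haz, map_sub, hf.alt, sub_zero, inv_mul_cancel₀ huv, one_smul, add_sub_cancel]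
  obtain ⟨z, hxz, hzy⟩ : ∃ z, f x z ≠ 0 ∧ f z y ≠ 0 := by
    obtain ⟨z₁, h₁⟩ := hf.exists_one hx
    obtain ⟨z₂, h₂⟩ := hf.exists_one hy
    have h₂' : f z₂ y ≠ 0 := by rw [hf.skew, h₂]; simp
    by_cases e1 : f z₁ y = 0
    · by_cases e2 : f x z₂ = 0
      · exact ⟨z₁ + z₂, by simp [h₁, e2], by simp [e1, h₂']⟩
      · exact ⟨z₂, e2, h₂'⟩
    · exact ⟨z₁, by simp [h₁], e1⟩
  obtain ⟨a, ha, hax⟩ := direct x z hxz
  obtain ⟨b, hb, hbz⟩ := direct z y hzy
  exact ⟨b * a, hb.mul ha, by rw [Units.val_mul, ← mulVec_mulVec, hax, hbz]⟩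

section phi

variable (b : LinearMap.BilinForm F (ι → F)) (f : LinearMap.BilinForm F (Fin k → F))

lemma sphi_apply (X Y : Matrix ι (Fin k) F) :
    sphi b f X Y = ∑ j, ∑ l, b (Xᵀ j) (Yᵀ l) * f (Pi.single j 1) (Pi.single l 1) := rfl

lemma sphi_pure_right (X : Matrix ι (Fin k) F) (u : ι → F) (z : Fin k → F) :
    sphi b f X (pure u z) = b (sctr f z X) u := by
  have hp : ∀ l, (pure u z)ᵀ l = z l • u := fun l => funext fun i => by
    simp [TensorMax.pure, vecMulVec_apply, mul_comm]
  have hX : X *ᵥ sdual f z = ∑ j, f (Pi.single j 1) z • Xᵀ j := funext fun i => by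
    simp [mulVec, dotProduct, sdual_apply, mul_comm]
  rw [sphi_apply, sctr_apply, hX, map_sum, LinearMap.sum_apply]
  refine Finset.sum_congr rfl fun j _ => ?_
  conv_rhs => rw [pi_eq_sum_univ' z, map_sum]
  simp only [hp, map_smul, LinearMap.smul_apply, smul_eq_mul, Finset.sum_mul]
  exact Finset.sum_congr rfl fun l _ => by ring

lemma sphi_pure_pure (u u' : ι → F) (z z' : Fin k → F) :
    sphi b f (pure u z) (pure u' z') = f z z' * b u u' := by
  rw [sphi_pure_right, sctr_pure, map_smul, LinearMap.smul_apply, smul_eq_mul]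

end phi

section tform

variable {f : LinearMap.BilinForm F (Fin k → F)}

lemma tform_apply (u v : TV F k t) : tform f t u v =
    ∑ p, ∑ q, u p * (∏ i, f (Pi.single (p i) 1) (Pi.single (q i) 1)) * v q := by
  rw [tform, Matrix.toBilin'_apply]
  rfl

lemma expand_form (x y : Fin k → F) :
    f x y = ∑ a, ∑ c, x a * f (Pi.single a 1) (Pi.single c 1) * y c := by
  conv_lhs => rw [pi_eq_sum_univ' x, map_sum, LinearMap.sum_apply]
  refine Finset.sum_congr rfl fun a _ => ?_
  conv_lhs => rw [pi_eq_sum_univ' y, map_sum]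
  exact Finset.sum_congr rfl fun c _ => by simp; ring

lemma tform_pv (x y : Fin t → Fin k → F) : tform f t (pv x) (pv y) = ∏ i, f (x i) (y i) := by
  simp only [expand_form (x _) (y _)]
  rw [tform_apply, Fintype.prod_sum]
  refine Finset.sum_congr rfl fun p _ => ?_
  rw [Fintype.prod_sum]
  refine Finset.sum_congr rfl fun q _ => ?_
  simp only [pv, Finset.prod_mul_distrib]

/-- Splitting the form along one factor. -/
lemma tform_slot (i : Fin (s + 1)) (u v : TV F k (s + 1)) :
    sphi (tform f s) f (slot i u) (slot i v) = tform f (s + 1) u v := by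
  let e : Fin k × (Fin s → Fin k) ≃ (Fin (s + 1) → Fin k) := Fin.insertNthEquiv (fun _ => Fin k) i
  symm
  rw [tform_apply, ← e.sum_comp, Fintype.sum_prod_type, sphi_apply]
  refine Finset.sum_congr rfl fun a _ => ?_
  calc _ = ∑ p, ∑ c, ∑ q, u (e (a, p))
        * (∏ j, f (Pi.single (e (a, p) j) 1) (Pi.single (e (c, q) j) 1)) * v (e (c, q)) :=
        Finset.sum_congr rfl fun p _ => by rw [← e.sum_comp, Fintype.sum_prod_type]
    _ = _ := by
      rw [Finset.sum_comm]
      refine Finset.sum_congr rfl fun c _ => ?_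
      rw [tform_apply, Finset.sum_mul]
      refine Finset.sum_congr rfl fun p _ => ?_
      rw [Finset.sum_mul]
      refine Finset.sum_congr rfl fun q _ => ?_
      rw [Fin.prod_univ_succAbove _ i]
      simp only [e, Fin.insertNthEquiv, Equiv.coe_fn_mk, Fin.insertNth_apply_same,
        Fin.insertNth_apply_succAbove, slot_apply, Matrix.transpose_apply]
      ring

lemma tform_comm (hf : IsSymp f) (u v : TV F k t) :
    tform f t v u = (-1) ^ t * tform f t u v := by
  rw [tform_apply, tform_apply, Finset.sum_comm, Finset.mul_sum]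
  refine Finset.sum_congr rfl fun p _ => ?_
  rw [Finset.mul_sum]
  refine Finset.sum_congr rfl fun q _ => ?_
  simp only [hf.skew (Pi.single (p _) (1 : F)), Finset.prod_neg, Finset.card_univ, Fintype.card_fin]
  ring

/-- The forms agree if they agree on pure vectors. -/
lemma form_ext_pv {B C : LinearMap.BilinForm F (TV F k t)}
    (h : ∀ x y, B (pv x) (pv y) = C (pv x) (pv y)) : B = C :=
  linearMap_ext_pv fun x => linearMap_ext_pv fun y => h x y

/-- Similitude on pure vectors suffices. -/
lemma sim_of_pv {g : TV F k t ≃ₗ[F] TV F k t} {c : F}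
    (h : ∀ x y, tform f t (g (pv x)) (g (pv y)) = c * tform f t (pv x) (pv y)) (u v : TV F k t) :
    tform f t (g u) (g v) = c * tform f t u v := by
  have := form_ext_pv (B := (tform f t).compl₁₂ (g : TV F k t →ₗ[F] TV F k t)
    (g : TV F k t →ₗ[F] TV F k t)) (C := c • tform f t) fun x y => by simpa using h x y
  exact LinearMap.congr_fun₂ this u v

lemma kronE_sim {gs : Fin t → GL (Fin k) F} {cs : Fin t → F}
    (h : ∀ i x y, f ((gs i).val *ᵥ x) ((gs i).val *ᵥ y) = cs i * f x y) (u v : TV F k t) :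
    tform f t (kronE gs u) (kronE gs v) = (∏ i, cs i) * tform f t u v :=
  sim_of_pv (fun x y => by simp only [kronE_pv, tform_pv, h, Finset.prod_mul_distrib]) u v

lemma permE_sim (σ : Equiv.Perm (Fin t)) (u v : TV F k t) :
    tform f t (permE σ u) (permE σ v) = tform f t u v := by
  rw [sim_of_pv (c := 1) (fun x y => ?_) u v, one_mul]
  rw [permE_pv, permE_pv, tform_pv, tform_pv, one_mul]
  exact Equiv.prod_comp σ⁻¹ fun i => f (x i) (y i)

end tform

/-- An overgroup of the tensor wreath product in a group of similitudes. -/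
structure SBase (f : LinearMap.BilinForm F (Fin k → F))
    (M : Subgroup (TV F k t ≃ₗ[F] TV F k t)) : Prop where
  symp : IsSymp f
  two : (2 : F) ≠ 0
  small : (k = 2 ∧ ∃ r : F, r ≠ 0 ∧ r ^ 2 ≠ 1) ∨ 4 ≤ k
  sim : ∀ g ∈ M, ∃ c : F, c ≠ 0 ∧ ∀ u v, tform f t (g u) (g v) = c * tform f t u v
  kron_mem : ∀ gs : Fin t → GL (Fin k) F, (∀ i, Isom f (gs i)) → kronE gs ∈ M
  perm_mem : ∀ σ : Equiv.Perm (Fin t), permE σ ∈ M

/-- Every coefficient of a root element is scalar. -/
def OnlyScal (f : LinearMap.BilinForm F (Fin k → F))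
    (M : Subgroup (TV F k (s + 1) ≃ₗ[F] TV F k (s + 1))) : Prop :=
  ∀ (i : Fin (s + 1)) (θ : Matrix (Fin s → Fin k) (Fin s → Fin k) F) (w : Fin k → F), w ≠ 0 →
    InM (slotGroup M i) (sroot f θ w) → ∃ c : F, θ = c • 1

end CfsgLib.SympWreath17
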