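import Cfsg.Agent.SympWreath17.Slot

/-!
A group of similitudes of an odd tensor power of an alternating form containing the transvections centred
at the pure tensors contains all transvections.
-/

set_option autoImplicit false
set_option linter.unusedSectionVars false

namespace CfsgLib.SympWreath17

open Matrix Module Function
open CfsgLib.WreathTensor14 (TV pv pv_single InV)

variable {F : Type*} [Field F] {k t : ℕ} {f : LinearMap.BilinForm F (Fin k → F)}

lemma pv_update (x : Fin t → Fin k → F) (j : Fin t) (a : Fin k → F) (p : Fin t → Fin k) :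
    pv (update x j a) p = a (p j) * ∏ i ∈ Finset.univ \ {j}, x i (p i) := by
  rw [pv, ← Finset.prod_update_of_mem (Finset.mem_univ j) (fun i => x i (p i)) (a (p j))]
  refine Finset.prod_congr rfl fun i _ => ?_
  rcases eq_or_ne i j with rfl | h <;> simp [*]

lemma pv_update_add (x : Fin t → Fin k → F) (j : Fin t) (a b : Fin k → F) :
    pv (update x j (a + b)) = pv (update x j a) + pv (update x j b) :=
  funext fun p => by simp [pv_update, add_mul]

lemma pv_update_smul (x : Fin t → Fin k → F) (j : Fin t) (c : F) (a : Fin k → F) :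
    pv (update x j (c • a)) = c • pv (update x j a) :=
  funext fun p => by simp [pv_update, mul_assoc]

lemma pv_smul (c : Fin t → F) (x : Fin t → Fin k → F) :
    pv (fun i => c i • x i) = (∏ i, c i) • pv x :=
  funext fun p => by simp [pv, Finset.prod_mul_distrib]

lemma pv_zero_of {x : Fin t → Fin k → F} {j : Fin t} (h : x j = 0) : pv x = 0 :=
  funext fun p => Finset.prod_eq_zero (Finset.mem_univ j) (by simp [h])

/-- A centre of transvections in `M`. -/
def Cen (f : LinearMap.BilinForm F (Fin k → F)) (M : Subgroup (TV F k t ≃ₗ[F] TV F k t))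
    (x : TV F k t) : Prop :=
  ∀ c, InV M (stv (tform f t) c x)

variable {M : Subgroup (TV F k t ≃ₗ[F] TV F k t)}

lemma cen_zero : Cen f M 0 := fun c => ⟨1, M.one_mem, fun v => by simp⟩

/-- A functional vanishing on the pure tensors in general position to a given one is zero. -/
lemma exists_pure_avoid (hf : IsSymp f) {y : Fin t → Fin k → F} (hy : ∀ i, y i ≠ 0)
    {φ : TV F k t →ₗ[F] F} (hφ : φ ≠ 0) :
    ∃ z : Fin t → Fin k → F, (∀ i, f (y i) (z i) ≠ 0) ∧ φ (pv z) ≠ 0 := by
  by_contra! hc
  refine hφ (WreathTensor14.linearMap_ext_pv fun x => ?_)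
  suffices h : ∀ R : Finset (Fin t), ∀ z, (∀ j ∉ R, f (y j) (z j) ≠ 0) → φ (pv z) = 0 by
    simpa using h Finset.univ x (by simp)
  intro R
  induction R using Finset.induction_on with
  | empty => exact fun z hz => hc z fun j => hz j (by simp)
  | @insert j R hj ih =>
    intro z hz
    by_cases hg : f (y j) (z j) = 0
    · obtain ⟨w, hw⟩ := hf.exists_one (hy j)
      have h1 := ih (update z j (z j + w)) fun i hi => by
        rcases eq_or_ne i j with rfl | hne
        · simp [hg, hw]
        · rw [update_of_ne hne]; exact hz i (by simp [hi, hne])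
      have h2 := ih (update z j w) fun i hi => by
        rcases eq_or_ne i j with rfl | hne
        · simp [hw]
        · rw [update_of_ne hne]; exact hz i (by simp [hi, hne])
      rw [pv_update_add, update_eq_self, map_add, h2, add_zero] at h1
      exact h1
    · exact ih z fun i hi => by
        rcases eq_or_ne i j with rfl | hne
        · exact hg
        · exact hz i (by simp [hi, hne])

/-- The transvections centred at pure tensors give all of them. -/
theorem cen_all (hM : SBase f M) (ht : Odd t) (hpure : ∀ v, Cen f M (pv v)) (x : TV F k t) :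
    Cen f M x := by
  set B := tform f t
  have hskew : ∀ u v, B v u = -B u v := fun u v => by
    rw [tform_comm hM.symp u v, ht.neg_one_pow, neg_one_mul]
  have halt : ∀ u, B u u = 0 := fun u => by
    have h : (2 : F) * B u u = 0 := by linear_combination hskew u u
    exact (mul_eq_zero.1 h).resolve_left hM.two
  have hBpv : ∀ u v, B (pv u) (pv v) = ∏ i, f (u i) (v i) := fun u v => tform_pv u v
  have move : ∀ (u v : TV F k t) (r : F), Cen f M u → Cen f M v → B u v ≠ 0 → Cen f M (u + r • v) := by
    intro u v r hu hv huv c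
    obtain ⟨g, hg, hgX⟩ := hv (r / B u v)
    obtain ⟨μ, hμ, hsim⟩ := hM.sim g hg
    obtain ⟨e, he, heX⟩ := hu (c * μ)
    have hgu : g u = u + r • v := by rw [hgX, stv_apply, div_mul_cancel₀ _ huv]
    refine ⟨g * e * g⁻¹, M.mul_mem (M.mul_mem hg he) (M.inv_mem hg), fun X => ?_⟩
    obtain ⟨Y, rfl⟩ := g.surjective X
    change g (e (g.symm (g Y))) = _
    rw [g.symm_apply_apply, heX, map_add, stv_apply, map_smul, hgu, stv_apply, ← hgu, hsim]
    congr 2
    ring
  have good : ∀ u v z, Cen f M u → Cen f M v → Cen f M z → B u v = 0 → B u z ≠ 0 → B v z ≠ 0 →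
      B (u + v) z ≠ 0 → Cen f M (u + v) := by
    intro u v z hu hv hz huv h1 h2 h3
    have hvz : Cen f M (v + z) := by simpa using move v z 1 hv hz h2
    have huvz : Cen f M (u + (v + z)) := by
      simpa using move u (v + z) 1 hu hvz (by rw [map_add, huv, zero_add]; exact h1)
    have h4 := move (u + (v + z)) z (-1) huvz hz (by
      simpa [halt, add_assoc] using h3)
    convert h4 using 1
    module
  have addPure : ∀ u y, Cen f M u → Cen f M (u + pv y) := by
    intro u y hu
    rcases eq_or_ne u 0 with rfl | hu0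
    · simpa using hpure y
    by_cases hy0 : ∃ i, y i = 0
    · obtain ⟨i, hi⟩ := hy0
      rwa [pv_zero_of hi, add_zero]
    push Not at hy0
    by_cases huy : B u (pv y) = 0
    swap
    · simpa using move u (pv y) 1 hu (hpure y) huy
    rcases eq_or_ne (u + pv y) 0 with h0 | h0
    · rw [h0]; exact cen_zero
    have nd : ∀ u : TV F k t, u ≠ 0 → ∃ z : Fin t → Fin k → F,
        B (pv y) (pv z) ≠ 0 ∧ B u (pv z) ≠ 0 := by
      intro u hu
      obtain ⟨z, hz1, hz2⟩ := exists_pure_avoid hM.symp hy0 (φ := B u) fun h => hu (by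
        exact tform_nd hM.symp t u fun v => LinearMap.congr_fun h v)
      exact ⟨z, by rw [hBpv]; exact Finset.prod_ne_zero_iff.2 fun i _ => hz1 i, hz2⟩
    obtain ⟨z₂, hb, hs⟩ := nd _ h0
    by_cases ha : B u (pv z₂) = 0
    swap
    · exact good _ _ _ hu (hpure y) (hpure z₂) huy ha hb hs
    obtain ⟨z₁, hb₁, ha₁⟩ := nd _ hu0
    by_cases hs₁ : B (u + pv y) (pv z₁) = 0
    swap
    · exact good _ _ _ hu (hpure y) (hpure z₁) huy ha₁ hb₁ hs₁
    have hyy : B (pv z₂) (pv y) ≠ 0 := by rw [hskew]; exact neg_ne_zero.2 hb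
    obtain ⟨q, hq, hzq, huq, hyq⟩ : ∃ q, Cen f M q ∧ B (pv z₁) q ≠ 0 ∧ B u q = 0 ∧
        B (pv y) q = B (pv y) (pv z₂) := by
      by_cases h12 : B (pv z₁) (pv z₂) = 0
      · refine ⟨pv z₂ + pv y, by simpa using move _ _ 1 (hpure z₂) (hpure y) hyy, ?_, ?_, ?_⟩
        · rw [map_add, h12, zero_add, hskew]; exact neg_ne_zero.2 hb₁
        · rw [map_add, ha, huy, add_zero]
        · rw [map_add, halt, add_zero]
      · exact ⟨_, hpure z₂, h12, ha, rfl⟩
    set r := -B u (pv z₁) / B (pv y) (pv z₂)
    have hyz : B (pv y) (pv z₁) = -B u (pv z₁) := by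
      rw [map_add, LinearMap.add_apply] at hs₁
      linear_combination hs₁
    have hry : B (pv y) (pv z₁ + r • q) = -(2 * B u (pv z₁)) := by
      rw [map_add, map_smul, hyz, hyq, smul_eq_mul, div_mul_cancel₀ _ hb]
      ring
    have hru : B u (pv z₁ + r • q) = B u (pv z₁) := by
      rw [map_add, map_smul, huq, smul_zero, add_zero]
    refine good _ _ _ hu (hpure y) (move _ _ r (hpure z₁) hq hzq) huy (hru.trans_ne ha₁) ?_ ?_
    · rw [hry]; exact neg_ne_zero.2 (mul_ne_zero hM.two ha₁)
    · rw [LinearMap.map_add₂, hry, hru]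
      intro h
      exact ha₁ (by linear_combination -h)
  suffices h : ∀ S : Finset (Fin t → Fin k), Cen f M (∑ p ∈ S, x p • Pi.single p (1 : F)) by
    rw [pi_eq_sum_univ' x]; exact h _
  intro S
  induction S using Finset.induction_on with
  | empty => simpa using cen_zero
  | @insert p S hp ih =>
    rw [Finset.sum_insert hp, add_comm]
    rcases Nat.eq_zero_or_pos t with rfl | hpos
    · exact absurd ht (by simp)
    let z : Fin t → Fin k → F := fun i => Pi.single (p i) 1
    rw [← pv_single p, show (fun i => Pi.single (p i) (1 : F))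
      = update z (⟨0, hpos⟩ : Fin t) (z ⟨0, hpos⟩) from (update_eq_self _ z).symm, ← pv_update_smul]
    exact addPure _ _ ih

end CfsgLib.SympWreath17
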