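import Cfsg.Agent.SympWreath17.Radical

/-!
Radical elements of the stabiliser of a member have scalar components.
-/

set_option autoImplicit false
set_option linter.unusedSectionVars false

namespace CfsgLib.SympWreath17

open Matrix Module
open CfsgLib.Aschbacher (kroneckerPow kroneckerPow_mul kroneckerPow_one)
open CfsgLib.TensorMax (InM memb mem_memb)
open CfsgLib.WreathTensor14 (TV)

local notation "⟪" u "⊗" w "⟫" => TensorMax.pure u w

variable {F : Type*} [Field F] {k s : ℕ} {f : LinearMap.BilinForm F (Fin k → F)}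
  {M : Subgroup (Matrix (Fin s → Fin k) (Fin k) F ≃ₗ[F] Matrix (Fin s → Fin k) (Fin k) F)}

lemma Rad.low_mem {w : Fin k → F} {g : Matrix (Fin s → Fin k) (Fin k) F ≃ₗ[F] Matrix (Fin s → Fin k) (Fin k) F}
    (hg : Rad f w g) (hf : IsSymp f) {z : Fin k → F} (hwz : f w z = 1)
    {X : Matrix (Fin s → Fin k) (Fin k) F} (hX : sctr f w X = 0) : g X - X ∈ memb w :=
  of_sctr_eq_zero hf hwz (g.toLinearMap - LinearMap.id) (memb w) (fun u v hv => by
    obtain ⟨A, hA⟩ := hg.low v hv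
    simpa [hA] using TensorMax.pure_mem_memb (A *ᵥ u) w) hX

namespace Sctx

variable (hM : Sctx f M)
include hM

lemma rad_iso {w : Fin k → F} (hw : w ≠ 0)
    {g : Matrix (Fin s → Fin k) (Fin k) F ≃ₗ[F] Matrix (Fin s → Fin k) (Fin k) F} (hg : g ∈ M)
    (hr : Rad f w g) :
    ∀ X Y, sphi (tform f s) f (g X) (g Y) = sphi (tform f s) f X Y := by
  obtain ⟨c, -, hc⟩ := hM.sim g hg
  obtain ⟨z, hz⟩ := hM.symp.exists_one hw
  have : Nonempty (Fin k) := ⟨⟨0, by have := hM.two_le; omega⟩⟩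
  obtain ⟨u₀, hu₀⟩ := exists_ne (0 : TV F k s)
  obtain ⟨u₁, hu₁⟩ : ∃ u₁, tform f s u₀ u₁ ≠ 0 := by
    by_contra! h
    exact hu₀ (tform_nd hM.symp s u₀ h)
  have h := hc ⟪u₀⊗z⟫ ⟪u₁⊗w⟫
  rw [hr.fix, sphi_pure_right, hr.ctr, sphi_pure_right, sctr_pure] at h
  have hne : tform f s (f z w • u₀) u₁ ≠ 0 := by
    rw [map_smul, LinearMap.smul_apply, hM.symp.skew w z, hz, neg_one_smul]
    exact neg_ne_zero.2 hu₁
  have hc1 : c = 1 := mul_right_cancel₀ hne (by rw [← h, one_mul])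
  intro X Y
  rw [hc, hc1, one_mul]

/-- A right element. -/
lemma exists_right (a : GL (Fin k) F) (ha : Isom f a) :
    ∃ e ∈ M, ∀ (u : TV F k s) v, e ⟪u⊗v⟫ = ⟪u⊗(a.val *ᵥ v)⟫ := by
  obtain ⟨e, he, heX⟩ := hM.right a ha
  exact ⟨e, he, fun u v => by rw [heX, TensorMax.pure, vecMulVec_mul, vecMul_transpose]; rfl⟩

/-- The commutator of a radical element with a root element has one component. -/
lemma exists_single {w : Fin k → F}
    {g : Matrix (Fin s → Fin k) (Fin k) F ≃ₗ[F] Matrix (Fin s → Fin k) (Fin k) F} (hg : g ∈ M)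
    (hr : Rad f w g) {a : Fin k → F} (ha : f a w = 0)
    {A : Matrix (Fin s → Fin k) (Fin s → Fin k) F}
    (hA : ∀ u, g ⟪u⊗a⟫ = ⟪u⊗a⟫ + ⟪(A *ᵥ u)⊗w⟫) :
    ∃ g' ∈ M, Single f w a (-A) g' := by
  obtain ⟨t, ht, -, htz, -⟩ := exists_transvection hM.symp (1 : F) a
  obtain ⟨e, he, heu⟩ := hM.exists_right t ht
  have htw : t.val *ᵥ w = w := by rw [htz, hM.symp.skew a w, ha]; simp
  have hti : ∀ v, (t⁻¹).val *ᵥ v = v - f v a • a := fun v => by
    have : t.val *ᵥ (v - f v a • a) = v := by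
      rw [htz, map_sub, map_smul, LinearMap.sub_apply, LinearMap.smul_apply, hM.symp.alt,
        smul_zero, sub_zero, one_mul, sub_add_cancel]
    conv_lhs => rw [← this]
    simp [mulVec_mulVec]
  have hei : ∀ u v, e⁻¹ ⟪u⊗v⟫ = ⟪u⊗(v - f v a • a)⟫ := fun u v => by
    apply e.injective
    rw [show e (e⁻¹ ⟪u⊗v⟫) = ⟪u⊗v⟫ from e.apply_symm_apply _, heu, ← hti, mulVec_mulVec,
      ← Units.val_mul, mul_inv_cancel, Units.val_one, one_mulVec]
  have hgfix : ∀ u, g⁻¹ ⟪u⊗w⟫ = ⟪u⊗w⟫ := fun u => by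
    conv_lhs => rw [← hr.fix u]
    exact g.symm_apply_apply _
  have hew : ∀ u, e ⟪u⊗w⟫ = ⟪u⊗w⟫ := fun u => by rw [heu, htw]
  have e1 : ∀ v, f v w = 0 → ∀ u, (e * g * e⁻¹ * g⁻¹) ⟪u⊗v⟫ =
      ⟪u⊗v⟫ + f v a • ⟪((-A) *ᵥ u)⊗w⟫ := by
    intro v hv u
    obtain ⟨B, hB⟩ := hr.low v hv
    have hgi : g⁻¹ ⟪u⊗v⟫ = ⟪u⊗v⟫ - ⟪(B *ᵥ u)⊗w⟫ := by
      apply g.injective
      rw [show g (g⁻¹ ⟪u⊗v⟫) = ⟪u⊗v⟫ from g.apply_symm_apply _, map_sub, hB, hr.fix,
        add_sub_cancel_right]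
    rw [LinearEquiv.mul_apply, LinearEquiv.mul_apply, LinearEquiv.mul_apply, hgi, map_sub, hei, hei,
      show f w a = 0 by rw [hM.symp.skew a w, ha, neg_zero], zero_smul, sub_zero, map_sub, hr.fix,
      pure_sub_right, pure_smul_right]
    simp only [map_sub, map_add, map_smul, hB, hA, hew, heu, htz, one_mul]
    rw [hM.symp.alt, zero_smul, add_zero, neg_mulVec, pure_neg_left, pure_add_right,
      pure_smul_right]
    module
  refine ⟨e * g * e⁻¹ * g⁻¹, M.mul_mem (M.mul_mem (M.mul_mem he hg) (M.inv_mem he)) (M.inv_mem hg),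
    ⟨fun u => ?_, fun X => ?_, fun v hv => ⟨f v a • -A, fun u => by
      rw [e1 v hv, smul_mulVec, pure_smul_left]⟩⟩, e1⟩
  · rw [LinearEquiv.mul_apply, LinearEquiv.mul_apply, LinearEquiv.mul_apply, hgfix, hei,
      show f w a = 0 by rw [hM.symp.skew a w, ha, neg_zero], zero_smul, sub_zero, hr.fix, hew]
  · have hc : ∀ Y, sctr f w (e Y) = sctr f w Y := fun Y => by
      have : sctr f w ∘ₗ e.toLinearMap = sctr f w := by
        refine LinearMap.ext fun Y => ?_
        have hY : Y = ∑ j, ⟪(Y *ᵥ Pi.single j 1)⊗(Pi.single j (1 : F))⟫ := by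
          ext i l; simp [Matrix.sum_apply, TensorMax.pure, vecMulVec_apply, Pi.single_apply]
        rw [hY, map_sum, map_sum]
        refine Finset.sum_congr rfl fun j _ => ?_
        simp only [LinearMap.comp_apply, LinearEquiv.coe_coe, heu, sctr_pure]
        conv_lhs => rw [← htw, ht]
      exact LinearMap.congr_fun this Y
    have hci : ∀ Y, sctr f w (e⁻¹ Y) = sctr f w Y := fun Y => by
      rw [← hc (e⁻¹ Y)]
      exact congrArg _ (e.apply_symm_apply Y)
    rw [LinearEquiv.mul_apply, LinearEquiv.mul_apply, LinearEquiv.mul_apply, hc, hr.ctr, hci,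
      ← hr.ctr]
    exact congrArg _ (g.apply_symm_apply X)

/-- A component at one vector gives it at all. -/
lemma scoeff_of_single (hk : 4 ≤ k) {w a : Fin k → F} (hw : w ≠ 0) (ha : f a w = 0)
    (hna : a ∉ Submodule.span F ({w} : Set (Fin k → F)))
    {A : Matrix (Fin s → Fin k) (Fin s → Fin k) F}
    {g : Matrix (Fin s → Fin k) (Fin k) F ≃ₗ[F] Matrix (Fin s → Fin k) (Fin k) F} (hg : g ∈ M)
    (h : Single f w a A g) : SCoeff f M w A := by
  have move : ∀ a a' : Fin k → F, f a w = 0 → f a' w = 0 → f a a' ≠ 0 →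
      (∃ g ∈ M, Single f w a A g) → ∃ g ∈ M, Single f w a' A g := by
    rintro a a' h1 h2 hne ⟨g, hg, h⟩
    obtain ⟨t, ht, -, htz, -⟩ := exists_transvection hM.symp (f a a')⁻¹ (a' - a)
    obtain ⟨e, he, heu⟩ := hM.exists_right t ht
    have hta : t.val *ᵥ a = a' := by
      rw [htz, map_sub, hM.symp.alt, sub_zero, inv_mul_cancel₀ hne, one_smul, add_sub_cancel]
    have htw : t.val *ᵥ w = w := by
      rw [htz, map_sub, hM.symp.skew a' w, hM.symp.skew a w, h1, h2]; simp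
    refine ⟨e * g * e⁻¹, M.mul_mem (M.mul_mem he hg) (M.inv_mem he), ?_⟩
    have := h.conj (α := 1) (α' := 1) (by rw [one_mul]) ht htw (fun u v => by rw [heu, one_mulVec])
    rwa [hta, one_mul, mul_one] at this
  intro a' ha'
  by_cases hb : a' ∈ Submodule.span F ({w} : Set (Fin k → F))
  · obtain ⟨c, rfl⟩ := Submodule.mem_span_singleton.1 hb
    exact ⟨1, M.one_mem, ⟨fun u => rfl, fun X => rfl, fun v hv => ⟨0, fun u => by simp⟩⟩,
      fun v hv u => by simp [hv]⟩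
  -- a vector pairing with both
  have hfun : ∀ x : Fin k → F, x ∉ Submodule.span F ({w} : Set (Fin k → F)) →
      ∃ b, f b w = 0 ∧ f x b ≠ 0 := by
    intro x hx
    by_contra! h0
    obtain ⟨z, hz⟩ := hM.symp.exists_one hw
    refine hx (Submodule.mem_span_singleton.2 ⟨f x z, (sub_eq_zero.1 (hM.symp.nd _ fun y => ?_)).symm⟩)
    have h1 := h0 (y + f y w • z) (by simp [hM.symp.skew w z, hz])
    simp only [map_add, map_smul, smul_eq_mul] at h1
    simp only [map_sub, map_smul, LinearMap.sub_apply, LinearMap.smul_apply, smul_eq_mul,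
      hM.symp.skew y w] at h1 ⊢
    linear_combination h1
  obtain ⟨b₁, hb₁, hb₁'⟩ := hfun a hna
  obtain ⟨b₂, hb₂, hb₂'⟩ := hfun a' hb
  obtain ⟨b, hbw, hab, hba'⟩ : ∃ b, f b w = 0 ∧ f a b ≠ 0 ∧ f b a' ≠ 0 := by
    by_cases e1 : f a' b₁ = 0
    · by_cases e2 : f a b₂ = 0
      · exact ⟨b₁ + b₂, by simp [hb₁, hb₂], by simp [e2, hb₁'],
          hM.symp.ne_zero_comm (by simp [e1, hb₂'])⟩
      · exact ⟨b₂, hb₂, e2, hM.symp.ne_zero_comm hb₂'⟩
    · exact ⟨b₁, hb₁, hb₁', hM.symp.ne_zero_comm e1⟩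
  exact move b a' hbw ha' hba' (move a b ha hbw hab ⟨g, hg, h⟩)

lemma scoeff_add {w : Fin k → F} {A B : Matrix (Fin s → Fin k) (Fin s → Fin k) F}
    (hA : SCoeff f M w A) (hB : SCoeff f M w B) : SCoeff f M w (A + B) := fun a ha => by
  obtain ⟨g, hg, h⟩ := hA a ha
  obtain ⟨g', hg', h'⟩ := hB a ha
  exact ⟨g * g', M.mul_mem hg hg', h.mul h'⟩

lemma scoeff_neg {w : Fin k → F} {A : Matrix (Fin s → Fin k) (Fin s → Fin k) F}
    (hA : SCoeff f M w A) : SCoeff f M w (-A) := fun a ha => by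
  obtain ⟨g, hg, h⟩ := hA a ha
  exact ⟨g⁻¹, M.inv_mem hg, h.inv⟩

lemma scoeff_scalar {w : Fin k → F} (c : F) :
    SCoeff f M w (c • (1 : Matrix (Fin s → Fin k) (Fin s → Fin k) F)) := by
  intro a ha
  obtain ⟨e1, he1, h1⟩ := hM.inM_root_one c (a + w)
  obtain ⟨e2, he2, h2⟩ := hM.inM_root_one (-c) a
  obtain ⟨e3, he3, h3⟩ := hM.inM_root_one (-c) w
  have hwa : f w a = 0 := by rw [hM.symp.skew a w, ha, neg_zero]
  have val : ∀ (d : F) (y v : Fin k → F) (u : TV F k s),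
      sroot f (d • (1 : Matrix (Fin s → Fin k) (Fin s → Fin k) F)) y ⟪u⊗v⟫
        = (d * f v y) • ⟪u⊗y⟫ := fun d y v u => by
    rw [sroot_apply, sctr_pure, smul_mulVec, one_mulVec, smul_smul, pure_smul_left]
  refine ⟨e1 * e2 * e3, M.mul_mem (M.mul_mem he1 he2) he3, ?_⟩
  have E : ∀ v, f v w = 0 → ∀ u, (e1 * e2 * e3) ⟪u⊗v⟫ =
      ⟪u⊗v⟫ + f v a • ⟪((c • (1 : Matrix (Fin s → Fin k) (Fin s → Fin k) F)) *ᵥ u)⊗w⟫ := by
    intro v hv u
    rw [LinearEquiv.mul_apply, LinearEquiv.mul_apply, h3, val, hv, mul_zero, zero_smul, add_zero,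
      h2, val, map_add, map_smul, h1, h1, val, val, smul_mulVec, one_mulVec, pure_smul_left]
    simp only [map_add, hM.symp.alt, ha, hv, add_zero, mul_zero, zero_smul, pure_add_right,
      smul_smul, zero_add]
    module
  refine ⟨⟨fun u => ?_, fun X => ?_, fun v hv => ⟨f v a • c • 1, fun u => by
    rw [E v hv, smul_mulVec _ (c • (1 : Matrix (Fin s → Fin k) (Fin s → Fin k) F)),
      pure_smul_left]⟩⟩, E⟩
  · rw [LinearEquiv.mul_apply, LinearEquiv.mul_apply, h3, val, hM.symp.alt, mul_zero, zero_smul,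
      add_zero, h2, val, hwa, mul_zero, zero_smul, add_zero, h1, val, map_add, hwa,
      hM.symp.alt, add_zero, mul_zero, zero_smul, add_zero]
  · have hc : ∀ (d : F) (y : Fin k → F), f y w = 0 → ∀ Y, sctr f w
        (sroot f (d • (1 : Matrix (Fin s → Fin k) (Fin s → Fin k) F)) y Y) = 0 := fun d y hy Y => by
      rw [sroot_apply, sctr_pure, hy, zero_smul]
    rw [LinearEquiv.mul_apply, LinearEquiv.mul_apply, h1, map_add,
      hc c (a + w) (by simp [ha, hM.symp.alt]), add_zero, h2, map_add, hc (-c) a ha, add_zero, h3,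
      map_add, hc (-c) w (hM.symp.alt w), add_zero]

lemma scoeff_conj {w : Fin k → F} {A : Matrix (Fin s → Fin k) (Fin s → Fin k) F}
    (hA : SCoeff f M w A) (gs : Fin s → GL (Fin k) F) (hgs : ∀ i, Isom f (gs i)) :
    SCoeff f M w (kroneckerPow (fun i => (gs i).val) * A * kroneckerPow (fun i => ((gs i)⁻¹).val)) := by
  intro a ha
  obtain ⟨g, hg, h⟩ := hA a ha
  obtain ⟨e, he, heX⟩ := hM.left gs hgs
  refine ⟨e * g * e⁻¹, M.mul_mem (M.mul_mem he hg) (M.inv_mem he), ?_⟩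
  have := h.conj (α := kroneckerPow (fun i => (gs i).val))
    (α' := kroneckerPow (fun i => ((gs i)⁻¹).val)) (by rw [kroneckerPow_mul]; simp [kroneckerPow_one])
    (t := 1) (isom_one f) (by simp) (e := e) (fun u v => by
      rw [heX, TensorMax.pure, mul_vecMulVec]; simp [TensorMax.pure])
  simpa using this

/-- The anticommutators of two components are scalar. -/
lemma scoeff_anti (hk : 4 ≤ k) {w : Fin k → F} (hw : w ≠ 0)
    {A B A' B' : Matrix (Fin s → Fin k) (Fin s → Fin k) F}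
    (hA : SCoeff f M w A) (hB : SCoeff f M w B)
    (hA' : ∀ x y, tform f s (A' *ᵥ x) y = tform f s x (A *ᵥ y))
    (hB' : ∀ x y, tform f s (B' *ᵥ x) y = tform f s x (B *ᵥ y)) :
    ∃ c : F, A * B' + B * A' = c • 1 := by
  have hf := hM.symp
  obtain ⟨z, hwz⟩ := hf.exists_one hw
  -- two vectors orthogonal to `w` and `z` in general position
  obtain ⟨a, ha0, haw, haz⟩ := TensorMax.exists_ne_zero_orth_two (κ := Fin k) (by simp; omega)
    (sdual f w) (sdual f z)
  rw [dotProduct_comm, dotProduct_sdual] at haw haz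
  obtain ⟨b₀, hb₀⟩ := hf.exists_one ha0
  set b := b₀ + f b₀ w • z - f b₀ z • w with hb
  have hbw : f b w = 0 := by simp [hb, hf.skew w z, hwz, hf.alt]
  have hab : f a b = 1 := by simp [hb, haw, haz, hb₀]
  obtain ⟨g, hg, hgS⟩ := hA a haw
  obtain ⟨g', hg', hgS'⟩ := hB b hbw
  -- the image of `u ⊗ z`
  have hR : ∀ {a : Fin k → F} {A A' : Matrix (Fin s → Fin k) (Fin s → Fin k) F}
      {g : Matrix (Fin s → Fin k) (Fin k) F ≃ₗ[F] Matrix (Fin s → Fin k) (Fin k) F}, g ∈ M →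
      f a w = 0 → Single f w a A g → (∀ x y, tform f s (A' *ᵥ x) y = tform f s x (A *ᵥ y)) →
      ∀ u, ∃ x, g ⟪u⊗z⟫ = ⟪u⊗z⟫ - ⟪(A' *ᵥ u)⊗a⟫ + ⟪x⊗w⟫ := by
    intro a A A' g hg haw hS hA' u
    have hiso := hM.rad_iso hw hg hS.1
    have hm : g ⟪u⊗z⟫ - ⟪u⊗z⟫ + ⟪(A' *ᵥ u)⊗a⟫ ∈ memb w := by
      refine mem_memb_of_sctr hf hw fun y hy => ?_
      have hyw : f y w = 0 := by rw [hf.skew w y, hy, neg_zero]
      refine tform_nd hf s _ fun u' => ?_
      have h := hiso ⟪u⊗z⟫ ⟪u'⊗y⟫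
      rw [hS.2 y hyw, map_add, map_smul, sphi_pure_right, sphi_pure_right, sphi_pure_right,
        hS.1.ctr, sctr_pure, sctr_pure, hf.skew w z, hwz] at h
      simp only [map_add, map_sub, sctr_pure, LinearMap.add_apply, LinearMap.sub_apply, map_smul,
        LinearMap.smul_apply, smul_eq_mul, hA'] at h ⊢
      simp only [map_neg, LinearMap.neg_apply, map_smul, LinearMap.smul_apply, smul_eq_mul,
        hf.skew y a] at h ⊢
      linear_combination h
    obtain ⟨x, hx⟩ := mem_memb.1 hm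
    exact ⟨x, by rw [hx]; abel⟩
  obtain ⟨e, he, hθ⟩ : ∃ e ∈ M, ∀ X, e X = X + sroot f (-(A * B' + B * A')) w X := by
    refine ⟨g * g' * (g' * g)⁻¹, M.mul_mem (M.mul_mem hg hg') (M.inv_mem (M.mul_mem hg' hg)),
      fun Y => ?_⟩
    have key : ∀ X, g (g' X) = g' (g X) + sroot f (-(A * B' + B * A')) w X := by
      intro X
      set u := -sctr f w X with hu
      have hX0 : sctr f w (X - ⟪u⊗z⟫) = 0 := sctr_sub_pure hf hwz X
      have hker : ∀ Y, sctr f w Y = 0 → g (g' Y) = g' (g Y) := by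
        intro Y hY
        obtain ⟨x, hx⟩ := mem_memb.1 (hgS.1.low_mem hf hwz hY)
        obtain ⟨x', hx'⟩ := mem_memb.1 (hgS'.1.low_mem hf hwz hY)
        rw [eq_sub_iff_add_eq] at hx hx'
        rw [← hx, ← hx', map_add, map_add, hgS.1.fix, hgS'.1.fix, ← hx, ← hx']
        abel
      have hsum : X = (X - ⟪u⊗z⟫) + ⟪u⊗z⟫ := by abel
      obtain ⟨x, hx⟩ := hR hg haw hgS hA' u
      obtain ⟨x', hx'⟩ := hR hg' hbw hgS' hB' u
      rw [hsum]
      simp only [map_add]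
      rw [hker _ hX0, add_assoc]
      congr 1
      rw [sroot_apply, hX0, mulVec_zero, TensorMax.pure_zero_left, zero_add, sroot_apply, sctr_pure,
        hf.skew w z, hwz, neg_one_smul, mulVec_neg, neg_mulVec, neg_neg, add_mulVec, ← mulVec_mulVec,
        ← mulVec_mulVec, pure_add_left, hx', hx, map_add, map_add, map_sub, map_sub, hgS.1.fix,
        hgS'.1.fix, hgS.2 b hbw, hgS'.2 a haw, hx', hx, hf.skew a b, hab, neg_one_smul, one_smul]
      abel
    set X := (g' * g)⁻¹ Y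
    have hY : g' (g X) = Y := (g' * g).apply_symm_apply Y
    have hctr : sctr f w X = sctr f w Y := by rw [← hY, hgS'.1.ctr, hgS.1.ctr]
    rw [LinearEquiv.mul_apply, LinearEquiv.mul_apply, key, hY, sroot_apply, sroot_apply, hctr]
  obtain ⟨c, hc⟩ := hM.only _ w hw ⟨e, he, hθ⟩
  exact ⟨-c, by rw [neg_smul, ← hc, neg_neg]⟩

/-- The components of radical elements are scalar. -/
theorem rad_scalar [Finite F] (hk : 4 ≤ k) {w : Fin k → F} (hw : w ≠ 0)
    {g : Matrix (Fin s → Fin k) (Fin k) F ≃ₗ[F] Matrix (Fin s → Fin k) (Fin k) F} (hg : g ∈ M)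
    (hr : Rad f w g) {a : Fin k → F} (ha : f a w = 0) :
    ∃ c : F, ∀ u, g ⟪u⊗a⟫ = ⟪u⊗a⟫ + c • ⟪u⊗w⟫ := by
  have hf := hM.symp
  by_cases hna : a ∈ Submodule.span F ({w} : Set (Fin k → F))
  · obtain ⟨c, rfl⟩ := Submodule.mem_span_singleton.1 hna
    exact ⟨0, fun u => by rw [pure_smul_right, map_smul, hr.fix, zero_smul, add_zero]⟩
  obtain ⟨A, hA⟩ := hr.low a ha
  obtain ⟨g', hg', hS⟩ := hM.exists_single hg hr ha hA
  have hSA : SCoeff f M w (-(-A)) := hM.scoeff_neg (hM.scoeff_of_single hk hw ha hna hg' hS)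
  rw [neg_neg] at hSA
  obtain ⟨A', hA'⟩ := exists_tform_adjoint hf A
  -- `A'` is the left adjoint as well
  have hA'' : ∀ x y, tform f s (A' *ᵥ x) y = tform f s x (A *ᵥ y) := fun x y => by
    rw [tform_comm hf y, ← hA', ← tform_comm hf (A *ᵥ y) x]
  obtain ⟨c, hc⟩ := hM.scoeff_anti hk hw hSA (hM.scoeff_scalar 1) hA'' (B' := 1) (fun x y => by simp)
  rw [one_smul, mul_one, one_mul] at hc
  set d := c / 2
  have h2 : d + d = c := by rw [← two_mul, mul_div_cancel₀ _ hM.two]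
  let S : AddSubmonoid (Matrix (Fin s → Fin k) (Fin s → Fin k) F) :=
    { carrier := {σ | SCoeff f M w σ ∧ ∀ x y, tform f s (σ *ᵥ x) y = -tform f s x (σ *ᵥ y)}
      add_mem' := fun {p q} hp hq => ⟨hM.scoeff_add hp.1 hq.1, fun x y => by
        simp only [add_mulVec, map_add, LinearMap.add_apply, hp.2, hq.2]; ring⟩
      zero_mem' := ⟨by simpa using hM.scoeff_scalar (w := w) 0, fun x y => by simp⟩ }
  have hmem : A - d • 1 ∈ S := by
    refine ⟨by rw [sub_eq_add_neg]; exact hM.scoeff_add hSA (hM.scoeff_neg (hM.scoeff_scalar d)),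
      fun x y => ?_⟩
    have := congrArg (fun m => tform f s (m *ᵥ x) y) hc
    simp only [add_mulVec, map_add, LinearMap.add_apply, hA'', smul_mulVec, one_mulVec, map_smul,
      LinearMap.smul_apply, smul_eq_mul, ← h2] at this
    simp only [sub_mulVec, map_sub, LinearMap.sub_apply, smul_mulVec, one_mulVec, map_smul,
      LinearMap.smul_apply, smul_eq_mul]
    linear_combination this
  have h0 := skew_eq_zero hf hM.two hk s S
    (fun σ hσ => ⟨hM.scoeff_neg hσ.1, fun x y => by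
      simp only [neg_mulVec, map_neg, LinearMap.neg_apply, hσ.2]⟩)
    (fun σ hσ => hσ.2)
    (fun gs hgs σ hσ => ⟨hM.scoeff_conj hσ.1 gs hgs, fun x y => by
      have hK : ∀ (ts : Fin s → GL (Fin k) F), (∀ i, Isom f (ts i)) → ∀ p q,
          tform f s (kroneckerPow (fun i => (ts i).val) *ᵥ p) (kroneckerPow (fun i => (ts i).val) *ᵥ q)
            = tform f s p q := fun ts hts p q => by
        rw [← WreathTensor14.kronE_apply, ← WreathTensor14.kronE_apply,
          kronE_sim (cs := fun _ => 1) (fun i a b => by rw [hts i, one_mul]), Finset.prod_const_one,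
          one_mul]
      have hI : ∀ p, kroneckerPow (fun i => (gs i).val) *ᵥ
          (kroneckerPow (fun i => ((gs i)⁻¹).val) *ᵥ p) = p := fun p => by
        rw [mulVec_mulVec, kroneckerPow_mul]; simp [kroneckerPow_one]
      simp only [← mulVec_mulVec]
      set K := kroneckerPow fun i => (gs i).val
      set K' := kroneckerPow fun i => ((gs i)⁻¹).val
      calc _ = tform f s (K *ᵥ (σ *ᵥ (K' *ᵥ x))) (K *ᵥ (K' *ᵥ y)) := by rw [hI y]
        _ = -tform f s (K' *ᵥ x) (σ *ᵥ (K' *ᵥ y)) := by rw [hK gs hgs, hσ.2]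
        _ = _ := by rw [← hK gs hgs, hI x]⟩)
    (fun σ hσ τ hτ => by
      obtain ⟨c, hc⟩ := hM.scoeff_anti hk hw hσ.1 hτ.1 (A' := -σ) (B' := -τ)
        (fun x y => by rw [neg_mulVec, map_neg, LinearMap.neg_apply, hσ.2, neg_neg])
        (fun x y => by rw [neg_mulVec, map_neg, LinearMap.neg_apply, hτ.2, neg_neg])
      refine ⟨-c, ?_⟩
      rw [neg_smul, ← hc]
      noncomm_ring) _ hmem
  rw [sub_eq_zero] at h0
  exact ⟨d, fun u => by rw [hA, h0, smul_mulVec, one_mulVec, pure_smul_left]⟩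

end Sctx

end CfsgLib.SympWreath17
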