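import Cfsg.Agent.SympWreath17.Components

/-!
An element carrying one member to a member splits as a product of maps of the two sides.
-/

set_option autoImplicit false
set_option linter.unusedSectionVars false

namespace CfsgLib.SympWreath17

open Matrix Module
open CfsgLib.TensorMax (InM memb mem_memb pure_mem_memb exists_dual pureL colL pureL_injective)
open CfsgLib.WreathTensor14 (TV)

local notation "⟪" u "⊗" w "⟫" => TensorMax.pure u w

variable {F : Type*} [Field F] {k s : ℕ} {f : LinearMap.BilinForm F (Fin k → F)}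
  {M : Subgroup (Matrix (Fin s → Fin k) (Fin k) F ≃ₗ[F] Matrix (Fin s → Fin k) (Fin k) F)}

/-- A linear isometry as an element of the general linear group. -/
lemma exists_gl_of_map {l : (Fin k → F) →ₗ[F] (Fin k → F)} (hf : IsSymp f)
    (h : ∀ x y, f (l x) (l y) = f x y) :
    ∃ t : GL (Fin k) F, Isom f t ∧ ∀ x, t.val *ᵥ x = l x := by
  have hinj : Function.Injective l := fun x y hxy => sub_eq_zero.1 (hf.nd _ fun z => by
    rw [← h, map_sub, hxy, sub_self, map_zero, LinearMap.zero_apply])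
  have hdet : (LinearMap.toMatrix' l).det ≠ 0 := fun h0 => by
    obtain ⟨x, hx, hx0⟩ := Matrix.exists_mulVec_eq_zero_iff.2 h0
    rw [LinearMap.toMatrix'_mulVec] at hx0
    exact hx (hinj (by rw [hx0, map_zero]))
  refine ⟨Matrix.GeneralLinearGroup.mkOfDetNeZero _ hdet, ?_, fun x => LinearMap.toMatrix'_mulVec l x⟩
  intro x y
  change f (LinearMap.toMatrix' l *ᵥ x) (LinearMap.toMatrix' l *ᵥ y) = f x y
  rw [LinearMap.toMatrix'_mulVec, LinearMap.toMatrix'_mulVec, h]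

lemma plane_eq (hf : IsSymp f) (hk : k = 2) {w z : Fin k → F} (hwz : f w z = 1) (v : Fin k → F) :
    v = f v z • w - f v w • z := by
  have hli : LinearIndependent F ![w, z] := LinearIndependent.pair_iff.2 fun s t h => by
    have h1 := congrArg (fun x => f x z) h
    have h2 := congrArg (fun x => f w x) h
    simp only [map_add, map_smul, LinearMap.add_apply, LinearMap.smul_apply, hf.alt, hwz,
      smul_eq_mul, mul_zero, mul_one, add_zero, zero_add, map_zero, LinearMap.zero_apply] at h1 h2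
    exact ⟨h1, h2⟩
  have hspan := hli.span_eq_top_of_card_eq_finrank (by simp [hk])
  have hv : v ∈ Submodule.span F (Set.range ![w, z]) := hspan.ge Submodule.mem_top
  obtain ⟨c, hc⟩ := (Submodule.mem_span_range_iff_exists_fun F).1 hv
  rw [Fin.sum_univ_two] at hc
  simp only [cons_val_zero, cons_val_one] at hc
  subst hc
  simp only [map_add, map_smul, LinearMap.add_apply, LinearMap.smul_apply, hf.alt, hwz,
    hf.skew w z, smul_eq_mul]
  match_scalars <;> ring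

namespace Sctx

variable (hM : Sctx f M)
include hM

/-- The data of an element stabilising a member. -/
lemma stab_data {w : Fin k → F} (hw : w ≠ 0)
    {e : Matrix (Fin s → Fin k) (Fin k) F ≃ₗ[F] Matrix (Fin s → Fin k) (Fin k) F} (he : e ∈ M)
    (h : ∀ u, e ⟪u⊗w⟫ ∈ memb w) :
    ∃ (P W : TV F k s ≃ₗ[F] TV F k s) (a : F), a ≠ 0 ∧ (∀ u, P u = a • W u) ∧
      (∀ u, e ⟪u⊗w⟫ = ⟪(P u)⊗w⟫) ∧ ∀ X, sctr f w (e X) = W (sctr f w X) := by
  have hf := hM.symp
  obtain ⟨η, hη⟩ := exists_dual hw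
  obtain ⟨z, hwz⟩ := hf.exists_one hw
  let P₀ : TV F k s →ₗ[F] TV F k s := colL η ∘ₗ e.toLinearMap ∘ₗ pureL w
  have hP₀ : ∀ u, e ⟪u⊗w⟫ = ⟪(P₀ u)⊗w⟫ := fun u => by
    obtain ⟨x, hx⟩ := mem_memb.1 (h u)
    simp only [P₀, LinearMap.comp_apply, LinearEquiv.coe_coe, TensorMax.pureL_apply,
      TensorMax.colL_apply]
    rw [← hx, TensorMax.pure_mulVec, hη, one_smul]
  have hPi : Function.Injective P₀ := fun u u' huu => pureL_injective hw (e.injective (by
    rw [TensorMax.pureL_apply, TensorMax.pureL_apply, hP₀, hP₀, huu]))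
  let P : TV F k s ≃ₗ[F] TV F k s := LinearEquiv.ofBijective P₀
    ⟨hPi, LinearMap.surjective_of_injective hPi⟩
  obtain ⟨c, hc0, hc⟩ := hM.sim e he
  have hker : ∀ X, sctr f w X = 0 → sctr f w (e X) = 0 := fun X hX => by
    refine tform_nd hf s _ fun u' => ?_
    obtain ⟨u, rfl⟩ := P.surjective u'
    rw [← sphi_pure_right, show ⟪(P u)⊗w⟫ = e ⟪u⊗w⟫ from (hP₀ u).symm, hc, sphi_pure_right, hX,
      map_zero, LinearMap.zero_apply, mul_zero]
  let W₀ : TV F k s →ₗ[F] TV F k s := -(sctr f w ∘ₗ e.toLinearMap ∘ₗ pureL z)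
  have hW₀ : ∀ X, sctr f w (e X) = W₀ (sctr f w X) := fun X => by
    have h1 := hker _ (sctr_sub_pure hf hwz X)
    rw [map_sub, map_sub, sub_eq_zero] at h1
    rw [h1]
    simp [W₀, pure_neg_left, neg_mulVec]
  have hWi : Function.Injective W₀ := by
    rw [← LinearMap.ker_eq_bot, LinearMap.ker_eq_bot']
    intro u hu
    refine tform_nd hf s u fun u' => ?_
    have h1 := hc ⟪u⊗z⟫ ⟪u'⊗w⟫
    rw [hP₀, sphi_pure_right, hW₀, sctr_pure, map_smul, hu, smul_zero, map_zero,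
      LinearMap.zero_apply, sphi_pure_right, sctr_pure, hf.skew w z, hwz, map_smul,
      LinearMap.smul_apply, smul_eq_mul] at h1
    simpa [hc0] using h1.symm
  let W : TV F k s ≃ₗ[F] TV F k s := LinearEquiv.ofBijective W₀
    ⟨hWi, LinearMap.surjective_of_injective hWi⟩
  obtain ⟨a, ha⟩ := hM.only (LinearMap.toMatrix' (P.toLinearMap ∘ₗ W.symm.toLinearMap)) w hw
    (((hM.inM_root_one 1 w).conj he).congr fun X => by
      have hX : sctr f w X = W (sctr f w (e.symm X)) := by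
        have := hW₀ (e.symm X)
        rwa [e.apply_symm_apply] at this
      change _ = e (sroot f ((1 : F) • 1) w (e.symm X))
      rw [sroot_apply, sroot_apply, hX, one_smul, one_mulVec, LinearMap.toMatrix'_mulVec, hP₀]
      simp only [LinearMap.comp_apply, LinearEquiv.coe_coe, LinearEquiv.symm_apply_apply]
      rfl)
  have hPW : ∀ u, P u = a • W u := fun u => by
    have := congrArg (fun m => m *ᵥ W u) ha
    simpa [LinearMap.toMatrix'_mulVec, smul_mulVec] using this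
  refine ⟨P, W, a, fun h0 => ?_, hPW, hP₀, hW₀⟩
  have : Nonempty (Fin k) := ⟨⟨0, by have := hM.two_le; omega⟩⟩
  obtain ⟨u, hu⟩ := exists_ne (0 : TV F k s)
  exact hu (P.map_eq_zero_iff.1 (by rw [hPW, h0, zero_smul]))

/-- The part of an element stabilising a member which is orthogonal to it splits. -/
lemma mid [Finite F] (hk : 4 ≤ k) {w : Fin k → F} (hw : w ≠ 0)
    {e : Matrix (Fin s → Fin k) (Fin k) F ≃ₗ[F] Matrix (Fin s → Fin k) (Fin k) F} (he : e ∈ M)
    (h : ∀ u, e ⟪u⊗w⟫ ∈ memb w) :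
    ∃ P : TV F k s ≃ₗ[F] TV F k s, (∀ u, e ⟪u⊗w⟫ = ⟪(P u)⊗w⟫) ∧
      ∀ v, f v w = 0 → ∃ y, ∀ u, e ⟪u⊗v⟫ = ⟪(P u)⊗y⟫ := by
  classical
  have hf := hM.symp
  obtain ⟨z, hwz⟩ := hf.exists_one hw
  obtain ⟨P, W, a₀, ha₀, hPW, hP, hW⟩ := hM.stab_data hw he h
  have : Nonempty (Fin k) := ⟨⟨0, by omega⟩⟩
  obtain ⟨u₀, hu₀⟩ := exists_ne (0 : TV F k s)
  obtain ⟨η, hη⟩ := exists_dual (w := P u₀) fun h0 => hu₀ (P.map_eq_zero_iff.1 h0)
  rw [dotProduct_comm] at hη
  let B : (Fin k → F) → (Fin k → F) := fun v => η ᵥ* e ⟪u₀⊗v⟫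
  have hfB : ∀ v b, f (B v) b = η ⬝ᵥ sctr f b (e ⟪u₀⊗v⟫) := fun v b => by
    rw [← dotProduct_sdual, sctr_apply, dotProduct_mulVec]
  -- the middle coefficient
  have hmid : ∀ v, f v w = 0 → ∀ u, ∃ x, e ⟪u⊗v⟫ = ⟪(P u)⊗(B v)⟫ + ⟪x⊗w⟫ := by
    intro v hv u
    have hlam : ∀ b, f b w = 0 → ∃ c : F, ∀ u, sctr f b (e ⟪u⊗v⟫) = c • P u := by
      intro b hb
      obtain ⟨q, hq, hqS⟩ := hM.scoeff_scalar (w := w) 1 b hb
      have hqker : ∀ Y, sctr f w Y = 0 → q Y - Y = ⟪(sctr f b Y)⊗w⟫ := fun Y hY => by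
        have := of_sctr_eq_zero hf hwz
          (q.toLinearMap - LinearMap.id - pureL w ∘ₗ sctr f b) ⊥ (fun u v hv => by
            simp only [Submodule.mem_bot, LinearMap.sub_apply, LinearMap.id_apply, LinearMap.comp_apply,
              LinearEquiv.coe_coe, hqS.2 v hv, TensorMax.pureL_apply, sctr_pure, one_smul,
              one_mulVec, pure_smul_left]
            abel) hY
        rw [Submodule.mem_bot] at this
        simpa [sub_eq_zero] using this
      set r := e⁻¹ * q * e with hr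
      have hre : ∀ X, e (r X) = q (e X) := fun X => e.apply_symm_apply _
      have hrA : ∀ v', f v' w = 0 → ∀ u,
          r ⟪u⊗v'⟫ = ⟪u⊗v'⟫ + ⟪(P.symm (sctr f b (e ⟪u⊗v'⟫)))⊗w⟫ := fun v' hv' u => by
        apply e.injective
        rw [hre, map_add, hP, P.apply_symm_apply, ← hqker _ (by
          rw [hW, sctr_pure, hv', zero_smul, map_zero]), add_sub_cancel]
      obtain ⟨c, hc⟩ := hM.rad_scalar hk hw
        (M.mul_mem (M.mul_mem (M.inv_mem he) hq) he) (g := r)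
        ⟨fun u => e.injective (by rw [hre, hP, hqS.1.fix]),
          fun X => W.injective (by rw [← hW, hre, hqS.1.ctr, hW]),
          fun v' hv' => ⟨LinearMap.toMatrix' (P.symm.toLinearMap ∘ₗ sctr f b ∘ₗ e.toLinearMap ∘ₗ
            pureL v'), fun u => by rw [hrA v' hv', LinearMap.toMatrix'_mulVec]; rfl⟩⟩ hv
      refine ⟨c, fun u => ?_⟩
      have h1 := hc u
      rw [hrA v hv, ← pure_smul_left, add_right_inj] at h1
      have h2 := congrArg P (pureL_injective hw h1)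
      rwa [map_smul, P.apply_symm_apply] at h2
    have hmem : e ⟪u⊗v⟫ - ⟪(P u)⊗(B v)⟫ ∈ memb w := by
      refine mem_memb_of_sctr hf hw fun b hb => ?_
      have hb' : f b w = 0 := by rw [hf.skew w b, hb, neg_zero]
      obtain ⟨c, hc⟩ := hlam b hb'
      rw [map_sub, sctr_pure, hfB, hc, hc, dotProduct_smul, hη, smul_eq_mul, mul_one, sub_self]
    obtain ⟨x, hx⟩ := mem_memb.1 hmem
    exact ⟨x, by rw [hx]; abel⟩
  -- the sign change on a plane
  let π : (Fin k → F) →ₗ[F] (Fin k → F) :=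
    { toFun := fun x => f x z • w - f x w • z
      map_add' := fun x y => by simp only [map_add, LinearMap.add_apply]; module
      map_smul' := fun c x => by
        simp only [map_smul, LinearMap.smul_apply, smul_eq_mul, RingHom.id_apply]; module }
  obtain ⟨t, ht, htx⟩ := exists_gl_of_map hf (l := LinearMap.id - (2 : F) • π) (fun x y => by
    simp only [π, LinearMap.sub_apply, LinearMap.id_apply, LinearMap.smul_apply, LinearMap.coe_mk,
      AddHom.coe_mk, map_sub, map_smul, smul_eq_mul, hwz, hf.skew w z, hf.alt, hf.skew y w,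
      hf.skew y z]
    ring)
  obtain ⟨hh, hhM, hhu⟩ := hM.exists_right t ht
  have htw : t.val *ᵥ w = -w := by
    rw [htx]; simp [π, hwz, hf.alt, two_smul]
  have hhw : ∀ u, hh ⟪u⊗w⟫ = -⟪u⊗w⟫ := fun u => by
    rw [hhu, htw, TensorMax.pure, TensorMax.pure, vecMulVec_neg]
  have hhc : ∀ X, sctr f w (hh X) = -sctr f w X := fun X => by
    have hY : X = ∑ j, ⟪(X *ᵥ Pi.single j 1)⊗(Pi.single j (1 : F))⟫ := by
      ext i l; simp [Matrix.sum_apply, TensorMax.pure, vecMulVec_apply, Pi.single_apply]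
    rw [hY, map_sum, map_sum, map_sum, ← Finset.sum_neg_distrib]
    refine Finset.sum_congr rfl fun j _ => ?_
    have h1 : f (t.val *ᵥ Pi.single j 1) w = -f (Pi.single j 1) w := by
      conv_lhs => rw [← neg_neg w, ← htw, map_neg, ht]
    rw [hhu, sctr_pure, sctr_pure, h1, neg_smul]
  set r := (e * hh) * (hh * e)⁻¹ with hr
  have hrX : ∀ Y, r (hh (e Y)) = e (hh Y) := fun Y => by
    rw [hr, LinearEquiv.mul_apply]
    exact congrArg _ ((hh * e).symm_apply_apply Y)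
  have hrfix : ∀ u, r ⟪u⊗w⟫ = ⟪u⊗w⟫ := fun u => by
    obtain ⟨u', rfl⟩ := P.surjective u
    have := hrX ⟪(-u')⊗w⟫
    simp only [hP, hhw, map_neg, neg_neg, pure_neg_left] at this
    exact this
  have hrad : Rad f w r := by
    refine ⟨hrfix, fun X => ?_, fun v hv => ?_⟩
    · obtain ⟨Y, rfl⟩ := (hh * e).surjective X
      change sctr f w (r (hh (e Y))) = sctr f w (hh (e Y))
      rw [hrX, hW, hhc, hhc, hW, map_neg]
    let L : Matrix (Fin s → Fin k) (Fin k) F →ₗ[F] Matrix (Fin s → Fin k) (Fin k) F :=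
      e.toLinearMap ∘ₗ hh.toLinearMap - hh.toLinearMap ∘ₗ e.toLinearMap
    have hL : ∀ Y, sctr f w Y = 0 → L Y ∈ memb w := fun Y hY =>
      of_sctr_eq_zero hf hwz L (memb w) (fun u v hv => by
        obtain ⟨x, hx⟩ := hmid v hv u
        have hBw : f (B v) w = 0 := by
          rw [hfB, hW, sctr_pure, hv, zero_smul, map_zero, dotProduct_zero]
        simp only [L, LinearMap.sub_apply, LinearMap.comp_apply, LinearEquiv.coe_coe]
        rw [hhu, htx, hx, map_add, hhw, hhu, htx]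
        simp only [π, LinearMap.sub_apply, LinearMap.id_apply, LinearMap.smul_apply, LinearMap.coe_mk,
          AddHom.coe_mk, hv, hBw, zero_smul, sub_zero, smul_smul, pure_sub_right, pure_smul_right,
          map_sub, map_smul, hx, hP]
        have key : ∀ A B C : Matrix (Fin s → Fin k) (Fin k) F, ∀ c d : F,
            B ∈ memb w → C ∈ memb w → A + B - c • C - (A - d • C + -B) ∈ memb w :=
          fun A B C c d hB hC => by
            have : A + B - c • C - (A - d • C + -B) = (2 : F) • B + (d - c) • C := by module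
            rw [this]
            exact Submodule.add_mem _ (Submodule.smul_mem _ _ hB) (Submodule.smul_mem _ _ hC)
        exact key _ _ _ _ _ (pure_mem_memb _ _) (pure_mem_memb _ _)) hY
    have hlow : ∀ u, r ⟪u⊗v⟫ - ⟪u⊗v⟫ ∈ memb w := fun u => by
      obtain ⟨Y, hY⟩ := (hh * e).surjective ⟪u⊗v⟫
      rw [LinearEquiv.mul_apply] at hY
      rw [← hY, hrX]
      refine hL Y (W.map_eq_zero_iff.1 (neg_eq_zero.1 ?_))
      rw [← hW, ← hhc, hY, sctr_pure, hv, zero_smul]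
    obtain ⟨δ, hδ⟩ := exists_dual hw
    refine ⟨LinearMap.toMatrix' (colL δ ∘ₗ (r.toLinearMap - LinearMap.id) ∘ₗ pureL v), fun u => ?_⟩
    obtain ⟨x, hx⟩ := mem_memb.1 (hlow u)
    rw [LinearMap.toMatrix'_mulVec]
    simp only [LinearMap.comp_apply, LinearMap.sub_apply, LinearEquiv.coe_coe, LinearMap.id_apply,
      TensorMax.pureL_apply, TensorMax.colL_apply]
    rw [← hx, TensorMax.pure_mulVec, hδ, one_smul, hx, add_sub_cancel]
  refine ⟨P, hP, ?_⟩
  -- vectors orthogonal to the plane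
  have hW0 : ∀ v, f v w = 0 → f v z = 0 → ∀ u, e ⟪u⊗v⟫ = ⟪(P u)⊗(B v)⟫ := by
    intro v hv hvz u
    have htv : t.val *ᵥ v = v := by rw [htx]; simp [π, hv, hvz]
    have hBw : f (B v) w = 0 := by rw [hfB, hW, sctr_pure, hv, zero_smul, map_zero, dotProduct_zero]
    have htB : t.val *ᵥ B v = B v - ((2 : F) * f (B v) z) • w := by
      rw [htx]; simp [π, hBw, smul_smul]
    obtain ⟨c, hc⟩ := hM.rad_scalar hk hw
      (M.mul_mem (M.mul_mem he hhM) (M.inv_mem (M.mul_mem hhM he))) hrad hBw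
    choose x hx using fun u => hmid v hv u
    have heq : ∀ u, (2 : F) • x u = (c - 2 * f (B v) z) • P u := fun u => by
      have h1 := hrX ⟪u⊗v⟫
      rw [hx u, map_add, hhu, hhw, hhu, htv, hx u, htB, pure_sub_right, pure_smul_right, map_add,
        map_sub, map_smul, map_neg, hc, hrfix, hrfix] at h1
      refine pureL_injective hw ?_
      simp only [TensorMax.pureL_apply, pure_smul_left, sub_smul, pure_sub_left]
      linear_combination (norm := module) -h1
    have hxu : ∀ u, x u = ((c - 2 * f (B v) z) / 2) • P u := fun u => by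
      apply smul_right_injective _ hM.two
      dsimp only
      rw [heq, smul_smul, mul_div_cancel₀ _ hM.two]
    have hy : ∀ u, e ⟪u⊗v⟫ = ⟪(P u)⊗(B v + ((c - 2 * f (B v) z) / 2) • w)⟫ := fun u => by
      rw [hx u, hxu, pure_add_right, pure_smul_left, pure_smul_right]
    have hB : B v = B v + ((c - 2 * f (B v) z) / 2) • w := by
      change η ᵥ* e ⟪u₀⊗v⟫ = _
      rw [hy, TensorMax.pure, vecMul_vecMulVec, hη, one_smul]
    rw [hy, ← hB]
  intro v hv
  refine ⟨B (v - f v z • w) + f v z • w, fun u => ?_⟩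
  conv_lhs => rw [show v = (v - f v z • w) + f v z • w by abel]
  rw [pure_add_right, pure_smul_right, map_add, map_smul, hP,
    hW0 _ (by simp [hv, hf.alt]) (by simp [hwz]), pure_add_right, pure_smul_right]

/-- The same for an element carrying a member to another. -/
lemma mid' [Finite F] (hk : 4 ≤ k) {w w' : Fin k → F} (hw : w ≠ 0) (hw' : w' ≠ 0)
    {e : Matrix (Fin s → Fin k) (Fin k) F ≃ₗ[F] Matrix (Fin s → Fin k) (Fin k) F} (he : e ∈ M)
    (h : ∀ u, e ⟪u⊗w⟫ ∈ memb w') :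
    ∃ P : TV F k s ≃ₗ[F] TV F k s, (∀ u, e ⟪u⊗w⟫ = ⟪(P u)⊗w'⟫) ∧
      ∀ v, f v w = 0 → ∃ y, ∀ u, e ⟪u⊗v⟫ = ⟪(P u)⊗y⟫ := by
  obtain ⟨t, ht, htw⟩ := exists_isom_map hM.symp hw' hw
  obtain ⟨g, hg, hgu⟩ := hM.exists_right t ht
  have hgi : ∀ u v, g.symm ⟪u⊗v⟫ = ⟪u⊗((t⁻¹).val *ᵥ v)⟫ := fun u v => by
    rw [g.symm_apply_eq, hgu, mulVec_mulVec, ← Units.val_mul, mul_inv_cancel, Units.val_one,
      one_mulVec]
  obtain ⟨P, hP, hv⟩ := hM.mid hk hw (M.mul_mem hg he) fun u => by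
    obtain ⟨x, hx⟩ := mem_memb.1 (h u)
    rw [LinearEquiv.mul_apply, ← hx, hgu, htw]
    exact pure_mem_memb _ _
  have hback : ∀ u v y, (g * e) ⟪u⊗v⟫ = ⟪(P u)⊗y⟫ → e ⟪u⊗v⟫ = ⟪(P u)⊗((t⁻¹).val *ᵥ y)⟫ :=
    fun u v y h => by rw [← hgi, ← h]; exact (g.symm_apply_apply _).symm
  refine ⟨P, fun u => ?_, fun v hv' => ?_⟩
  · rw [hback u w w (hP u)]
    congr 1
    rw [← htw, mulVec_mulVec, ← Units.val_mul, inv_mul_cancel, Units.val_one, one_mulVec]
  · obtain ⟨y, hy⟩ := hv v hv'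
    exact ⟨_, fun u => hback u v y (hy u)⟩

/-- An element stabilising a member splits, two-dimensional factors. -/
lemma split_two {w : Fin k → F} (hk : k = 2) (hr : ∃ r : F, r ≠ 0 ∧ r ^ 2 ≠ 1) (hw : w ≠ 0)
    {e : Matrix (Fin s → Fin k) (Fin k) F ≃ₗ[F] Matrix (Fin s → Fin k) (Fin k) F} (he : e ∈ M)
    (h : ∀ u, e ⟪u⊗w⟫ ∈ memb w) :
    ∃ (α : TV F k s ≃ₗ[F] TV F k s) (β : (Fin k → F) →ₗ[F] (Fin k → F)),
      ∀ u v, e ⟪u⊗v⟫ = ⟪(α u)⊗(β v)⟫ := by
  have hf := hM.symp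
  obtain ⟨r, hr0, hr2⟩ := hr
  obtain ⟨z, hwz⟩ := hf.exists_one hw
  obtain ⟨P, W, a, ha, hPW, hP, hW⟩ := hM.stab_data hw he h
  obtain ⟨η, hη⟩ := exists_dual hw
  have hdec : ∀ (u : TV F k s) v, ⟪u⊗v⟫ = f v z • ⟪u⊗w⟫ - f v w • ⟪u⊗z⟫ := fun u v => by
    conv_lhs => rw [plane_eq hf hk hwz v]
    rw [pure_sub_right, pure_smul_right, pure_smul_right]
  let Q : TV F k s →ₗ[F] TV F k s :=
    colL η ∘ₗ (e.toLinearMap ∘ₗ pureL z - pureL z ∘ₗ W.toLinearMap)
  have hQ : ∀ u, e ⟪u⊗z⟫ = ⟪(W u)⊗z⟫ + ⟪(Q u)⊗w⟫ := fun u => by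
    have hctr : sctr f w (e ⟪u⊗z⟫ - ⟪(W u)⊗z⟫) = 0 := by
      rw [map_sub, hW, sctr_pure, sctr_pure, map_smul, sub_self]
    have hmem := of_sctr_eq_zero hf hwz LinearMap.id (memb w) (fun u v hv => by
      rw [LinearMap.id_apply, hdec, hv, zero_smul, sub_zero]
      exact Submodule.smul_mem _ _ (pure_mem_memb _ _)) hctr
    obtain ⟨x, hx⟩ := mem_memb.1 hmem
    rw [LinearMap.id_apply] at hx
    simp only [Q, LinearMap.comp_apply, LinearMap.sub_apply, LinearEquiv.coe_coe,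
      TensorMax.pureL_apply, TensorMax.colL_apply]
    rw [← hx, TensorMax.pure_mulVec, hη, one_smul, hx, add_sub_cancel]
  let l : (Fin k → F) →ₗ[F] (Fin k → F) :=
    { toFun := fun x => (r * f x z) • w - (r⁻¹ * f x w) • z
      map_add' := fun x y => by simp only [map_add, LinearMap.add_apply]; module
      map_smul' := fun c x => by
        simp only [map_smul, LinearMap.smul_apply, smul_eq_mul, RingHom.id_apply]; module }
  obtain ⟨t, ht, htx⟩ := exists_gl_of_map hf (l := l) (fun x y => by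
    conv_rhs => rw [plane_eq hf hk hwz x, plane_eq hf hk hwz y]
    simp only [l, LinearMap.coe_mk, AddHom.coe_mk, map_sub, map_smul, LinearMap.sub_apply,
      LinearMap.smul_apply, smul_eq_mul, hwz, hf.skew w z, hf.alt]
    field_simp
    ring)
  obtain ⟨hh, hhM, hhu⟩ := hM.exists_right t ht
  have hhw : ∀ u, hh ⟪u⊗w⟫ = r • ⟪u⊗w⟫ := fun u => by
    rw [hhu, htx]; simp [l, hwz, hf.alt, pure_smul_right]
  have hhz : ∀ u, hh ⟪u⊗z⟫ = r⁻¹ • ⟪u⊗z⟫ := fun u => by
    rw [hhu, htx]; simp [l, hf.alt, hf.skew w z, hwz, pure_smul_right]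
  set θ := LinearMap.toMatrix' (-(Q ∘ₗ W.symm.toLinearMap)) with hθ
  have key : ∀ X, e (hh X) = hh (e X) + sroot f ((1 - r ^ 2) • θ) w (hh (e X)) := by
    intro X
    have hY : X = ∑ j, ⟪(X *ᵥ Pi.single j 1)⊗(Pi.single j (1 : F))⟫ := by
      ext i m; simp [Matrix.sum_apply, TensorMax.pure, vecMulVec_apply, Pi.single_apply]
    rw [hY]
    simp only [map_sum, ← Finset.sum_add_distrib]
    refine Finset.sum_congr rfl fun j _ => ?_
    generalize X *ᵥ Pi.single j 1 = u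
    rw [hdec u (Pi.single j 1)]
    simp only [map_sub, map_smul, hhw, hhz, hP, hQ, map_add, sroot_apply, sctr_pure, hwz, hf.alt,
      hf.skew w z, zero_smul, smul_zero, mulVec_zero, TensorMax.pure_zero_left, add_zero,
      neg_one_smul, mulVec_neg, pure_neg_left, smul_mulVec, pure_smul_left, hθ,
      LinearMap.toMatrix'_mulVec, LinearMap.neg_apply, LinearMap.comp_apply, LinearEquiv.coe_coe,
      LinearEquiv.symm_apply_apply, neg_neg]
    match_scalars <;> field_simp <;> ring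
  obtain ⟨d, hd⟩ := hM.only _ w hw ⟨(e * hh) * (hh * e)⁻¹,
    M.mul_mem (M.mul_mem he hhM) (M.inv_mem (M.mul_mem hhM he)), fun Y => by
      have h1 := key ((hh * e)⁻¹ Y)
      rw [show hh (e ((hh * e)⁻¹ Y)) = Y from (hh * e).apply_symm_apply Y] at h1
      exact h1⟩
  have hne : (1 : F) - r ^ 2 ≠ 0 := fun h0 => hr2 (sub_eq_zero.1 h0).symm
  have hQW : ∀ u, Q u = -((1 - r ^ 2)⁻¹ * d) • W u := fun u => by
    have := congrArg (fun m => (1 - r ^ 2)⁻¹ • (m *ᵥ W u)) hd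
    simp only [smul_mulVec, smul_smul, inv_mul_cancel₀ hne, one_smul, one_mulVec, hθ,
      LinearMap.toMatrix'_mulVec, LinearMap.neg_apply, LinearMap.comp_apply, LinearEquiv.coe_coe,
      LinearEquiv.symm_apply_apply] at this
    rw [neg_smul, ← this, neg_neg]
  let β : (Fin k → F) →ₗ[F] (Fin k → F) :=
    { toFun := fun x => (a * f x z) • w - f x w • (z - ((1 - r ^ 2)⁻¹ * d) • w)
      map_add' := fun x y => by simp only [map_add, LinearMap.add_apply]; module
      map_smul' := fun c x => by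
        simp only [map_smul, LinearMap.smul_apply, smul_eq_mul, RingHom.id_apply]; module }
  refine ⟨W, β, fun u v => ?_⟩
  rw [hdec, map_sub, map_smul, map_smul, hP, hQ, hPW, hQW]
  simp only [β, LinearMap.coe_mk, AddHom.coe_mk, pure_sub_right, pure_smul_right, pure_smul_left,
    pure_neg_left, neg_smul]
  module

/-- An element carrying a member to a member splits. -/
theorem exists_split [Finite F] {w w' : Fin k → F} (hw : w ≠ 0) (hw' : w' ≠ 0)
    {e : Matrix (Fin s → Fin k) (Fin k) F ≃ₗ[F] Matrix (Fin s → Fin k) (Fin k) F} (he : e ∈ M)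
    (h : ∀ u, e ⟪u⊗w⟫ ∈ memb w') :
    ∃ (α : TV F k s ≃ₗ[F] TV F k s) (β : GL (Fin k) F),
      ∀ u v, e ⟪u⊗v⟫ = ⟪(α u)⊗(β.val *ᵥ v)⟫ := by
  classical
  have hf := hM.symp
  have hk2 := hM.two_le
  have : Nonempty (Fin k) := ⟨⟨0, by omega⟩⟩
  suffices hs : ∃ (α : TV F k s ≃ₗ[F] TV F k s) (β : (Fin k → F) →ₗ[F] (Fin k → F)),
      ∀ u v, e ⟪u⊗v⟫ = ⟪(α u)⊗(β v)⟫ by
    obtain ⟨α, β, hαβ⟩ := hs
    obtain ⟨u₀, hu₀⟩ := exists_ne (0 : TV F k s)
    have hdet : (LinearMap.toMatrix' β).det ≠ 0 := fun h0 => by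
      obtain ⟨x, hx, hx0⟩ := Matrix.exists_mulVec_eq_zero_iff.2 h0
      rw [LinearMap.toMatrix'_mulVec] at hx0
      refine hu₀ ((TensorMax.pure_eq_zero_iff hx).1 (e.injective ?_))
      rw [hαβ, hx0, TensorMax.pure_zero_right, map_zero]
    exact ⟨α, Matrix.GeneralLinearGroup.mkOfDetNeZero _ hdet, fun u v => by
      rw [hαβ, ← LinearMap.toMatrix'_mulVec β v]; rfl⟩
  rcases hM.small with ⟨hk, hr⟩ | hk
  · obtain ⟨t, ht, htw⟩ := exists_isom_map hf hw' hw
    obtain ⟨g, hg, hgu⟩ := hM.exists_right t ht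
    obtain ⟨α, β, hαβ⟩ := hM.split_two hk hr hw (M.mul_mem hg he) fun u => by
      obtain ⟨x, hx⟩ := mem_memb.1 (h u)
      rw [LinearEquiv.mul_apply, ← hx, hgu, htw]
      exact pure_mem_memb _ _
    refine ⟨α, Matrix.mulVecLin (t⁻¹).val ∘ₗ β, fun u v => g.injective ?_⟩
    rw [LinearMap.comp_apply, mulVecLin_apply, hgu, mulVec_mulVec, ← Units.val_mul, mul_inv_cancel,
      Units.val_one, one_mulVec, ← hαβ]
    rfl
  -- four or more dimensions
  obtain ⟨z, hwz⟩ := hf.exists_one hw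
  obtain ⟨P, hP, hmid⟩ := hM.mid' hk hw hw' he h
  obtain ⟨v, hv0, hvw, hvz⟩ := TensorMax.exists_ne_zero_orth_two (κ := Fin k) (by simp; omega)
    (sdual f w) (sdual f z)
  rw [dotProduct_comm, dotProduct_sdual] at hvw hvz
  obtain ⟨y, hy⟩ := hmid v hvw
  obtain ⟨u₀, hu₀⟩ := exists_ne (0 : TV F k s)
  have hy0 : y ≠ 0 := fun h0 => hu₀ ((TensorMax.pure_eq_zero_iff hv0).1
    (e.injective (by rw [hy, h0, TensorMax.pure_zero_right, map_zero])))
  obtain ⟨P', -, hmid'⟩ := hM.mid' hk hv0 hy0 he fun u => by rw [hy]; exact pure_mem_memb _ _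
  obtain ⟨y₁, hy₁⟩ := hmid' w (by rw [hf.skew v w, hvw, neg_zero])
  obtain ⟨η, hη⟩ := exists_dual hw'
  have hκ : ∀ u, P u = (y₁ ⬝ᵥ η) • P' u := fun u => by
    have := congrArg (fun X => X *ᵥ η) ((hP u).symm.trans (hy₁ u))
    simpa [TensorMax.pure_mulVec, hη] using this
  have hκ0 : y₁ ⬝ᵥ η ≠ 0 := fun h0 => hu₀ (P.map_eq_zero_iff.1 (by rw [hκ, h0, zero_smul]))
  obtain ⟨yz, hyz⟩ := hmid' z (by rw [hf.skew v z, hvz, neg_zero])
  obtain ⟨φ, hφ⟩ := exists_dual (w := P u₀) fun h0 => hu₀ (P.map_eq_zero_iff.1 h0)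
  rw [dotProduct_comm] at hφ
  let B : (Fin k → F) →ₗ[F] (Fin k → F) :=
    { toFun := fun x => φ ᵥ* e ⟪u₀⊗x⟫
      map_add' := fun x x' => by rw [pure_add_right, map_add, vecMul_add]
      map_smul' := fun c x => by rw [pure_smul_right, map_smul, vecMul_smul]; rfl }
  have hgen : ∀ x, (∃ y, ∀ u, e ⟪u⊗x⟫ = ⟪(P u)⊗y⟫) → ∀ u, e ⟪u⊗x⟫ = ⟪(P u)⊗(B x)⟫ := by
    rintro x ⟨y, hy⟩ u
    have : B x = y := by
      change φ ᵥ* e ⟪u₀⊗x⟫ = y
      rw [hy, TensorMax.pure, vecMul_vecMulVec, hφ, one_smul]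
    rw [this, hy]
  have hz : ∀ u, e ⟪u⊗z⟫ = ⟪(P u)⊗(B z)⟫ := hgen z ⟨(y₁ ⬝ᵥ η)⁻¹ • yz, fun u => by
    rw [hκ, pure_smul_left, pure_smul_right, smul_smul, mul_inv_cancel₀ hκ0, one_smul, hyz]⟩
  refine ⟨P, B, fun u x => ?_⟩
  have hx : f (x + f x w • z) w = 0 := by simp [hf.skew w z, hwz]
  conv_lhs => rw [show x = (x + f x w • z) - f x w • z by abel]
  rw [pure_sub_right, pure_smul_right, map_sub, map_smul, hz, hgen _ (hmid _ hx),
    ← pure_smul_right, ← pure_sub_right, map_add, map_smul, add_sub_cancel_right]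

end Sctx

end CfsgLib.SympWreath17
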