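import Cfsg.Agent.SympWreath17.PureRoots

/-!
A non-scalar coefficient of a root element in one factor of an odd tensor power of a symplectic space
gives all the transvections.
-/

set_option autoImplicit false
set_option linter.unusedSectionVars false

namespace CfsgLib.SympWreath17

open Matrix Module Function
open CfsgLib.Aschbacher (kroneckerPow kroneckerPow_mul kroneckerPow_one)
open CfsgLib.TensorMax (InM rootMap pure pure_mulVec rootMap_apply)
open CfsgLib.WreathTensor14 (TV pv slot slot_pv slotGroup slotConj slotConj_apply kronE kronE_pv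
  kronE_insertNth_one kronE_insertNth_left inM_slotGroup_iff pureMul_slot InV linearMap_ext_pv kroneckerPow_mulVec_pv)

variable {F : Type*} [Field F] {k t s : ℕ} {f : LinearMap.BilinForm F (Fin k → F)}

/-- Every element of a finite field of odd characteristic is a sum of two squares. -/
lemma exists_sq_add_sq [Finite F] (h2 : (2 : F) ≠ 0) (c : F) : ∃ a b : F, a ^ 2 + b ^ 2 = c := by
  have := Fintype.ofFinite F
  obtain ⟨a, b, h⟩ := FiniteField.exists_root_sum_quadratic (R := F)
    (f := (Polynomial.X : Polynomial F) ^ 2)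
    (g := (Polynomial.X : Polynomial F) ^ 2 - Polynomial.C c)
    (Polynomial.degree_X_pow 2) (Polynomial.degree_X_pow_sub_C (by decide) _)
    (FiniteField.odd_card_of_char_ne_two fun h => h2 (by
      have := ringChar.Nat.cast_ringChar (R := F)
      rw [h] at this
      simpa using this))
  exact ⟨a, b, by simp at h; linear_combination h⟩

lemma bT_sdual {b : GL (Fin k) F} (hb : Isom f b) (w : Fin k → F) :
    b.valᵀ *ᵥ sdual f (b.val *ᵥ w) = sdual f w := funext fun j => by
  rw [show (b.valᵀ *ᵥ sdual f (b.val *ᵥ w)) j = (b.val *ᵥ Pi.single j 1) ⬝ᵥ sdual f (b.val *ᵥ w) by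
    rw [mulVec_single_one]; rfl, dotProduct_sdual, hb]
  rfl

section slot

variable {M : Subgroup (TV F k (s + 1) ≃ₗ[F] TV F k (s + 1))}

lemma sroot_add (θ φ : Matrix (Fin s → Fin k) (Fin s → Fin k) F) (w : Fin k → F) :
    sroot f (θ + φ) w = sroot f θ w + sroot f φ w :=
  LinearMap.ext fun X => by
    simp only [sroot_apply, LinearMap.add_apply, add_mulVec, TensorMax.pure, add_vecMulVec]

lemma sroot_smul (c : F) (θ : Matrix (Fin s → Fin k) (Fin s → Fin k) F) (w : Fin k → F) :
    sroot f (c • θ) w = c • sroot f θ w :=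
  LinearMap.ext fun X => by
    simp only [sroot_apply, LinearMap.smul_apply, smul_mulVec, TensorMax.pure, smul_vecMulVec]

lemma sroot_sroot (hf : IsSymp f) (θ φ : Matrix (Fin s → Fin k) (Fin s → Fin k) F) (w : Fin k → F)
    (X : Matrix (Fin s → Fin k) (Fin k) F) : sroot f θ w (sroot f φ w X) = 0 := by
  rw [sroot_apply, sroot_apply, sctr_pure, hf.alt, zero_smul, mulVec_zero, TensorMax.pure,
    zero_vecMulVec]

/-- The coefficients of the root elements at `w` in the factor `i`. -/
def coeffs (hM : SBase f M) (i : Fin (s + 1)) (w : Fin k → F) :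
    Submodule F (Matrix (Fin s → Fin k) (Fin s → Fin k) F) where
  carrier := {θ | ∀ c : F, InM (slotGroup M i) (c • sroot f θ w)}
  zero_mem' c := InM.zero.congr fun X => by simp [TensorMax.pure]
  add_mem' := fun {θ φ} h h' c =>
    ((h c).add (h' c) fun X => by
      simp only [LinearMap.smul_apply, map_smul, sroot_sroot hM.symp, smul_zero]).congr fun X => by
        rw [sroot_add, smul_add]
  smul_mem' := fun r θ h c => (h (c * r)).congr fun X => by rw [sroot_smul, smul_smul]

variable (hM : SBase f M) {i : Fin (s + 1)} {w : Fin k → F}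

include hM

lemma mem_coeffs_of_inM [Finite F] (hw : w ≠ 0) {θ : Matrix (Fin s → Fin k) (Fin s → Fin k) F}
    (h : InM (slotGroup M i) (sroot f θ w)) : θ ∈ coeffs hM i w := by
  have hsq : ∀ a : F, InM (slotGroup M i) ((a ^ 2) • sroot f θ w) := by
    intro a
    rcases eq_or_ne a 0 with rfl | ha
    · exact InM.zero.congr fun X => by simp
    obtain ⟨b, hb, hbw⟩ := exists_isom_map hM.symp hw (smul_ne_zero ha hw)
    have hg : kronE (Fin.insertNth (α := fun _ => GL (Fin k) F) i b 1) ∈ M := hM.kron_mem _ fun l => by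
      rcases Fin.eq_self_or_eq_succAbove i l with rfl | ⟨l, rfl⟩
      · simpa using hb
      · simpa using isom_one f
    refine (h.conj (Subgroup.mem_map_of_mem _ hg)).congr fun X => ?_
    obtain ⟨Y, rfl⟩ := (slotConj i (kronE (Fin.insertNth (α := fun _ => GL (Fin k) F) i b 1))).surjective X
    simp only [LinearMap.comp_apply, LinearEquiv.coe_coe, LinearEquiv.symm_apply_apply,
      LinearMap.smul_apply]
    rw [kronE_insertNth_one, kronE_insertNth_one, sroot_apply, sroot_apply, sctr_apply, sctr_apply,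
      TensorMax.pure, TensorMax.pure, vecMulVec_mul, vecMul_transpose, hbw]
    have h1 : (Y * b.valᵀ) *ᵥ sdual f w = a⁻¹ • (Y *ᵥ sdual f w) := by
      rw [← mulVec_mulVec, ← inv_smul_smul₀ ha (b.valᵀ *ᵥ sdual f w), ← mulVec_smul, ← map_smul,
        ← hbw, bT_sdual hb, mulVec_smul]
    rw [h1, mulVec_smul, smul_vecMulVec, vecMulVec_smul', smul_vecMulVec, smul_smul, pow_two,
      mul_assoc, mul_inv_cancel₀ ha, mul_one, op_smul_eq_smul]
  intro c
  obtain ⟨a, b, rfl⟩ := exists_sq_add_sq hM.two c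
  exact ((hsq a).add (hsq b) fun X => by
    simp only [LinearMap.smul_apply, map_smul, sroot_sroot hM.symp, smul_zero]).congr fun X => by
      rw [add_smul]

lemma coeffs_conj {θ : Matrix (Fin s → Fin k) (Fin s → Fin k) F} (h : θ ∈ coeffs hM i w)
    {gs : Fin s → GL (Fin k) F} (hgs : ∀ j, Isom f (gs j))
    {A' : Matrix (Fin s → Fin k) (Fin s → Fin k) F}
    (hA : A' * kroneckerPow (fun j => (gs j).val) = 1) :
    kroneckerPow (fun j => (gs j).val) * θ * A' ∈ coeffs hM i w := by
  intro c
  have hg : kronE (Fin.insertNth (α := fun _ => GL (Fin k) F) i 1 gs) ∈ M := hM.kron_mem _ fun l => by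
    rcases Fin.eq_self_or_eq_succAbove i l with rfl | ⟨l, rfl⟩
    · simpa using isom_one f
    · simpa using hgs l
  refine ((h c).conj (Subgroup.mem_map_of_mem _ hg)).congr fun X => ?_
  obtain ⟨Y, rfl⟩ := (slotConj i (kronE (Fin.insertNth (α := fun _ => GL (Fin k) F) i 1 gs))).surjective X
  simp only [LinearMap.comp_apply, LinearEquiv.coe_coe, LinearEquiv.symm_apply_apply,
    LinearMap.smul_apply]
  simp only [kronE_insertNth_left, sroot_apply, sctr_apply, TensorMax.pure, Matrix.mul_smul,
    mul_vecMulVec, mulVec_mulVec, Matrix.mul_assoc]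
  rw [← Matrix.mul_assoc A' _ Y, hA, Matrix.one_mul]

lemma coeffs_nInv : NInv f (coeffs hM i w) := by
  intro j v θ hθ
  set E := emb j (nmat f v) with hEdef
  have hE : E * E = 0 := kp_mul_zero j (by simp [nmat_sq hM.symp])
  have hc : ∀ c : F, θ + c • (E * θ - θ * E) - (c * c) • (E * θ * E) ∈ coeffs hM i w := by
    intro c
    obtain ⟨a, ha, hav, -, -⟩ := exists_transvection hM.symp c v
    have hgs : ∀ l, Isom f (update (1 : Fin s → GL (Fin k) F) j a l) := fun l => by
      rcases eq_or_ne l j with rfl | hl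
      · simpa using ha
      · simpa [hl] using isom_one f
    have hA : kroneckerPow (fun l => (update (1 : Fin s → GL (Fin k) F) j a l).val) = 1 + c • E := by
      rw [show (fun l => (update (1 : Fin s → GL (Fin k) F) j a l).val)
          = update (1 : Fin s → Matrix (Fin k) (Fin k) F) j (1 + c • nmat f v) from funext fun l => by
            rcases eq_or_ne l j with rfl | hl <;> simp [*]]
      rw [kp_update_add, kp_update_smul, show update (1 : Fin s → Matrix (Fin k) (Fin k) F) j 1 = 1
        from update_eq_self j 1, Pi.one_def, kroneckerPow_one]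
      rfl
    have h := coeffs_conj hM hθ hgs (A' := 1 - c • E) (by
      rw [hA]
      simp [sub_mul, mul_add, hE])
    rw [hA] at h
    convert h using 1
    simp only [add_mul, mul_sub, one_mul, mul_one, smul_mul_assoc, mul_smul_comm, smul_smul, smul_sub,
      smul_add]
    module
  have hp := hc 1
  have hm := hc (-1)
  have h2 : ((2 : F)⁻¹ * 2) = 1 := inv_mul_cancel₀ hM.two
  constructor
  · have h := (coeffs hM i w).smul_mem (2 : F)⁻¹ (sub_mem hp hm)
    convert h using 1
    linear_combination (norm := module) -(congrArg (fun r : F => r • (E * θ - θ * E)) h2)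
  · have h := (coeffs hM i w).smul_mem (2 : F)⁻¹
      (sub_mem ((coeffs hM i w).smul_mem (2 : F) hθ) (add_mem hp hm))
    convert h using 1
    linear_combination (norm := module) -(congrArg (fun r : F => r • (E * θ * E)) h2)

lemma inG_of_mem {B : Fin s → Matrix (Fin k) (Fin k) F} (h : kroneckerPow B ∈ coeffs hM i w) :
    InG M (kroneckerPow (Fin.insertNth (α := fun _ => Matrix (Fin k) (Fin k) F) i (nmat f w) B)) := by
  intro c
  obtain ⟨e, he, hev⟩ := inM_slotGroup_iff.1 (h c)
  refine ⟨e, he, fun v => ?_⟩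
  rw [hev]
  simp only [LinearMap.comp_apply, LinearEquiv.coe_coe, LinearMap.smul_apply, map_smul, sroot]
  rw [pureMul_slot, smul_mulVec]
  rfl

end slot

/-- A root element has an odd number of rank one factors. -/
lemma odd_card_of_inG {M : Subgroup (TV F k t ≃ₗ[F] TV F k t)} (hM : SBase f M)
    {S D : Finset (Fin t)} {P : Fin t → Matrix (Fin k) (Fin k) F} {v : Fin t → Fin k → F}
    (h : InG M (kroneckerPow (fam f S D P v))) (hS : S.Nonempty) (hv : ∀ j ∈ S, v j ≠ 0)
    (hP : ∀ j ∈ D, ∃ x y, f (P j *ᵥ x) y ≠ 0 ∧ f x (P j *ᵥ y) = f (P j *ᵥ x) y)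
    {e e' : Fin k → F} (he : f e e' = 1) : Odd S.card := by
  have hf := hM.symp
  have key : ∀ j, ∃ x y, f (fam f S D P v j *ᵥ x) y ≠ 0 ∧
      f x (fam f S D P v j *ᵥ y) = (if j ∈ S then (-1 : F) else 1) * f (fam f S D P v j *ᵥ x) y ∧
      (j ∈ S → f x y = 0 ∧ f (fam f S D P v j *ᵥ x) (fam f S D P v j *ᵥ y) = 0) := by
    intro j
    by_cases hj : j ∈ S
    · obtain ⟨z, hz⟩ := hf.exists_one (hv j hj)
      refine ⟨z, z, ?_, ?_, fun _ => ⟨hf.alt z, hf.alt _⟩⟩
      · simp [fam_S hj, nmat_mulVec, hz, hf.skew (v j) z]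
      · rw [if_pos hj, neg_one_mul, hf.skew]
    · by_cases hjD : j ∈ D
      · obtain ⟨x, y, h1, h2⟩ := hP j hjD
        exact ⟨x, y, by rwa [fam_D hj hjD], by rw [if_neg hj, one_mul, fam_D hj hjD, h2],
          fun h => absurd h hj⟩
      · exact ⟨e, e', by simp [fam_one hj hjD, he], by simp [fam_one hj hjD, hj],
          fun h => absurd h hj⟩
  choose x y hne hsk h0 using key
  obtain ⟨g, hg, hgv⟩ := h 1
  obtain ⟨μ, -, hsim⟩ := hM.sim g hg
  have hs := hsim (pv x) (pv y)
  obtain ⟨l, hl⟩ := hS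
  rw [hgv, hgv, one_smul, kroneckerPow_mulVec_pv, kroneckerPow_mulVec_pv] at hs
  simp only [map_add, LinearMap.add_apply, tform_pv] at hs
  have z1 : ∏ j, f (x j) (y j) = 0 := Finset.prod_eq_zero (Finset.mem_univ l) (h0 l hl).1
  have z2 : ∏ j, f (fam f S D P v j *ᵥ x j) (fam f S D P v j *ᵥ y j) = 0 :=
    Finset.prod_eq_zero (Finset.mem_univ l) (h0 l hl).2
  rw [z1, z2, mul_zero, zero_add, add_zero, Finset.prod_congr rfl
      fun j _ => hsk j, Finset.prod_mul_distrib, Fintype.prod_ite_mem, Finset.prod_const] at hs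
  rw [← Nat.not_even_iff_odd]
  intro hev
  rw [hev.neg_one_pow, one_mul] at hs
  exact mul_ne_zero hM.two (Finset.prod_ne_zero_iff.2 fun j _ => hne j) (by linear_combination hs)

/-- A root element with factors of the three shapes gives all the transvections. -/
theorem cen_of_typed {M : Subgroup (TV F k t ≃ₗ[F] TV F k t)} (hM : SBase f M) (ht : Odd t)
    {E : Fin t → Matrix (Fin k) (Fin k) F} (hE : InG M (kroneckerPow E)) (hty : ∀ j, Typed f (E j))
    {i j : Fin t} (hij : j ≠ i) (hi : ∃ v, v ≠ 0 ∧ E i = nmat f v) (hj : E j ≠ 1) (x : TV F k t) :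
    Cen f M x := by
  classical
  have hf := hM.symp
  obtain ⟨e, he0, -⟩ := id hi
  obtain ⟨e', he⟩ := hf.exists_one he0
  let S : Finset (Fin t) := Finset.univ.filter fun l => ∃ v, v ≠ 0 ∧ E l = nmat f v
  let D : Finset (Fin t) := Finset.univ.filter (fun l => E l ≠ 1) \ S
  have memS : ∀ {l}, l ∈ S ↔ ∃ v, v ≠ 0 ∧ E l = nmat f v := fun {l} => by simp [S]
  have hdis : Disjoint S D := Finset.disjoint_sdiff
  have hiS : i ∈ S := memS.2 hi
  have hv' : ∀ l, ∃ v, l ∈ S → v ≠ 0 ∧ E l = nmat f v := fun l => by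
    by_cases h : l ∈ S
    · exact (memS.1 h).imp fun _ hv _ => hv
    · exact ⟨0, fun h' => absurd h' h⟩
  choose v hv using hv'
  have hD' : ∀ l, ∃ a b b', l ∈ D →
      a ≠ 0 ∧ f a b = 0 ∧ f a b' = 0 ∧ f b b' = 1 ∧ E l = amat f a b := fun l => by
    by_cases h : l ∈ D
    · simp only [D, Finset.mem_sdiff, Finset.mem_filter, Finset.mem_univ, true_and] at h
      rcases hty l with h1 | h1 | ⟨a, b, b', h1⟩
      · exact absurd h1 h.1
      · exact absurd (memS.2 h1) h.2
      · exact ⟨a, b, b', fun _ => h1⟩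
    · exact ⟨0, 0, 0, fun h' => absurd h' h⟩
  choose a b b' hD using hD'
  let P₁ : Fin t → Matrix (Fin k) (Fin k) F := fun l => amat f (a l) (b l)
  let P₂ : Fin t → Matrix (Fin k) (Fin k) F := fun l => amat f (a l) (b' l)
  have hfamE : E = fam f S D P₁ v := funext fun l => by
    by_cases h : l ∈ S
    · rw [fam_S h]; exact (hv l h).2
    · by_cases h' : l ∈ D
      · rw [fam_D h h']; exact (hD l h').2.2.2.2
      · rw [fam_one h h']
        simpa [D, h] using h'
  rw [hfamE] at hE
  have hodd : Odd S.card := odd_card_of_inG hM hE ⟨i, hiS⟩ (fun l hl => (hv l hl).1) (fun l hl => by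
    obtain ⟨ha, hab, hab', hbb', -⟩ := hD l hl
    obtain ⟨z, hz⟩ := hf.exists_one ha
    refine ⟨b' l, z, ?_, ?_⟩
    · simp [P₁, amat_partner hf hbb' hab', hz]
    · simp only [P₁, amat_partner hf hbb' hab', amat_mulVec, map_sub, map_smul, LinearMap.neg_apply,
        map_neg, smul_eq_mul, hz, hf.skew (b l) (b' l), hbb', hf.skew (a l) (b' l), hab',
        hf.skew (a l) z]
      ring) he
  have hall₁ : ∀ u, InG M (kroneckerPow (fam f S D P₁ u)) :=
    fam_all hM (fun l hl => (hv l hl).1) hE
  have hgs : ∀ l, ∃ g : GL (Fin k) F, Isom f g ∧ (l ∈ D → g.val * P₁ l = P₂ l * g.val) ∧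
      (l ∉ D → g = 1) := by
    intro l
    by_cases h : l ∈ D
    · obtain ⟨ha, hab, hab', hbb', -⟩ := hD l h
      obtain ⟨g, hg, -, hgz, -⟩ := exists_transvection hf 1 (b' l - b l)
      refine ⟨g, hg, fun _ => ?_, fun h' => absurd h h'⟩
      rw [amat_conj hf hg, hgz, hgz]
      simp [P₂, map_sub, hab, hab', hbb', hf.alt]
    · exact ⟨1, isom_one f, fun h' => absurd h' h, fun _ => rfl⟩
  choose g hg hgD hg1 using hgs
  have hall₂ : ∀ u, InG M (kroneckerPow (fam f S D P₂ u)) := fun u =>
    InG.conj hM hg (fun l => by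
      by_cases h' : l ∈ D
      · have h : l ∉ S := Finset.disjoint_right.1 hdis h'
        rw [fam_D h h', fam_D h h']
        exact hgD l h'
      · simp [hg1 l h', fam, h']) (hall₁ u)
  have hP : ∀ l ∈ D, a l ≠ 0 ∧ P₁ l * P₂ l = nmat f (a l) ∧ P₂ l * P₁ l = -nmat f (a l) ∧
      P₁ l * P₁ l = 0 ∧ P₂ l * P₂ l = 0 ∧ nmat f (a l) * P₁ l = 0 ∧ nmat f (a l) * P₂ l = 0 :=
    fun l hl => by
      obtain ⟨ha, hab, hab', hbb', -⟩ := hD l hl
      exact ⟨ha, (amat_mul_amat hf hab hab' hbb').1, (amat_mul_amat hf hab hab' hbb').2,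
        amat_sq hf hab, amat_sq hf hab', nmat_mul_amat hf hab, nmat_mul_amat hf hab'⟩
  have fin : ∀ U, Odd U.card → 3 ≤ U.card → Good f M U → Cen f M x := fun U h1 h3 hU =>
    cen_all hM ht (fun u => (Good.univ hM ht he t U (by omega) h1 h3 hU).cen u) x
  have hSpos : 0 < S.card := Finset.card_pos.2 ⟨i, hiS⟩
  rcases Nat.eq_zero_or_pos D.card with hd | hd
  · rw [Finset.card_eq_zero] at hd
    refine fin S hodd ?_ fun u => ?_
    · have hjS : j ∈ S := by
        by_contra h
        have : j ∈ D := by simp [D, hj, h]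
        simp [hd] at this
      have : 1 < S.card := Finset.one_lt_card.2 ⟨j, hjS, i, hiS, hij⟩
      obtain ⟨r, hr⟩ := hodd
      omega
    · convert hall₁ u using 2
      funext l
      simp [fam, hd]
  rcases Nat.even_or_odd D.card with hde | hdo
  · have h := good_of_two hM hall₁ hall₂ hdis hdis ⟨i, hiS⟩ (Or.inl (Finset.card_pos.1 hd))
      (by rw [Finset.inter_self]; exact hodd.add_even hde) hP he
    rw [Finset.union_self] at h
    refine fin _ ?_ ?_ h <;> rw [Finset.card_union_of_disjoint hdis]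
    · exact hodd.add_even hde
    · obtain ⟨r, hr⟩ := hde
      omega
  have hex : ∃ l, l ∉ S ∪ D := by
    by_contra! hc
    have hc' := congrArg Finset.card (Finset.eq_univ_iff_forall.2 hc)
    rw [Finset.card_univ, Fintype.card_fin, Finset.card_union_of_disjoint hdis] at hc'
    exact Nat.not_even_iff_odd.2 ht (hc' ▸ hodd.add_odd hdo)
  obtain ⟨l, hl⟩ := hex
  rw [Finset.mem_union, not_or] at hl
  let σ : Equiv.Perm (Fin t) := Equiv.swap i l
  have hiD : i ∉ D := Finset.disjoint_left.1 hdis hiS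
  have hli : l ≠ i := fun h => hl.1 (h ▸ hiS)
  have hall₃ : ∀ u, InG M (kroneckerPow (fam f (insert l (S.erase i)) D P₂ u)) := by
    intro u
    convert InG.perm hM σ (hall₂ (u ∘ σ)) using 2
    funext m
    rcases eq_or_ne m i with rfl | hmi
    · simp [σ, fam, hl.1, hl.2, hiD, hli.symm]
    rcases eq_or_ne m l with rfl | hml
    · simp [σ, fam, hiS]
    · simp [σ, fam, hmi, hml, Equiv.swap_apply_of_ne_of_ne]
  have hdis' : Disjoint (insert l (S.erase i)) D := by
    rw [Finset.disjoint_insert_left]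
    exact ⟨hl.2, hdis.mono_left (Finset.erase_subset i S)⟩
  have hint : S ∩ insert l (S.erase i) = S.erase i := by
    rw [Finset.inter_insert_of_notMem hl.1, Finset.inter_eq_right.2 (Finset.erase_subset i S)]
  have h := good_of_two hM hall₁ hall₃ hdis hdis' ⟨i, hiS⟩ (Or.inl (Finset.card_pos.1 hd))
    (by
      rw [hint, Finset.card_erase_of_mem hiS]
      obtain ⟨r, hr⟩ := hodd
      obtain ⟨q, hq⟩ := hdo
      exact ⟨r + q, by omega⟩) hP he
  have hU : S ∪ insert l (S.erase i) ∪ D = insert l (S ∪ D) := by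
    ext m
    simp only [Finset.mem_union, Finset.mem_insert, Finset.mem_erase]
    tauto
  rw [hU] at h
  have hUc : (insert l (S ∪ D)).card = S.card + D.card + 1 := by
    rw [Finset.card_insert_of_notMem (by simp [hl]), Finset.card_union_of_disjoint hdis]
  refine fin _ ?_ ?_ h <;> rw [hUc]
  · exact (hodd.add_odd hdo).add_odd odd_one
  · omega

/-- A non-scalar coefficient gives all the transvections. -/
theorem inV_stv_of_not_onlyScal [Finite F] {M : Subgroup (TV F k (s + 1) ≃ₗ[F] TV F k (s + 1))}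
    (hM : SBase f M) (hs : Even s) (_h2 : 2 ≤ s) (hns : ¬ OnlyScal f M) (c : F)
    (x : TV F k (s + 1)) : InV M (stv (tform f (s + 1)) c x) := by
  simp only [OnlyScal, not_forall] at hns
  obtain ⟨i, θ, w, hw, hθ, hθs⟩ := hns
  obtain ⟨B, hB, hty, j, hj⟩ := exists_typed hM.symp s _ (coeffs_nInv hM) θ
    (mem_coeffs_of_inM hM hw hθ) hθs
  refine cen_of_typed hM hs.add_one (inG_of_mem hM hB) (fun l => ?_) (Fin.succAbove_ne i j)
    ⟨w, hw, by simp⟩ (by simpa using hj) x c
  rcases Fin.eq_self_or_eq_succAbove i l with rfl | ⟨l, rfl⟩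
  · exact Or.inr (Or.inl ⟨w, hw, by simp⟩)
  · simpa using hty l

end CfsgLib.SympWreath17
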