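import Cfsg.Agent.SympWreath17.Member
import Cfsg.Agent.UnitTensor96.Flip

/-!
A member and a conjugate of a member in general position, factors of dimension at least four: the
involution of the two root groups confines the conjugate to a hyperbolic plane.
-/

set_option autoImplicit false
set_option linter.unusedSectionVars false

namespace CfsgLib.SympWreath17

open Matrix Module
open CfsgLib.TensorMax (InM memb mem_memb pure_mem_memb exists_dual exists_covec pureL pureL_injective)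
open CfsgLib.WreathTensor14 (TV slot)

local notation "⟪" u "⊗" w "⟫" => TensorMax.pure u w

variable {F : Type*} [Field F] {k s : ℕ} {f : LinearMap.BilinForm F (Fin k → F)}
  {M : Subgroup (Matrix (Fin s → Fin k) (Fin k) F ≃ₗ[F] Matrix (Fin s → Fin k) (Fin k) F)}

lemma sphi_nd (hf : IsSymp f) {X : Matrix (Fin s → Fin k) (Fin k) F}
    (h : ∀ Y, sphi (tform f s) f X Y = 0) : X = 0 :=
  sctr_ext hf fun w => tform_nd hf s _ fun u => by rw [← sphi_pure_right]; exact h _

lemma sphi_comm (hf : IsSymp f) (X Y : Matrix (Fin s → Fin k) (Fin k) F) :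
    sphi (tform f s) f Y X = (-1) ^ (s + 1) * sphi (tform f s) f X Y := by
  obtain ⟨u, rfl⟩ := (slot (F := F) (m := k) (0 : Fin (s + 1))).surjective X
  obtain ⟨v, rfl⟩ := (slot (F := F) (m := k) (0 : Fin (s + 1))).surjective Y
  rw [tform_slot, tform_slot, tform_comm hf]

lemma sphi_isRefl (hf : IsSymp f) : (sphi (tform f s) f).IsRefl := fun X Y h => by
  rw [sphi_comm hf, h, mul_zero]

lemma sphi_nondegenerate (hf : IsSymp f) : (sphi (tform f s) f).Nondegenerate :=
  ⟨fun X h => sphi_nd hf h, fun Y h => sphi_nd hf fun X => sphi_isRefl hf _ _ (h X)⟩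

/-- A member over `w` and a conjugate `T` of a member, with their root groups, in general
position. -/
structure Meet (f : LinearMap.BilinForm F (Fin k → F))
    (M : Subgroup (Matrix (Fin s → Fin k) (Fin k) F ≃ₗ[F] Matrix (Fin s → Fin k) (Fin k) F))
    (w : Fin k → F) (T : Submodule F (Matrix (Fin s → Fin k) (Fin k) F))
    (P : Matrix (Fin s → Fin k) (Fin k) F →ₗ[F] Matrix (Fin s → Fin k) (Fin k) F) : Prop where
  ne_zero : w ≠ 0
  dimT : finrank F T = Fintype.card (Fin s → Fin k)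
  isoT : ∀ X ∈ T, ∀ Y ∈ T, sphi (tform f s) f X Y = 0
  imP : ∀ Y, P Y ∈ T
  kerP : ∀ Y, P Y = 0 ↔ ∀ t ∈ T, sphi (tform f s) f Y t = 0
  inP : ∀ c : F, InM M (c • P)
  backT : ∀ t ∈ T, sroot f 1 w t ∈ T → t ∈ memb w
  backU : ∀ u ∈ memb w, P u ∈ memb w → u ∈ T
  not_le : ¬ T ≤ memb w

namespace Meet

variable {w : Fin k → F} {T : Submodule F (Matrix (Fin s → Fin k) (Fin k) F)}
  {P : Matrix (Fin s → Fin k) (Fin k) F →ₗ[F] Matrix (Fin s → Fin k) (Fin k) F}
  (h : Meet f M w T P)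
include h

lemma PT {t : Matrix (Fin s → Fin k) (Fin k) F} (ht : t ∈ T) : P t = 0 :=
  (h.kerP t).2 (h.isoT t ht)

omit h in
lemma NU (hM : Sctx f M) {u : Matrix (Fin s → Fin k) (Fin k) F} (hu : u ∈ memb w) :
    sroot f 1 w u = 0 := by
  obtain ⟨x, rfl⟩ := mem_memb.1 hu
  rw [sroot_apply, sctr_pure, hM.symp.alt, zero_smul, mulVec_zero, TensorMax.pure_zero_left]

omit h in
lemma imN (Y : Matrix (Fin s → Fin k) (Fin k) F) : sroot f 1 w Y ∈ memb w := pure_mem_memb _ _

omit h in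
lemma isoU (hM : Sctx f M) {X Y : Matrix (Fin s → Fin k) (Fin k) F} (hX : X ∈ memb w)
    (hY : Y ∈ memb w) : sphi (tform f s) f X Y = 0 := by
  obtain ⟨x, rfl⟩ := mem_memb.1 hX
  obtain ⟨y, rfl⟩ := mem_memb.1 hY
  rw [sphi_pure_pure, hM.symp.alt, zero_mul]

lemma kerN_iff (hM : Sctx f M) (Y : Matrix (Fin s → Fin k) (Fin k) F) :
    sroot f 1 w Y = 0 ↔ sctr f w Y = 0 := by
  rw [sroot_apply, one_mulVec, TensorMax.pure_eq_zero_iff h.ne_zero]

/-- The kernel of the root map splits over the member. -/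
lemma exists_split_kerN (hM : Sctx f M) {Y : Matrix (Fin s → Fin k) (Fin k) F}
    (hY : sroot f 1 w Y = 0) :
    ∃ u ∈ memb w, sroot f 1 w (Y - u) = 0 ∧ P (Y - u) = 0 := by
  have hB := sphi_nondegenerate (s := s) hM.symp
  have hR := sphi_isRefl (s := s) hM.symp
  set U : Submodule F (Matrix (Fin s → Fin k) (Fin k) F) := memb w
  set Φ := sphi (tform f s) f
  set O := Φ.orthogonal (U ⊔ T) with hO
  have memO : ∀ {X}, X ∈ O → sroot f 1 w X = 0 ∧ P X = 0 := fun {X} hX => by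
    rw [hO, LinearMap.BilinForm.mem_orthogonal_iff] at hX
    refine ⟨(h.kerN_iff hM X).2 (tform_nd hM.symp s _ fun u => ?_),
      (h.kerP X).2 fun t ht => hR _ _ (hX t (Submodule.mem_sup_right ht))⟩
    rw [← sphi_pure_right]
    exact hR _ _ (hX _ (Submodule.mem_sup_left (pure_mem_memb u w)))
  have hkN : ∀ {X}, X ∈ Φ.orthogonal U ↔ sroot f 1 w X = 0 := fun {X} => by
    rw [LinearMap.BilinForm.mem_orthogonal_iff, h.kerN_iff hM]
    refine ⟨fun hX => tform_nd hM.symp s _ fun u => ?_, fun hX Z hZ => ?_⟩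
    · rw [← sphi_pure_right]
      exact hR _ _ (hX _ (pure_mem_memb u w))
    · obtain ⟨u, rfl⟩ := mem_memb.1 hZ
      refine hR _ _ ?_
      change sphi (tform f s) f X ⟪u⊗w⟫ = 0
      rw [sphi_pure_right, hX, map_zero, LinearMap.zero_apply]
  have hsum : Φ.orthogonal U = U ⊔ O := by
    symm
    refine Submodule.eq_of_le_of_finrank_le (sup_le (fun u hu => hkN.2 (NU hM hu))
      fun X hX => hkN.2 (memO hX).1) ?_
    have hUO : U ⊓ O = U ⊓ T := by
      ext Z
      refine ⟨fun hZ => ⟨hZ.1, h.backU Z hZ.1 (by rw [(memO hZ.2).2]; exact zero_mem _)⟩,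
        fun hZ => ⟨hZ.1, ?_⟩⟩
      rw [SetLike.mem_coe, hO, LinearMap.BilinForm.mem_orthogonal_iff]
      intro X hX
      obtain ⟨a, ha, b, hb, rfl⟩ := Submodule.mem_sup.1 hX
      change Φ (a + b) Z = 0
      rw [map_add, LinearMap.add_apply, isoU hM ha hZ.1, h.isoT b hb Z hZ.2, add_zero]
    have d1 := Submodule.finrank_sup_add_finrank_inf_eq U O
    have d2 := Submodule.finrank_sup_add_finrank_inf_eq U T
    have d3 := LinearMap.BilinForm.finrank_orthogonal hB (U ⊔ T)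
    have d4 := LinearMap.BilinForm.finrank_orthogonal hB U
    have d5 := Submodule.finrank_le (U ⊔ T)
    have d6 := h.dimT
    have d7 : finrank F U = Fintype.card (Fin s → Fin k) := TensorMax.finrank_memb h.ne_zero
    rw [hUO] at d1
    rw [← hO] at d3
    omega
  have hY' : Y ∈ U ⊔ O := hsum ▸ hkN.2 hY
  obtain ⟨u, hu, o, ho, rfl⟩ := Submodule.mem_sup.1 hY'
  exact ⟨u, hu, by rw [add_sub_cancel_left]; exact memO ho⟩

/-- In general position the conjugate lies over a hyperbolic plane through `w`, and meets the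
member trivially. -/
theorem plane [Finite F] (hM : Sctx f M) (hk : 4 ≤ k) :
    memb w ⊓ T = ⊥ ∧ ∃ z, f w z = 1 ∧ ∀ t ∈ T, ∀ v, f v w = 0 → f v z = 0 → sctr f v t = 0 := by
  classical
  have hf := hM.symp
  have hR := sphi_isRefl (s := s) hf
  have : Nonempty (Fin k) := ⟨⟨0, by omega⟩⟩
  have : Finite (Matrix (Fin s → Fin k) (Fin k) F ≃ₗ[F] Matrix (Fin s → Fin k) (Fin k) F) :=
    Finite.of_injective (fun g => (g : Matrix (Fin s → Fin k) (Fin k) F → Matrix (Fin s → Fin k) (Fin k) F))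
      DFunLike.coe_injective
  obtain ⟨xP, hxP, hxPY⟩ := h.inP 1
  obtain ⟨xN, hxN, hxNY⟩ := hM.inM_root_one 1 w
  have hrigid : ∀ g ∈ M, (∀ Y, g (g Y) = Y) → (∀ u ∈ memb w, g u = u) → (∀ t ∈ T, g t = t) →
      (∀ Y, sroot f 1 w Y = 0 → P Y = 0 → g Y = Y) → g = 1 := by
    intro g hg hgg hgU hgT hgO
    obtain ⟨c, -, hc⟩ := hM.sim g hg
    -- the multiplier is one
    obtain ⟨t, ht, htU⟩ : ∃ t ∈ T, sroot f 1 w t ≠ 0 := by
      by_contra! h0
      exact h.not_le fun t ht => h.backT t ht (by rw [h0 t ht]; exact zero_mem _)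
    obtain ⟨u, hu⟩ : ∃ u, sphi (tform f s) f t ⟪u⊗w⟫ ≠ 0 := by
      by_contra! h0
      exact htU ((h.kerN_iff hM t).2 (tform_nd hf s _ fun u => by rw [← sphi_pure_right]; exact h0 u))
    have hc1 : c = 1 := by
      have h1 := hc t ⟪u⊗w⟫
      rw [hgT t ht, hgU _ (pure_mem_memb _ _)] at h1
      exact mul_right_cancel₀ hu (by rw [one_mul]; exact h1.symm)
    have hbd : ∀ Y X, g X = X → sphi (tform f s) f (g Y - Y) X = 0 := fun Y X hX => by
      rw [map_sub, LinearMap.sub_apply]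
      nth_rw 1 [← hX]
      rw [hc, hc1, one_mul, sub_self]
    refine LinearEquiv.ext fun Y => ?_
    have h0 : g (g Y - Y) = g Y - Y := hgO _
      ((h.kerN_iff hM _).2 (tform_nd hf s _ fun u => by
        rw [← sphi_pure_right]; exact hbd _ _ (hgU _ (pure_mem_memb _ _))))
      ((h.kerP _).2 fun t ht => hbd _ _ (hgT t ht))
    rw [map_sub, hgg] at h0
    have h2 : (2 : F) • (g Y - Y) = 0 := by
      rw [two_smul]; nth_rw 1 [← h0]; abel
    exact sub_eq_zero.1 ((smul_eq_zero.1 h2).resolve_left hM.two)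
  obtain ⟨j, hj, hjj, hjT, hjU, hjO, hjne⟩ := UnitTensor96.exists_flip_core
    (G := Matrix (Fin s → Fin k) (Fin k) F ≃ₗ[F] Matrix (Fin s → Fin k) (Fin k) F)
    (U := memb w) (T := T) (P := P) (N := sroot f 1 w) h.imP imN (fun hu => NU hM hu)
    (fun ht => h.PT ht) h.backT h.backU h.not_le hM.two
    LinearEquiv.automorphismGroup.toLinearMapMonoidHom hxP hxN
    (fun Y => (hxPY Y).trans (by rw [one_smul]))
    (fun Y => (hxNY Y).trans (by rw [one_smul])) hrigid
  replace hjT : ∀ t ∈ T, j t ∈ T := hjT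
  replace hjU : ∀ u ∈ memb w, j u ∈ memb w := hjU
  replace hjO : ∀ Y, sroot f 1 w Y = 0 → P Y = 0 → j Y = Y := hjO
  replace hjne : (∀ u ∈ memb w, j u = u) → False := hjne
  have hjj' : ∀ Y, j (j Y) = Y := fun Y => by
    rw [← LinearEquiv.mul_apply, hjj]; rfl
  obtain ⟨α, β, hαβ⟩ := hM.exists_split h.ne_zero h.ne_zero hj fun u => hjU _ (pure_mem_memb u w)
  obtain ⟨z₀, hwz₀⟩ := hf.exists_one h.ne_zero
  -- the middle is fixed
  have hmid : ∀ u v, f v w = 0 → j ⟪u⊗v⟫ - ⟪u⊗v⟫ ∈ memb w := fun u v hv => by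
    obtain ⟨x, hx, h1, h2⟩ := h.exists_split_kerN hM (Y := ⟪u⊗v⟫)
      ((h.kerN_iff hM _).2 (by rw [sctr_pure, hv, zero_smul]))
    have h3 := hjO _ h1 h2
    rw [map_sub, sub_eq_sub_iff_sub_eq_sub] at h3
    rw [h3]
    exact sub_mem (hjU x hx) hx
  obtain ⟨v₀, hv₀0, hv₀w, hv₀z⟩ := TensorMax.exists_ne_zero_orth_two (κ := Fin k) (by simp; omega)
    (sdual f w) (sdual f z₀)
  rw [dotProduct_comm, dotProduct_sdual] at hv₀w hv₀z
  have hv₀ : v₀ ∉ Submodule.span F ({w} : Set (Fin k → F)) := fun hm => by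
    obtain ⟨c, rfl⟩ := Submodule.mem_span_singleton.1 hm
    exact hv₀0 (by
      have : c = 0 := by simpa [hwz₀] using hv₀z
      simp [this])
  obtain ⟨χ, hχ, hχ'⟩ := exists_covec hv₀
  have hχw : w ⬝ᵥ χ = 0 := by rw [dotProduct_comm]; exact hχ' _ (Submodule.mem_span_singleton_self _)
  have hαs : ∀ u, ((β.val *ᵥ v₀) ⬝ᵥ χ) • α u = u := fun u => by
    obtain ⟨x, hx⟩ := mem_memb.1 (hmid u v₀ hv₀w)
    have := congrArg (fun X => X *ᵥ χ) hx
    simp only [hαβ, sub_mulVec, TensorMax.pure_mulVec, hχw, zero_smul] at this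
    rw [dotProduct_comm v₀, hχ, one_smul, eq_comm, sub_eq_zero] at this
    exact this
  set κ := (β.val *ᵥ v₀) ⬝ᵥ χ
  obtain ⟨u₀, hu₀⟩ := exists_ne (0 : TV F k s)
  have hκ : κ ≠ 0 := fun h0 => hu₀ (by rw [← hαs u₀, h0, zero_smul])
  set B : (Fin k → F) →ₗ[F] (Fin k → F) := κ⁻¹ • β.val.mulVecLin with hB
  have hjB : ∀ u v, j ⟪u⊗v⟫ = ⟪u⊗(B v)⟫ := fun u v => by
    conv_rhs => rw [← hαs u]
    rw [hαβ, hB, LinearMap.smul_apply, mulVecLin_apply, pure_smul_left, pure_smul_right, smul_smul,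
      mul_inv_cancel₀ hκ, one_smul]
  have hcancel : ∀ x y : Fin k → F, ⟪u₀⊗x⟫ = ⟪u₀⊗y⟫ → x = y := fun x y hxy => by
    obtain ⟨η, hη⟩ := exists_dual hu₀
    have := congrArg (fun X => η ᵥ* X) hxy
    simp only [TensorMax.pure, vecMul_vecMulVec, dotProduct_comm η, hη, one_smul] at this
    exact this
  have hBB : ∀ v, B (B v) = v := fun v => hcancel _ _ (by rw [← hjB, ← hjB, hjj'])
  obtain ⟨μ, hμ⟩ : ∃ μ : F, B w = μ • w := by
    obtain ⟨x, hx⟩ := mem_memb.1 (hjU _ (pure_mem_memb u₀ w))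
    obtain ⟨η, hη⟩ := exists_dual hu₀
    refine ⟨x ⬝ᵥ η, ?_⟩
    have := congrArg (fun X => η ᵥ* X) (hx.trans (hjB u₀ w))
    simp only [TensorMax.pure, vecMul_vecMulVec, dotProduct_comm η, hη, one_smul] at this
    exact this.symm
  have hμ1 : μ = -1 := by
    have h1 := hBB w
    rw [hμ, map_smul, hμ, smul_smul] at h1
    have h2 : μ * μ = 1 := smul_left_injective F h.ne_zero (h1.trans (one_smul F w).symm)
    refine (mul_self_eq_one_iff.1 h2).resolve_left fun h3 => hjne fun u hu => ?_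
    obtain ⟨x, rfl⟩ := mem_memb.1 hu
    rw [hjB, hμ, h3, one_smul]
  subst hμ1
  rw [neg_one_smul] at hμ
  -- no common vector
  have hdis : memb w ⊓ T = ⊥ := (Submodule.eq_bot_iff _).2 fun X hX => by
    obtain ⟨x, hx⟩ := mem_memb.1 hX.1
    have h1 := hjO X (NU hM hX.1) (h.PT hX.2)
    rw [← hx, hjB, hμ, ← neg_one_smul F w, pure_smul_right, neg_one_smul] at h1
    have h2 : (2 : F) • ⟪x⊗w⟫ = 0 := by rw [two_smul]; nth_rw 1 [← h1]; abel
    rw [← hx]
    exact (smul_eq_zero.1 h2).resolve_left hM.two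
  refine ⟨hdis, ?_⟩
  have hline : ∀ v, f v w = 0 → ∃ δ : F, B v = v + δ • w := fun v hv => by
    obtain ⟨x, hx⟩ := mem_memb.1 (hmid u₀ v hv)
    obtain ⟨η, hη⟩ := exists_dual hu₀
    refine ⟨x ⬝ᵥ η, ?_⟩
    rw [hjB] at hx
    have := congrArg (fun X => η ᵥ* X) hx
    simp only [TensorMax.pure, vecMul_sub, vecMul_vecMulVec, dotProduct_comm η, hη, one_smul] at this
    rw [this, add_sub_cancel]
  have hBf : ∀ x y, f (B x) (B y) = f x y := by
    obtain ⟨c, -, hc⟩ := hM.sim j hj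
    obtain ⟨u₁, hu₁⟩ : ∃ u₁, tform f s u₀ u₁ ≠ 0 := by
      by_contra! h0
      exact hu₀ (tform_nd hf s u₀ h0)
    have hcB : ∀ x y, f (B x) (B y) = c * f x y := fun x y => by
      have h1 := hc ⟪u₀⊗x⟫ ⟪u₁⊗y⟫
      rw [hjB, hjB, sphi_pure_pure, sphi_pure_pure, ← mul_assoc] at h1
      exact mul_right_cancel₀ hu₁ h1
    have hc1 : c = 1 := by
      obtain ⟨b, hb⟩ := hf.exists_one hv₀0
      set b' := b + f b w • z₀
      have hb'w : f b' w = 0 := by simp [b', hf.skew w z₀, hwz₀]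
      obtain ⟨δ, hδ⟩ := hline v₀ hv₀w
      obtain ⟨δ', hδ'⟩ := hline b' hb'w
      have h1 := hcB v₀ b'
      have e : f v₀ b' = 1 := by simp [b', hb, hv₀z]
      rw [hδ, hδ'] at h1
      simp only [map_add, map_smul, LinearMap.add_apply, LinearMap.smul_apply, hf.alt, e,
        hf.skew b' w, hb'w, hv₀w, smul_eq_mul, mul_zero, neg_zero, add_zero, mul_one] at h1
      simpa using h1.symm
    intro x y
    rw [hcB, hc1, one_mul]
  set z : Fin k → F := (2 : F)⁻¹ • (z₀ - B z₀) with hz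
  have hwz : f w z = 1 := by
    have e : f w (B z₀) = -1 := by
      have := hBf w z₀
      rw [hμ, map_neg, LinearMap.neg_apply, hwz₀] at this
      linear_combination -this
    rw [hz, map_smul, map_sub, hwz₀, e, smul_eq_mul, sub_neg_eq_add, one_add_one_eq_two,
      inv_mul_cancel₀ hM.two]
  have hBz : B z = -z := by rw [hz, map_smul, map_sub, hBB]; module
  have hfix : ∀ v, f v w = 0 → f v z = 0 → B v = v := fun v hv hvz => by
    obtain ⟨δ, hδ⟩ := hline v hv
    have := hBf v z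
    rw [hδ, hBz, map_add, LinearMap.add_apply, map_smul, LinearMap.smul_apply, map_neg, map_neg,
      hvz, hwz] at this
    simp at this
    rw [hδ, this, zero_smul, add_zero]
  refine ⟨z, hwz, fun t ht v hv hvz => ?_⟩
  have hctr : ∀ X y, sctr f (B y) (j X) = sctr f y X := fun X y => by
    have hY : X = ∑ l, ⟪(X *ᵥ Pi.single l 1)⊗(Pi.single l (1 : F))⟫ := by
      ext i m; simp [Matrix.sum_apply, TensorMax.pure, vecMulVec_apply, Pi.single_apply]
    rw [hY, map_sum, map_sum, map_sum]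
    refine Finset.sum_congr rfl fun l _ => ?_
    rw [hjB, sctr_pure, sctr_pure, hBf]
  -- `t + j t` is fixed
  have hjt : j t ∈ T := hjT t ht
  have hsw : sctr f w (t + j t) = 0 := by
    have h1 := hctr t w
    rw [hμ] at h1
    rw [map_add, ← h1]
    simp [mulVec_neg]
  have hsum : t + j t ∈ memb w ⊓ T := ⟨h.backT _ (T.add_mem ht hjt) (by
    rw [(h.kerN_iff hM _).2 hsw]; exact zero_mem _), T.add_mem ht hjt⟩
  rw [hdis, Submodule.mem_bot] at hsum
  have h1 := hctr t v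
  rw [hfix v hv hvz, eq_neg_of_add_eq_zero_right hsum, map_neg] at h1
  have h2 : (2 : F) • sctr f v t = 0 := by rw [two_smul]; nth_rw 1 [← h1]; exact neg_add_cancel _
  exact (smul_eq_zero.1 h2).resolve_left hM.two

end Meet

end CfsgLib.SympWreath17
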