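import Cfsg.Agent.Dickson.Realize
import Mathlib

/-!
A group of matrices over a commutative algebra generated by an upper and a lower root group whose
stabiliser of the point at infinity is small contains a non-central scalar diagonal element.
-/

set_option autoImplicit false
set_option linter.unusedSectionVars false

namespace CfsgLib.SympWreath17

open Matrix MulAction CfsgLib.Dickson
open scoped MatrixGroups

variable {F : Type*} [Field F] [Finite F] {R : Type*} [CommRing R] [Algebra F R] [Finite R]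
  [Nontrivial R] {G : Type*} [Group G] [Finite G]

/-- Two root groups over an algebra: if the elements with non-unit lower entry are upper
triangular with diagonal ratio in the field, and those of ratio one have their square in the root
group, then some diagonal element has scalar entries of square not one. -/
theorem exists_scalar_diag (h2 : (2 : F) ≠ 0) (hr : ∃ r : F, r ≠ 0 ∧ r ^ 2 ≠ 1) (τ : G →* SL(2, R))
    {β : R} (hβ : IsUnit β) (x y : F → G)
    (hx : ∀ c, (τ (x c) : Matrix (Fin 2) (Fin 2) R) = !![1, algebraMap F R c; 0, 1])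
    (hy : ∀ c, (τ (y c) : Matrix (Fin 2) (Fin 2) R) = !![1, 0; algebraMap F R c * β, 1])
    (hS : ∀ g, ¬ IsUnit ((τ g : Matrix (Fin 2) (Fin 2) R) 1 0) →
      (τ g : Matrix (Fin 2) (Fin 2) R) 1 0 = 0)
    (hstab : ∀ g, (τ g : Matrix (Fin 2) (Fin 2) R) 1 0 = 0 →
      ∃ a : F, (τ g : Matrix (Fin 2) (Fin 2) R) 0 0 =
          algebraMap F R a * (τ g : Matrix (Fin 2) (Fin 2) R) 1 1 ∧
        (a = 1 → ∃ c, (τ (g * g) : Matrix (Fin 2) (Fin 2) R) = !![1, algebraMap F R c; 0, 1])) :
    ∃ (g : G) (b : F), b ^ 2 ≠ 1 ∧ b ≠ 0 ∧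
      (τ g : Matrix (Fin 2) (Fin 2) R) = !![algebraMap F R b, 0; 0, algebraMap F R b⁻¹] := by
  classical
  obtain ⟨I, hI⟩ := Ideal.exists_maximal R
  let : Field (R ⧸ I) := Ideal.Quotient.field I
  let π : R →+* (R ⧸ I) := Ideal.Quotient.mk I
  let K := AlgebraicClosure (R ⧸ I)
  let ψ : R →+* K := (algebraMap (R ⧸ I) K).comp π
  let φ : F →+* K := ψ.comp (algebraMap F R)
  obtain ⟨p, hp⟩ := CharP.exists F
  have : Fact p.Prime := ⟨CharP.char_is_prime F p⟩
  have : CharP K p := charP_of_injective_ringHom φ.injective p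
  have hodd : p % 2 = 1 := by
    rcases (Fact.out : p.Prime).eq_two_or_odd with h0 | h0
    · subst h0; exact absurd (CharP.cast_eq_zero F 2) h2
    · exact h0
  let ρ : G →* GL (Fin 2) K :=
    (SpecialLinearGroup.toGL.comp (SpecialLinearGroup.map ψ)).comp τ
  let Φ : G →* PGL(2, K) := ProjGenLinGroup.mk.comp ρ
  have hρ : ∀ g i j, (ρ g) i j = ψ ((τ g : Matrix (Fin 2) (Fin 2) R) i j) := fun g i j => rfl
  set H := Φ.range
  have : Finite H := Finite.of_surjective Φ.rangeRestrict Φ.rangeRestrict_surjective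
  have hD := isDicksonAction (p := p) H
  let θ : G →* H := Φ.rangeRestrict
  have hsmul : ∀ g (z : OnePoint K), θ g • z = ρ g • z := fun g z => rfl
  have hρx : ∀ c, ρ (x c) = upperT (φ c) := fun c => by
    ext i j
    rw [hρ, hx]
    fin_cases i <;> fin_cases j <;> simp [upperT, GeneralLinearGroup.mkOfDetNeZero, φ]
  have hinf : ∀ g, θ g • (OnePoint.infty : OnePoint K) = OnePoint.infty ↔
      ψ ((τ g : Matrix (Fin 2) (Fin 2) R) 1 0) = 0 := fun g => by
    rw [hsmul, OnePoint.smul_infty_eq_self_iff, hρ]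
  -- the unipotent part of the stabiliser of infinity
  have hθx : ∀ c, θ (x c) ∈ hD.pPart (OnePoint.infty : OnePoint K) := fun c => by
    refine ⟨(hinf _).2 (by rw [hx]; simp), Subtype.ext ?_⟩
    change ProjGenLinGroup.mk (ρ (x c)) ^ p = 1
    rw [pow_char_eq_one_iff (by rw [hρ, hx]; simp), hρ, hρ, hx]
    simp
  have hxinj : Function.Injective fun c => θ (x c) := fun c d h => by
    have h' : ProjGenLinGroup.mk (upperT (φ c)) = ProjGenLinGroup.mk (upperT (φ d)) := by
      rw [← hρx, ← hρx]; exact congrArg Subtype.val h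
    have h0 := congrArg (fun e => e • ((0 : K) : OnePoint K)) h'
    simp only [mk_smul, upperT_smul_coe, zero_add, OnePoint.coe_eq_coe] at h0
    exact φ.injective h0
  have hpp : ∀ e ∈ hD.pPart (OnePoint.infty : OnePoint K), ∃ c, θ (x c) = e := by
    rintro e ⟨he, hep⟩
    obtain ⟨g, rfl⟩ := Φ.rangeRestrict_surjective e
    have hψ := (hinf g).1 he
    have h0 : (τ g : Matrix (Fin 2) (Fin 2) R) 1 0 = 0 := hS g fun hu => (hu.map ψ).ne_zero hψ
    obtain ⟨a, ha, hsq⟩ := hstab g h0
    have heq : (ρ g) 0 0 = (ρ g) 1 1 :=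
      (pow_char_eq_one_iff (p := p) (by rw [hρ]; exact hψ)).1 (congrArg Subtype.val hep)
    have ha1 : a = 1 := by
      rw [hρ, hρ, ha, map_mul] at heq
      have hne : ψ ((τ g : Matrix (Fin 2) (Fin 2) R) 1 1) ≠ 0 := by
        have := (diag_ne_zero (g := ρ g) (by rw [hρ]; exact hψ)).2
        rwa [hρ] at this
      refine φ.injective ?_
      rw [map_one]
      exact mul_right_cancel₀ hne (by rw [one_mul]; exact heq)
    obtain ⟨c, hc⟩ := hsq ha1
    refine ⟨((p + 1) / 2 : ℕ) * c, ?_⟩
    have hθ2 : θ g * θ g = θ (x c) := by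
      rw [← map_mul]
      refine Subtype.ext ?_
      change ProjGenLinGroup.mk (ρ (g * g)) = ProjGenLinGroup.mk (ρ (x c))
      congr 1
      ext i j
      rw [hρ, hρ, hc, hx]
    have hpow : ∀ n : ℕ, θ (x c) ^ n = θ (x (n * c)) := fun n => by
      refine Subtype.ext ?_
      change ProjGenLinGroup.mk (ρ (x c)) ^ n = ProjGenLinGroup.mk (ρ (x (n * c)))
      rw [← map_pow, hρx, hρx]
      congr 1
      induction n with
      | zero => simp [upperT_zero]
      | succ n ih => rw [pow_succ, ih, upperT_mul]; congr 1; push_cast; rw [add_mul, one_mul, map_add]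
    rw [← hpow, ← hθ2, ← pow_two, ← pow_mul, show 2 * ((p + 1) / 2) = p + 1 by omega, pow_succ]
    rw [show θ g ^ p = 1 from hep, one_mul]
  have hcard : Nat.card (hD.pPart (OnePoint.infty : OnePoint K)) = Nat.card F := by
    refine (Nat.card_eq_of_bijective (fun c => (⟨_, hθx c⟩ : hD.pPart (OnePoint.infty : OnePoint K)))
      ⟨fun c d h => hxinj (congrArg Subtype.val h), fun e => ?_⟩).symm
    obtain ⟨c, hc⟩ := hpp e e.2
    exact ⟨c, Subtype.ext hc⟩
  have hF4 : 4 ≤ Nat.card F := by
    obtain ⟨r, hr0, hr2⟩ := hr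
    have := Fintype.ofFinite F
    rw [Nat.card_eq_fintype_card]
    have hne1 : r ≠ 1 := fun h => hr2 (by simp [h])
    have hne2 : r ≠ -1 := fun h => hr2 (by simp [h])
    have h11 : (1 : F) ≠ -1 := fun h => h2 (by linear_combination h)
    calc 4 = ({0, 1, -1, r} : Finset F).card := by simp [hr0.symm, hne1.symm, hne2.symm, h11]
      _ ≤ _ := Finset.card_le_univ _
  have hx1 : θ (x 1) ≠ 1 := fun h => by
    have : θ (x 1) = θ (x 0) := h.trans (by
      refine (Subtype.ext ?_).symm
      change ProjGenLinGroup.mk (ρ (x 0)) = 1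
      rw [hρx, map_zero, upperT_zero, map_one])
    exact one_ne_zero (hxinj this)
  have hpcard : p ∣ Nat.card H := by
    have : orderOf (θ (x 1)) = p := orderOf_eq_prime (hθx 1).2 hx1
    exact this ▸ orderOf_dvd_natCard _
  set β' := ψ β with hβ'
  have hβ0 : β' ≠ 0 := (hβ.map ψ).ne_zero
  have hy1 : ∀ c : F, c ≠ 0 → θ (y c) • (OnePoint.infty : OnePoint K) =
      ((1 / (φ c * β') : K) : OnePoint K) := fun c hc => by
    rw [hsmul, OnePoint.smul_infty_eq_ite, hρ, hρ, hy]
    have : φ c * β' ≠ 0 := mul_ne_zero ((map_ne_zero φ).2 hc) hβ0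
    simp only [Matrix.of_apply, Matrix.cons_val_zero, Matrix.cons_val_one, map_mul, map_one]
    rw [if_neg (show ψ (algebraMap F R c) * ψ β ≠ 0 from this)]
    rfl
  have hlam : ∃ l : F, β' = φ l := by
    rcases hD.classify with h | ⟨n, -, hn, ⟨e⟩⟩ | ⟨h, ⟨e⟩⟩ | ⟨h, ⟨e⟩⟩ | ⟨h, ⟨e⟩⟩ | h
    · obtain ⟨z, hz⟩ := h
      cases z with
      | infty =>
        have := (hy1 1 one_ne_zero).symm.trans (hz _)
        simp at this
      | coe c =>
        have := hz (θ (x 1))
        rw [hsmul, hρx, upperT_smul_coe, OnePoint.coe_eq_coe, map_one] at this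
        exact absurd (add_eq_left.1 this) one_ne_zero
    · exfalso
      rw [Nat.card_congr e.toEquiv, DihedralGroup.nat_card] at hpcard
      rcases (Fact.out : p.Prime).dvd_mul.1 hpcard with h' | h'
      · have := Nat.le_of_dvd (by norm_num) h'
        have := (Fact.out : p.Prime).two_le
        omega
      · exact hn h'
    · exfalso
      rw [Nat.card_congr e.toEquiv, nat_card_alternatingGroup, Nat.card_fin] at hpcard
      exact h hpcard
    · exfalso
      rw [Nat.card_congr e.toEquiv, Nat.card_perm, Nat.card_fin] at hpcard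
      exact h hpcard
    · exfalso
      have h60 : Nat.card H = 60 := by
        rw [Nat.card_congr e.toEquiv, nat_card_alternatingGroup, Nat.card_fin]; rfl
      rcases h with h | h
      · exact h (h60 ▸ hpcard)
      · subst h
        have hdvd := Subgroup.card_subgroup_dvd_card (hD.pPart (OnePoint.infty : OnePoint K))
        rw [hcard, h60] at hdvd
        have := Fintype.ofFinite F
        obtain ⟨n, -, hn⟩ := FiniteField.card F 3
        rw [Nat.card_eq_fintype_card, hn] at hdvd hF4
        rcases (n : ℕ).lt_or_ge 2 with hn2 | hn2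
        · interval_cases hh : (n : ℕ) <;> simp_all
        · have := (pow_dvd_pow 3 hn2).trans hdvd
          norm_num at this
    · obtain ⟨a, b, -, -, ha, hidx, -, -⟩ := h
      have hne : hD.pPart (OnePoint.infty : OnePoint K) ≠ ⊥ := fun h0 => hx1 (by
        have := hθx 1
        rw [h0, Subgroup.mem_bot] at this
        exact this)
      obtain ⟨g₀, hg₀⟩ := hD.pPart_orbit hne ha
      have horb : Set.ncard (orbit H (OnePoint.infty : OnePoint K)) = Nat.card F + 1 := by
        rw [← MulAction.index_stabilizer]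
        have e := hidx
        rw [← hg₀] at e
        simp only at e
        rw [stabilizer_smul_eq_stabilizer_map_conj,
          Subgroup.index_map_of_bijective (MulAut.conj g₀).bijective, hD.card_pPart_smul,
          hcard] at e
        exact e
      set z₀ : K := 1 / β' with hz₀
      let S : Set (OnePoint K) := insert OnePoint.infty (Set.range fun c : F => ((z₀ + φ c : K) : OnePoint K))
      have hsub : S ⊆ orbit H (OnePoint.infty : OnePoint K) := by
        rintro z (rfl | ⟨c, rfl⟩)
        · exact mem_orbit_self _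
        · refine ⟨θ (x c) * θ (y 1), ?_⟩
          change (θ (x c) * θ (y 1)) • (OnePoint.infty : OnePoint K) = _
          rw [mul_smul, hy1 1 one_ne_zero, hsmul, hρx, upperT_smul_coe, map_one, one_mul]
      have hScard : S.ncard = Nat.card F + 1 := by
        rw [Set.ncard_insert_of_notMem (by simp) (Set.toFinite _),
          Set.ncard_range_of_injective fun c d h => φ.injective (by simpa using h)]
      have hSeq : S = orbit H (OnePoint.infty : OnePoint K) :=
        Set.eq_of_subset_of_ncard_le hsub (by rw [hScard, horb]) (Set.finite_range _)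
      have hm : θ (y (-1)) • (OnePoint.infty : OnePoint K) ∈ S := hSeq ▸ ⟨_, rfl⟩
      rw [hy1 (-1) (neg_ne_zero.2 one_ne_zero)] at hm
      rcases hm with hm | ⟨c, hc⟩
      · exact absurd hm (by simp)
      · simp only [OnePoint.coe_eq_coe, map_neg, map_one, hz₀] at hc
        have h2K : (2 : K) ≠ 0 := by
          rw [← map_ofNat φ 2]; exact (map_ne_zero φ).2 h2
        have e : φ c * β' = -2 := by
          have h1 : (1 / β' + φ c) * β' = 1 / (-1 * β') * β' := by rw [hc]
          rw [add_mul, one_div_mul_cancel hβ0, neg_one_mul, div_neg, neg_mul,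
            one_div_mul_cancel hβ0] at h1
          linear_combination h1
        have hcK : φ c ≠ 0 := fun h0 => by
          rw [h0, zero_mul] at e
          exact h2K (by linear_combination e)
        refine ⟨-2 / c, ?_⟩
        rw [map_div₀, map_neg, map_ofNat, eq_div_iff hcK, mul_comm]
        exact e
  obtain ⟨l, hl⟩ := hlam
  have hl0 : l ≠ 0 := fun h => hβ0 (by rw [hl, h, map_zero])
  -- lifting the torus
  obtain ⟨r, hr0, hr2⟩ := hr
  let γ := algebraMap F R l⁻¹ * β
  have hrneg : r ≠ -1 := fun h => hr2 (by rw [h]; simp)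
  have hw : ∀ c : F, c ≠ 0 → (τ (x c * y (-(c * l)⁻¹) * x c) : Matrix (Fin 2) (Fin 2) R) =
      !![1 - γ, algebraMap F R c * (2 - γ); -(algebraMap F R c⁻¹ * γ), 1 - γ] := fun c hc => by
    rw [map_mul, map_mul]
    change (τ (x c) : Matrix (Fin 2) (Fin 2) R) * (τ (y (-(c * l)⁻¹)) : Matrix (Fin 2) (Fin 2) R) *
      (τ (x c) : Matrix (Fin 2) (Fin 2) R) = _
    rw [hx, hy]
    have e1 : algebraMap F R c * algebraMap F R c⁻¹ = 1 := by
      rw [← map_mul, mul_inv_cancel₀ hc, map_one]
    have key : ∀ C C' g : R, C * C' = 1 →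
        !![1, C; 0, 1] * !![1, 0; -(C' * g), 1] * !![1, C; 0, 1] =
          !![1 - g, C * (2 - g); -(C' * g), 1 - g] := fun C C' g h => by
      ext i j
      fin_cases i <;> fin_cases j <;> simp [Matrix.mul_apply, Fin.sum_univ_two]
      · linear_combination -g * h
      · linear_combination -(g * C) * h
      · linear_combination -g * h
    have e2 : algebraMap F R (-(c * l)⁻¹) * β = -(algebraMap F R c⁻¹ * γ) := by
      rw [mul_inv, map_neg, map_mul, neg_mul, mul_assoc]
    rw [e2, key _ _ _ e1]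
  have hrn : -r ≠ 0 := neg_ne_zero.2 hr0
  set g := (x 1 * y (-((1 : F) * l)⁻¹) * x 1) * (x (-r) * y (-((-r) * l)⁻¹) * x (-r)) with hg
  have hgτ : (τ g : Matrix (Fin 2) (Fin 2) R) =
      !![1 - γ, algebraMap F R 1 * (2 - γ); -(algebraMap F R (1 : F)⁻¹ * γ), 1 - γ] *
      !![1 - γ, algebraMap F R (-r) * (2 - γ); -(algebraMap F R (-r)⁻¹ * γ), 1 - γ] := by
    rw [hg, map_mul]
    change (τ (x 1 * y (-((1 : F) * l)⁻¹) * x 1) : Matrix (Fin 2) (Fin 2) R) *
      (τ (x (-r) * y (-((-r) * l)⁻¹) * x (-r)) : Matrix (Fin 2) (Fin 2) R) = _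
    rw [hw 1 one_ne_zero, hw _ hrn]
  have hS10 : (τ g : Matrix (Fin 2) (Fin 2) R) 1 0 =
      -(γ * (1 - γ) * algebraMap F R (1 + (-r)⁻¹)) := by
    rw [hgτ]
    simp [Matrix.mul_apply, Fin.sum_univ_two, map_add]
    ring
  have hγψ : ψ γ = 1 := by
    change ψ (algebraMap F R l⁻¹ * β) = 1
    rw [map_mul, ← hβ', hl]
    change φ l⁻¹ * φ l = 1
    rw [← map_mul, inv_mul_cancel₀ hl0, map_one]
  have h0 : (τ g : Matrix (Fin 2) (Fin 2) R) 1 0 = 0 := hS g fun hu => (hu.map ψ).ne_zero (by
    rw [hS10, map_neg, map_mul, map_mul, map_sub, map_one, hγψ, sub_self, mul_zero, zero_mul,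
      neg_zero])
  have hγ1 : γ = 1 := by
    rw [hS10, neg_eq_zero, mul_assoc] at h0
    have hne : (1 : F) + (-r)⁻¹ ≠ 0 := fun h => by
      have h' : (-r)⁻¹ = -1 := by linear_combination h
      rw [inv_eq_iff_eq_inv, inv_neg, inv_one, neg_inj] at h'
      exact hr2 (by rw [h', one_pow])
    have hu1 : IsUnit γ := ((IsUnit.mk0 _ (inv_ne_zero hl0)).map (algebraMap F R)).mul hβ
    rw [hu1.mul_right_eq_zero, ((IsUnit.mk0 _ hne).map (algebraMap F R)).mul_left_eq_zero] at h0
    exact (sub_eq_zero.1 h0).symm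
  refine ⟨g, r⁻¹, fun h => hr2 (by rw [inv_pow] at h; exact inv_eq_one.1 h), inv_ne_zero hr0, ?_⟩
  rw [hgτ, hγ1, inv_inv]
  ext i j
  fin_cases i <;> fin_cases j <;>
    simp [Matrix.mul_apply, Fin.sum_univ_two, inv_neg] <;> ring

end CfsgLib.SympWreath17
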