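import Cfsg.Agent.SympWreath17.SlotCollapse
import Cfsg.Agent.SympWreath17.Centres

/-!
Root elements attached to products of rank one maps of the factors of a tensor power of a symplectic space:
one commutator enlarges the set of factors, up to the transvections at the pure tensors.
-/

set_option autoImplicit false
set_option linter.unusedSectionVars false

namespace CfsgLib.SympWreath17

open Matrix Module Function
open CfsgLib.Aschbacher (kroneckerPow kroneckerPow_mul kroneckerPow_smul)
open CfsgLib.WreathTensor14 (TV pv kronE kronE_apply permE permE_pv kroneckerPow_mulVec_pv InV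
  linearMap_ext_pv)

variable {F : Type*} [Field F] {k t : ℕ} {f : LinearMap.BilinForm F (Fin k → F)}
  {M : Subgroup (TV F k t ≃ₗ[F] TV F k t)}

/-- `1 + X` lies in `M`. -/
def InQ (M : Subgroup (TV F k t ≃ₗ[F] TV F k t))
    (X : Matrix (Fin t → Fin k) (Fin t → Fin k) F) : Prop :=
  ∃ e ∈ M, ∀ v, e v = v + X *ᵥ v

/-- Every multiple of `X` gives an element of `M`. -/
def InG (M : Subgroup (TV F k t ≃ₗ[F] TV F k t))
    (X : Matrix (Fin t → Fin k) (Fin t → Fin k) F) : Prop :=
  ∀ c : F, InQ M (c • X)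

section InG

variable {X Y : Matrix (Fin t → Fin k) (Fin t → Fin k) F}

lemma InQ.neg (h : InQ M X) (hX : X * X = 0) : InQ M (-X) := by
  obtain ⟨e, he, hev⟩ := h
  refine ⟨e⁻¹, M.inv_mem he, fun v => e.injective ?_⟩
  change e (e.symm v) = _
  rw [e.apply_symm_apply, hev, neg_mulVec, mulVec_add, mulVec_neg, mulVec_mulVec, hX, zero_mulVec]
  abel

lemma InQ.add (h : InQ M X) (h' : InQ M Y) (hXY : X * Y = 0) : InQ M (X + Y) := by
  obtain ⟨e, he, hev⟩ := h
  obtain ⟨e', he', hev'⟩ := h'
  refine ⟨e * e', M.mul_mem he he', fun v => ?_⟩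
  rw [LinearEquiv.mul_apply, hev', hev, mulVec_add, mulVec_mulVec, hXY, zero_mulVec, add_mulVec]
  abel

lemma InQ.comm (h : InQ M X) (h' : InQ M Y) (hX : X * X = 0) (hY : Y * Y = 0)
    (h1 : X * Y * X = 0) (h2 : Y * X * Y = 0) : InQ M (X * Y - Y * X) := by
  obtain ⟨d, hd, hdv⟩ := InQ.neg h hX
  obtain ⟨d', hd', hdv'⟩ := InQ.neg h' hY
  obtain ⟨e, he, hev⟩ := h
  obtain ⟨e', he', hev'⟩ := h'
  refine ⟨e * e' * d * d', M.mul_mem (M.mul_mem (M.mul_mem he he') hd) hd', fun v => ?_⟩
  have hmat' : (1 + X) * (1 + Y) * (1 - X) * (1 - Y) = 1 + (X * Y - Y * X) := by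
    have hYY : X * Y * Y = 0 := by rw [mul_assoc, hY, mul_zero]
    simp only [mul_add, add_mul, mul_sub, sub_mul, one_mul, mul_one, hX, hY, h1, h2,
      hYY, zero_mul]
    abel
  have hl : ∀ (Z : Matrix (Fin t → Fin k) (Fin t → Fin k) F) (u : TV F k t),
      u + Z *ᵥ u = (1 + Z) *ᵥ u := fun Z u => by rw [add_mulVec, one_mulVec]
  simp only [LinearEquiv.mul_apply, hev, hev', hdv, hdv', hl, ← sub_eq_add_neg]
  rw [mulVec_mulVec, mulVec_mulVec, mulVec_mulVec, hmat']

lemma InG.zero : InG M (0 : Matrix (Fin t → Fin k) (Fin t → Fin k) F) :=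
  fun c => ⟨1, M.one_mem, fun v => by simp⟩

lemma InG.smul (h : InG M X) (r : F) : InG M (r • X) := fun c => by rw [smul_smul]; exact h _

lemma InG.sub (h : InG M X) (h' : InG M Y) (hXY : X * Y = 0) : InG M (X - Y) := fun c => by
  rw [show c • (X - Y) = c • X + (-c) • Y by module]
  exact (h c).add (h' (-c)) (by rw [smul_mul_assoc, mul_smul_comm, hXY, smul_zero, smul_zero])

lemma InG.comm (h : InG M X) (h' : InG M Y) (hX : X * X = 0) (hY : Y * Y = 0)
    (h1 : X * Y * X = 0) (h2 : Y * X * Y = 0) : InG M (X * Y - Y * X) := fun c => by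
  have h3 := (h c).comm (h' 1) (by simp [hX]) (by simp [hY]) (by simp [h1]) (by simp [h2])
  simpa [smul_sub] using h3

end InG

lemma kp_update_apply (B : Fin t → Matrix (Fin k) (Fin k) F) (j : Fin t)
    (a : Matrix (Fin k) (Fin k) F) (p q : Fin t → Fin k) :
    kroneckerPow (update B j a) p q = a (p j) (q j) * ∏ i ∈ Finset.univ \ {j}, B i (p i) (q i) := by
  change ∏ i, update B j a i (p i) (q i) = _
  rw [← Finset.prod_update_of_mem (Finset.mem_univ j) (fun i => B i (p i) (q i)) (a (p j) (q j))]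
  refine Finset.prod_congr rfl fun i _ => ?_
  rcases eq_or_ne i j with rfl | h <;> simp [*]

lemma kp_update_add (B : Fin t → Matrix (Fin k) (Fin k) F) (j : Fin t)
    (a b : Matrix (Fin k) (Fin k) F) :
    kroneckerPow (update B j (a + b)) = kroneckerPow (update B j a) + kroneckerPow (update B j b) := by
  ext p q; simp [kp_update_apply, add_mul]

lemma kp_update_sub (B : Fin t → Matrix (Fin k) (Fin k) F) (j : Fin t)
    (a b : Matrix (Fin k) (Fin k) F) :
    kroneckerPow (update B j (a - b)) = kroneckerPow (update B j a) - kroneckerPow (update B j b) := by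
  ext p q; simp [kp_update_apply, sub_mul]

lemma kp_update_smul (B : Fin t → Matrix (Fin k) (Fin k) F) (j : Fin t) (c : F)
    (a : Matrix (Fin k) (Fin k) F) :
    kroneckerPow (update B j (c • a)) = c • kroneckerPow (update B j a) := by
  ext p q; simp [kp_update_apply, mul_assoc]

lemma kp_zero_of {B : Fin t → Matrix (Fin k) (Fin k) F} {j : Fin t} (h : B j = 0) :
    kroneckerPow B = 0 := by
  ext p q; exact Finset.prod_eq_zero (Finset.mem_univ j) (by simp [h])

lemma kp_mul_zero {A B : Fin t → Matrix (Fin k) (Fin k) F} (j : Fin t) (h : A j * B j = 0) :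
    kroneckerPow A * kroneckerPow B = 0 := by
  rw [kroneckerPow_mul]; exact kp_zero_of (j := j) h

lemma InG.conj (hM : SBase f M) {gs : Fin t → GL (Fin k) F} (hgs : ∀ i, Isom f (gs i))
    {A A' : Fin t → Matrix (Fin k) (Fin k) F} (h : ∀ i, (gs i).val * A i = A' i * (gs i).val)
    (hA : InG M (kroneckerPow A)) : InG M (kroneckerPow A') := by
  intro c
  obtain ⟨e, he, hev⟩ := hA c
  have hg := hM.kron_mem gs hgs
  refine ⟨kronE gs * e * (kronE gs)⁻¹, M.mul_mem (M.mul_mem hg he) (M.inv_mem hg), fun v => ?_⟩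
  obtain ⟨u, rfl⟩ := (kronE gs).surjective v
  change kronE gs (e ((kronE gs).symm (kronE gs u))) = _
  rw [LinearEquiv.symm_apply_apply, hev, map_add, smul_mulVec, map_smul, smul_mulVec]
  simp only [kronE_apply, mulVec_mulVec, kroneckerPow_mul, h]

lemma InG.perm (hM : SBase f M) (σ : Equiv.Perm (Fin t))
    {A : Fin t → Matrix (Fin k) (Fin k) F} (hA : InG M (kroneckerPow A)) :
    InG M (kroneckerPow fun i => A (σ⁻¹ i)) := by
  intro c
  obtain ⟨e, he, hev⟩ := hA c
  have hg := hM.perm_mem σ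
  have hcomm : (permE σ).toLinearMap ∘ₗ mulVecLin (kroneckerPow A)
      = mulVecLin (kroneckerPow fun i => A (σ⁻¹ i)) ∘ₗ (permE σ).toLinearMap :=
    linearMap_ext_pv fun x => by simp [kroneckerPow_mulVec_pv, permE_pv]
  refine ⟨permE σ * e * (permE σ)⁻¹, M.mul_mem (M.mul_mem hg he) (M.inv_mem hg), fun v => ?_⟩
  obtain ⟨u, rfl⟩ := (permE σ).surjective v
  change permE σ (e ((permE σ).symm (permE σ u))) = _
  rw [LinearEquiv.symm_apply_apply, hev, map_add, smul_mulVec, map_smul, smul_mulVec]
  exact congrArg (fun z => permE σ u + c • z) (LinearMap.congr_fun hcomm u)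

/-- Rank one maps on `S`, given maps on `D`, the identity elsewhere. -/
def fam (f : LinearMap.BilinForm F (Fin k → F)) (S D : Finset (Fin t))
    (P : Fin t → Matrix (Fin k) (Fin k) F) (v : Fin t → Fin k → F) (j : Fin t) :
    Matrix (Fin k) (Fin k) F :=
  if j ∈ S then nmat f (v j) else if j ∈ D then P j else 1

/-- The rank one maps on `S` give root elements. -/
def Good (f : LinearMap.BilinForm F (Fin k → F)) (M : Subgroup (TV F k t ≃ₗ[F] TV F k t))
    (S : Finset (Fin t)) : Prop :=
  ∀ v, InG M (kroneckerPow (fam f S ∅ (fun _ => 1) v))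

section fam

variable {S D : Finset (Fin t)} {P : Fin t → Matrix (Fin k) (Fin k) F} {v : Fin t → Fin k → F}
  {j : Fin t}

lemma fam_S (h : j ∈ S) : fam f S D P v j = nmat f (v j) := if_pos h

lemma fam_D (h : j ∉ S) (h' : j ∈ D) : fam f S D P v j = P j := by rw [fam, if_neg h, if_pos h']

lemma fam_one (h : j ∉ S) (h' : j ∉ D) : fam f S D P v j = 1 := by rw [fam, if_neg h, if_neg h']

/-- One family of non-zero vectors suffices. -/
lemma fam_all (hM : SBase f M) {v₀ : Fin t → Fin k → F} (hv₀ : ∀ j ∈ S, v₀ j ≠ 0)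
    (h : InG M (kroneckerPow (fam f S D P v₀))) (v : Fin t → Fin k → F) :
    InG M (kroneckerPow (fam f S D P v)) := by
  by_cases hv : ∃ j ∈ S, v j = 0
  · obtain ⟨j, hj, hvj⟩ := hv
    rw [kp_zero_of (j := j) (by rw [fam_S hj, hvj, nmat_zero])]
    exact InG.zero
  push Not at hv
  have : ∀ j, ∃ g : GL (Fin k) F, Isom f g ∧ (j ∈ S → g.val *ᵥ v₀ j = v j) ∧ (j ∉ S → g = 1) := by
    intro j
    by_cases hj : j ∈ S
    · obtain ⟨g, hg, hgv⟩ := exists_isom_map hM.symp (hv₀ j hj) (hv j hj)
      exact ⟨g, hg, fun _ => hgv, fun h => absurd hj h⟩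
    · exact ⟨1, isom_one f, fun h => absurd h hj, fun _ => rfl⟩
  choose g hg hgS hg1 using this
  refine InG.conj hM hg (fun j => ?_) h
  by_cases hj : j ∈ S
  · rw [fam_S hj, fam_S hj, nmat_conj (hg j), hgS j hj]
  · simp only [fam, if_neg hj, hg1 j hj, Units.val_one, one_mul, mul_one]

/-- Rank one maps may be replaced by the symmetric rank two maps off a square-zero factor. -/
lemma subst_hmat (hM : SBase f M) (hS : ∀ v, InG M (kroneckerPow (fam f S D P v))) {j₀ : Fin t}
    (hj₀ : ∀ v, fam f S D P v j₀ * fam f S D P v j₀ = 0) (O : Finset (Fin t)) :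
    O ⊆ S → j₀ ∉ O → ∀ v w : Fin t → Fin k → F, InG M (kroneckerPow fun j =>
      if j ∈ O then hmat f (v j) (w j) else fam f S D P v j) := by
  induction O using Finset.induction_on with
  | empty => simpa using hS
  | @insert l O hl ih =>
    intro hOS hj v w
    have hlS := hOS (Finset.mem_insert_self l O)
    have hOS' : O ⊆ S := fun x hx => hOS (Finset.mem_insert_of_mem hx)
    rw [Finset.mem_insert, not_or] at hj
    let B : Fin t → Matrix (Fin k) (Fin k) F := fun j =>
      if j ∈ O then hmat f (v j) (w j) else fam f S D P v j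
    have upd : ∀ x, InG M (kroneckerPow (update B l (nmat f x))) := by
      intro x
      convert ih hOS' hj.2 (update v l x) w using 2
      funext i
      rcases eq_or_ne i l with rfl | hi
      · simp [hl, fam, hlS]
      · simp [B, fam, hi]
    have hB : (fun j => if j ∈ insert l O then hmat f (v j) (w j) else fam f S D P v j)
        = update B l (nmat f (v l + w l) - nmat f (v l) - nmat f (w l)) := by
      funext i
      rcases eq_or_ne i l with rfl | hi
      · simp [hmat]
      · simp [B, hi]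
    have hz : ∀ x y, kroneckerPow (update B l (nmat f x)) * kroneckerPow (update B l (nmat f y)) = 0 :=
      fun x y => kp_mul_zero j₀ (by
        rw [update_of_ne hj.1, update_of_ne hj.1]
        simp only [B, if_neg hj.2]
        exact hj₀ v)
    rw [hB, kp_update_sub, kp_update_sub]
    exact ((upd _).sub (upd _) (hz _ _)).sub (upd _) (by rw [sub_mul, hz, hz, sub_zero])

end fam

/-- The commutator of two families. -/
theorem good_of_two (hM : SBase f M) {S₁ S₂ D : Finset (Fin t)}
    {P₁ P₂ : Fin t → Matrix (Fin k) (Fin k) F} {a : Fin t → Fin k → F}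
    (h₁ : ∀ v, InG M (kroneckerPow (fam f S₁ D P₁ v)))
    (h₂ : ∀ v, InG M (kroneckerPow (fam f S₂ D P₂ v)))
    (hd₁ : Disjoint S₁ D) (hd₂ : Disjoint S₂ D) (hne : S₁.Nonempty)
    (hw : D.Nonempty ∨ (S₂ \ S₁).Nonempty) (hodd : Odd ((S₁ ∩ S₂).card + D.card))
    (hP : ∀ j ∈ D, a j ≠ 0 ∧ P₁ j * P₂ j = nmat f (a j) ∧ P₂ j * P₁ j = -nmat f (a j) ∧
      P₁ j * P₁ j = 0 ∧ P₂ j * P₂ j = 0 ∧ nmat f (a j) * P₁ j = 0 ∧ nmat f (a j) * P₂ j = 0)
    {e e' : Fin k → F} (he : f e e' = 1) : Good f M (S₁ ∪ S₂ ∪ D) := by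
  have hf := hM.symp
  have he0 : e ≠ 0 := fun h => by simp [h] at he
  have hd₁' : ∀ {j}, j ∈ D → j ∉ S₁ := fun hj h => Finset.disjoint_left.1 hd₁ h hj
  have hd₂' : ∀ {j}, j ∈ D → j ∉ S₂ := fun hj h => Finset.disjoint_left.1 hd₂ h hj
  obtain ⟨jw, hjw, hjwsq⟩ : ∃ jw, jw ∉ S₁ ∩ S₂ ∧
      ∀ v, fam f S₂ D P₂ v jw * fam f S₂ D P₂ v jw = 0 := by
    rcases hw with ⟨j, hj⟩ | ⟨j, hj⟩
    · exact ⟨j, fun h => hd₁' hj (Finset.mem_inter.1 h).1, fun v => by
        rw [fam_D (hd₂' hj) hj]; exact (hP j hj).2.2.2.2.1⟩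
    · rw [Finset.mem_sdiff] at hj
      exact ⟨j, fun h => hj.2 (Finset.mem_inter.1 h).1, fun v => by
        rw [fam_S hj.1]; exact nmat_sq hf _⟩
  set O := S₁ ∩ S₂ with hO
  set A : Fin t → Matrix (Fin k) (Fin k) F := fam f S₁ D P₁ (fun _ => e) with hA
  set B : Fin t → Matrix (Fin k) (Fin k) F := fun j =>
    if j ∈ O then hmat f e e' else fam f S₂ D P₂ (fun _ => e) j with hB
  have gA : InG M (kroneckerPow A) := h₁ _
  have gB : InG M (kroneckerPow B) := subst_hmat hM h₂ hjwsq O Finset.inter_subset_right hjw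
    (fun _ => e) (fun _ => e')
  set v : Fin t → Fin k → F := fun j => if j ∈ D then a j else e with hv
  set C : Fin t → Matrix (Fin k) (Fin k) F := fam f (S₁ ∪ S₂ ∪ D) ∅ (fun _ => 1) v with hC
  have hAB : ∀ j, A j * B j = (if j ∈ O then (-1 : F) else 1) • C j ∧
      B j * A j = (if j ∈ D then (-1 : F) else 1) • C j := by
    intro j
    by_cases hjD : j ∈ D
    · have h1 := hd₁' hjD
      have h2 := hd₂' hjD
      obtain ⟨-, e1, e2, -⟩ := hP j hjD
      simp [hA, hB, hC, hv, fam, hO, hjD, h1, h2, e1, e2]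
    · by_cases h1 : j ∈ S₁ <;> by_cases h2 : j ∈ S₂ <;>
        simp [hA, hB, hC, hv, fam, hO, hjD, h1, h2, nmat_mul_hmat hf he, hmat_mul_nmat hf he]
  have eAB : kroneckerPow A * kroneckerPow B = (-1 : F) ^ O.card • kroneckerPow C := by
    rw [kroneckerPow_mul, funext fun j => (hAB j).1, kroneckerPow_smul, Fintype.prod_ite_mem,
      Finset.prod_const]
  have eBA : kroneckerPow B * kroneckerPow A = (-1 : F) ^ D.card • kroneckerPow C := by
    rw [kroneckerPow_mul, funext fun j => (hAB j).2, kroneckerPow_smul, Fintype.prod_ite_mem,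
      Finset.prod_const]
  obtain ⟨j₁, hj₁⟩ := hne
  have hcases : O.Nonempty ∨ D.Nonempty := by
    rw [← Finset.card_pos, ← Finset.card_pos]
    obtain ⟨r, hr⟩ := hodd
    omega
  have hcomm := gA.comm gB
    (kp_mul_zero j₁ (by rw [hA, fam_S hj₁]; exact nmat_sq hf _))
    (kp_mul_zero jw (by simp only [hB, if_neg hjw]; exact hjwsq _))
    (by
      rw [kroneckerPow_mul, kroneckerPow_mul]
      rcases hcases with ⟨j, hj⟩ | ⟨j, hj⟩
      · refine kp_zero_of (j := j) ?_
        have hj1 := (Finset.mem_inter.1 hj).1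
        simp [hA, hB, fam, hj, hj1, nmat_mul_hmat hf he, nmat_sq hf]
      · refine kp_zero_of (j := j) ?_
        obtain ⟨-, e1, -, -, -, e5, -⟩ := hP j hj
        simp [hA, hB, fam, hO, hj, hd₁' hj, hd₂' hj, e1, e5])
    (by
      rw [kroneckerPow_mul, kroneckerPow_mul]
      rcases hw with ⟨j, hj⟩ | ⟨j, hj⟩
      · refine kp_zero_of (j := j) ?_
        obtain ⟨-, -, e2, -, -, -, e6⟩ := hP j hj
        simp [hA, hB, fam, hO, hj, hd₁' hj, hd₂' hj, e2, e6]
      · refine kp_zero_of (j := j) ?_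
        rw [Finset.mem_sdiff] at hj
        have hjD : j ∉ D := fun h => hd₂' h hj.1
        simp [hA, hB, fam, hO, hj.1, hj.2, hjD, nmat_sq hf])
  rw [eAB, eBA, ← sub_smul] at hcomm
  have hc : (-1 : F) ^ O.card - (-1) ^ D.card ≠ 0 := by
    have h1 : (-1 : F) ^ O.card * (-1) ^ D.card = -1 := by rw [← pow_add, hodd.neg_one_pow]
    intro h0
    rw [sub_eq_zero] at h0
    rw [h0, ← pow_add, Even.neg_one_pow ⟨_, rfl⟩] at h1
    exact hM.two (by linear_combination h1)
  have hgC := hcomm.smul ((-1 : F) ^ O.card - (-1) ^ D.card)⁻¹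
  rw [inv_smul_smul₀ hc] at hgC
  refine fam_all hM (fun j _ => ?_) hgC
  simp only [hv]
  split_ifs with hjD
  · exact (hP j hjD).1
  · exact he0

/-- Only the number of factors matters. -/
lemma Good.transport (hM : SBase f M) {S S' : Finset (Fin t)} (hS : Good f M S)
    (hcard : S.card = S'.card) : Good f M S' := by
  intro v
  let e := Finset.equivOfCardEq hcard
  let σ : Equiv.Perm (Fin t) := e.extendSubtype
  have hmem : ∀ i, σ⁻¹ i ∈ S ↔ i ∈ S' := fun i => by
    constructor
    · intro h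
      have := e.extendSubtype_mem (σ⁻¹ i) h
      simpa [σ] using this
    · intro h
      by_contra h'
      have := e.extendSubtype_not_mem (σ⁻¹ i) h'
      exact this (by simpa [σ] using h)
  convert InG.perm hM σ (hS (v ∘ σ)) using 2
  funext i
  have hm := hmem i
  rw [Equiv.Perm.inv_def] at hm ⊢
  simp [fam, hm]

/-- An odd number of factors, at least three, gives all of them. -/
theorem Good.univ (hM : SBase f M) (ht : Odd t) {e e' : Fin k → F} (he : f e e' = 1) :
    ∀ (n : ℕ) (S : Finset (Fin t)), t ≤ S.card + n → Odd S.card → 3 ≤ S.card → Good f M S →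
      Good f M Finset.univ := by
  intro n
  induction n with
  | zero =>
    intro S hn _ _ hS
    rwa [Finset.eq_univ_of_card S (le_antisymm (Finset.card_le_univ S) (by simpa using hn))] at hS
  | succ n ih =>
    intro S hn hodd h3 hS
    by_cases hfull : t ≤ S.card + n
    · exact ih S hfull hodd h3 hS
    set r := min (S.card - 1) (t - S.card) with hr
    obtain ⟨R, hR, hRc⟩ := Finset.exists_subset_card_eq (s := S) (n := r) (by omega)
    obtain ⟨R', hR', hR'c⟩ := Finset.exists_subset_card_eq (s := Sᶜ) (n := r)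
      (by rw [Finset.card_compl, Fintype.card_fin]; omega)
    have hSR' : Disjoint S R' := Finset.disjoint_left.2 fun x hx hx' => Finset.mem_compl.1 (hR' hx') hx
    have hdisj : Disjoint (S \ R) R' := hSR'.mono_left Finset.sdiff_subset
    set S₂ := S \ R ∪ R' with hS₂
    have hS₂c : S.card = S₂.card := by
      rw [hS₂, Finset.card_union_of_disjoint hdisj, Finset.card_sdiff_of_subset hR]
      omega
    have hint : S ∩ S₂ = S \ R := by
      ext x
      have : x ∈ R' → x ∉ S := fun h => Finset.mem_compl.1 (hR' h)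
      simp only [hS₂, Finset.mem_inter, Finset.mem_union, Finset.mem_sdiff]
      tauto
    have hreven : Even r := by
      obtain ⟨a, ha⟩ := hodd
      obtain ⟨b, hb⟩ := ht
      rcases le_total (S.card - 1) (t - S.card) with h | h
      · rw [hr, min_eq_left h]; exact ⟨a, by omega⟩
      · rw [hr, min_eq_right h]; exact ⟨b - a, by omega⟩
    have hw : (S₂ \ S).Nonempty := by
      obtain ⟨x, hx⟩ := Finset.card_pos.1 (show 0 < R'.card by omega)
      exact ⟨x, Finset.mem_sdiff.2 ⟨Finset.mem_union_right _ hx, Finset.mem_compl.1 (hR' hx)⟩⟩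
    have h := good_of_two hM (P₁ := fun _ => 1) (P₂ := fun _ => 1) (a := fun _ => 0) (D := ∅) hS
      (hS.transport hM hS₂c) (Finset.disjoint_empty_right _) (Finset.disjoint_empty_right _)
      (Finset.card_pos.1 (by omega)) (Or.inr hw)
      (by
        rw [Finset.card_empty, add_zero, hint, Finset.card_sdiff_of_subset hR, hRc,
          Nat.odd_sub (by omega)]
        simp [hodd, hreven])
      (by simp) he
    rw [Finset.union_empty] at h
    have hU : (S ∪ S₂).card = S.card + r := by
      rw [← hR'c, ← Finset.card_union_of_disjoint hSR']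
      congr 1
      ext x
      simp only [hS₂, Finset.mem_union, Finset.mem_sdiff]
      tauto
    refine ih _ (by omega) ?_ (by omega) h
    rw [hU]
    exact hodd.add_even hreven

/-- All factors give the transvections at the pure tensors. -/
lemma Good.cen (h : Good f M (Finset.univ : Finset (Fin t))) (v : Fin t → Fin k → F) :
    Cen f M (pv v) := by
  intro c
  obtain ⟨e, he, hev⟩ := h v c
  refine ⟨e, he, fun u => ?_⟩
  rw [hev]
  congr 1
  have : mulVecLin (c • kroneckerPow (fam f Finset.univ ∅ (fun _ => 1) v))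
      = stv (tform f t) c (pv v) := linearMap_ext_pv fun x => by
    rw [mulVecLin_apply, smul_mulVec, kroneckerPow_mulVec_pv, stv_apply, tform_pv, ← smul_smul,
      ← pv_smul]
    simp [fam, nmat_mulVec]
  exact LinearMap.congr_fun this u

end CfsgLib.SympWreath17
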