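import Cfsg.Agent.SympWreath17.Slot
import Cfsg.Agent.WreathTensor14.Classify

/-!
With only scalar root coefficients the radical elements of the stabiliser of a member have scalar
components.
-/

set_option autoImplicit false
set_option linter.unusedSectionVars false

namespace CfsgLib.SympWreath17

open Matrix Module
open CfsgLib.Aschbacher (kroneckerPow kroneckerPow_mul kroneckerPow_one)
open CfsgLib.TensorMax (InM rootMap memb mem_memb pure_mem_memb exists_dual colL pureL)
open CfsgLib.WreathTensor14 (TV pv pv_single slot slot_pv kronE kronE_apply linearMap_ext_pv emb)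

local notation "⟪" u "⊗" w "⟫" => TensorMax.pure u w

variable {F : Type*} [Field F] {k s r : ℕ}
  {f : LinearMap.BilinForm F (Fin k → F)}

/-- Linear maps respecting a property on the pure tensors over the vectors orthogonal to `w`
respect it on the kernel of the contraction. -/
lemma of_sctr_eq_zero {ι : Type} [Fintype ι] [DecidableEq ι] (hf : IsSymp f) {w z : Fin k → F}
    (hwz : f w z = 1) {W : Type*} [AddCommGroup W] [Module F W] (L : Matrix ι (Fin k) F →ₗ[F] W)
    (S : Submodule F W) (h : ∀ u v, f v w = 0 → L ⟪u⊗v⟫ ∈ S) {X : Matrix ι (Fin k) F}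
    (hX : sctr f w X = 0) : L X ∈ S := by
  have e : X = ∑ j, ⟪(X *ᵥ Pi.single j 1)⊗(Pi.single j (1 : F) + f (Pi.single j 1) w • z)⟫ := by
    ext i l
    have h0 := congrFun hX i
    simp only [sctr_apply, mulVec, dotProduct, sdual_apply, Pi.zero_apply] at h0
    simp only [Matrix.sum_apply, TensorMax.pure, vecMulVec_apply, Pi.add_apply, Pi.smul_apply,
      smul_eq_mul, mul_add, Finset.sum_add_distrib, mulVec_single_one, col_apply, ← mul_assoc,
      ← Finset.sum_mul, h0, zero_mul, add_zero]
    simp [Pi.single_apply]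
  rw [e, map_sum]
  refine Submodule.sum_mem _ fun j _ => h _ _ ?_
  simp [hf.skew w z, hwz]

lemma matrix_ext_lin {ι : Type} [Fintype ι] [DecidableEq ι] {A B : Matrix ι ι F}
    (h : A.mulVecLin = B.mulVecLin) : A = B :=
  Matrix.ext_of_mulVec_single fun i => LinearMap.congr_fun h _

/-- An element centralising the flag of a member. -/
structure Rad (f : LinearMap.BilinForm F (Fin k → F)) (w : Fin k → F)
    (g : Matrix (Fin s → Fin k) (Fin k) F ≃ₗ[F] Matrix (Fin s → Fin k) (Fin k) F) : Prop where
  fix : ∀ u, g ⟪u⊗w⟫ = ⟪u⊗w⟫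
  ctr : ∀ X, sctr f w (g X) = sctr f w X
  low : ∀ v, f v w = 0 → ∃ A : Matrix (Fin s → Fin k) (Fin s → Fin k) F,
    ∀ u, g ⟪u⊗v⟫ = ⟪u⊗v⟫ + ⟪(A *ᵥ u)⊗w⟫

/-- A radical element with one component. -/
def Single (f : LinearMap.BilinForm F (Fin k → F)) (w a : Fin k → F)
    (A : Matrix (Fin s → Fin k) (Fin s → Fin k) F)
    (g : Matrix (Fin s → Fin k) (Fin k) F ≃ₗ[F] Matrix (Fin s → Fin k) (Fin k) F) : Prop :=
  Rad f w g ∧ ∀ v, f v w = 0 → ∀ u, g ⟪u⊗v⟫ = ⟪u⊗v⟫ + f v a • ⟪(A *ᵥ u)⊗w⟫

lemma pure_add_left {ι : Type} (u u' : ι → F) (w : Fin k → F) :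
    ⟪(u + u')⊗w⟫ = ⟪u⊗w⟫ + ⟪u'⊗w⟫ := add_vecMulVec u u' w

lemma pure_add_right {ι : Type} (u : ι → F) (w w' : Fin k → F) :
    ⟪u⊗(w + w')⟫ = ⟪u⊗w⟫ + ⟪u⊗w'⟫ := vecMulVec_add u w w'

lemma pure_sub_right {ι : Type} (u : ι → F) (w w' : Fin k → F) :
    ⟪u⊗(w - w')⟫ = ⟪u⊗w⟫ - ⟪u⊗w'⟫ := vecMulVec_sub u w w'

lemma pure_smul_left {ι : Type} (c : F) (u : ι → F) (w : Fin k → F) :
    ⟪(c • u)⊗w⟫ = c • ⟪u⊗w⟫ := smul_vecMulVec c u w

lemma pure_smul_right {ι : Type} (c : F) (u : ι → F) (w : Fin k → F) :
    ⟪u⊗(c • w)⟫ = c • ⟪u⊗w⟫ := vecMulVec_smul c u w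

lemma pure_neg_left {ι : Type} (u : ι → F) (w : Fin k → F) : ⟪(-u)⊗w⟫ = -⟪u⊗w⟫ :=
  neg_vecMulVec u w

lemma pure_sub_left {ι : Type} (u u' : ι → F) (w : Fin k → F) :
    ⟪(u - u')⊗w⟫ = ⟪u⊗w⟫ - ⟪u'⊗w⟫ := sub_vecMulVec u u' w

variable {M : Subgroup (Matrix (Fin s → Fin k) (Fin k) F ≃ₗ[F] Matrix (Fin s → Fin k) (Fin k) F)}

namespace Single

variable {w a : Fin k → F} {A A' : Matrix (Fin s → Fin k) (Fin s → Fin k) F}
  {g g' : Matrix (Fin s → Fin k) (Fin k) F ≃ₗ[F] Matrix (Fin s → Fin k) (Fin k) F}

lemma mul (h : Single f w a A g) (h' : Single f w a A' g') : Single f w a (A + A') (g * g') := by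
  have e : ∀ v, f v w = 0 → ∀ u, (g * g') ⟪u⊗v⟫ = ⟪u⊗v⟫ + f v a • ⟪((A + A') *ᵥ u)⊗w⟫ := by
    intro v hv u
    rw [LinearEquiv.mul_apply, h'.2 v hv, map_add, map_smul, h.2 v hv, h.1.fix, add_mulVec,
      pure_add_left, smul_add]
    abel
  exact ⟨⟨fun u => by rw [LinearEquiv.mul_apply, h'.1.fix, h.1.fix],
    fun X => by rw [LinearEquiv.mul_apply, h.1.ctr, h'.1.ctr],
    fun v hv => ⟨f v a • (A + A'), fun u => by rw [e v hv, smul_mulVec, pure_smul_left]⟩⟩, e⟩

lemma inv (h : Single f w a A g) : Single f w a (-A) g⁻¹ := by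
  have hfix : ∀ u, g⁻¹ ⟪u⊗w⟫ = ⟪u⊗w⟫ := fun u => by
    conv_lhs => rw [← h.1.fix u]
    exact g.symm_apply_apply _
  have e : ∀ v, f v w = 0 → ∀ u, g⁻¹ ⟪u⊗v⟫ = ⟪u⊗v⟫ + f v a • ⟪((-A) *ᵥ u)⊗w⟫ := by
    intro v hv u
    apply g.injective
    rw [show g (g⁻¹ ⟪u⊗v⟫) = ⟪u⊗v⟫ from g.apply_symm_apply _, map_add, map_smul, h.2 v hv,
      h.1.fix, neg_mulVec, pure_neg_left, smul_neg]
    abel
  refine ⟨⟨hfix, fun X => ?_, fun v hv => ⟨f v a • (-A), fun u => by
    rw [e v hv, smul_mulVec, pure_smul_left]⟩⟩, e⟩
  have := h.1.ctr (g⁻¹ X)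
  rw [show g (g⁻¹ X) = X from g.apply_symm_apply _] at this
  exact this.symm

/-- Conjugation by an element of either side. -/
lemma conj (h : Single f w a A g)
    {e : Matrix (Fin s → Fin k) (Fin k) F ≃ₗ[F] Matrix (Fin s → Fin k) (Fin k) F}
    {α α' : Matrix (Fin s → Fin k) (Fin s → Fin k) F} (hα : α * α' = 1) {t : GL (Fin k) F}
    (ht : Isom f t) (htw : t.val *ᵥ w = w)
    (he : ∀ u v, e ⟪u⊗v⟫ = ⟪(α *ᵥ u)⊗(t.val *ᵥ v)⟫) :
    Single f w (t.val *ᵥ a) (α * A * α') (e * g * e⁻¹) := by
  have htt : ∀ v, t.val *ᵥ ((t⁻¹).val *ᵥ v) = v := fun v => by simp [mulVec_mulVec]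
  have htt' : ∀ v, (t⁻¹).val *ᵥ (t.val *ᵥ v) = v := fun v => by simp [mulVec_mulVec]
  have hαα : ∀ u, α *ᵥ (α' *ᵥ u) = u := fun u => by rw [mulVec_mulVec, hα, one_mulVec]
  have hei : ∀ u v, e⁻¹ ⟪u⊗v⟫ = ⟪(α' *ᵥ u)⊗((t⁻¹).val *ᵥ v)⟫ := fun u v => by
    apply e.injective
    rw [show e (e⁻¹ ⟪u⊗v⟫) = ⟪u⊗v⟫ from e.apply_symm_apply _, he, hαα, htt]
  have hiw : (t⁻¹).val *ᵥ w = w := by
    conv_lhs => rw [← htw]
    rw [htt']
  have hf' : ∀ v, f ((t⁻¹).val *ᵥ v) w = f v w := fun v => by
    rw [← ht, htt, htw]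
  have e1 : ∀ v, f v w = 0 → ∀ u, (e * g * e⁻¹) ⟪u⊗v⟫ =
      ⟪u⊗v⟫ + f v (t.val *ᵥ a) • ⟪((α * A * α') *ᵥ u)⊗w⟫ := by
    intro v hv u
    rw [LinearEquiv.mul_apply, LinearEquiv.mul_apply, hei, h.2 _ (by rw [hf', hv]), map_add,
      map_smul, he, he, hαα, htt, htw, mulVec_mulVec, mulVec_mulVec]
    congr 2
    rw [← ht, htt]
  refine ⟨⟨fun u => by rw [LinearEquiv.mul_apply, LinearEquiv.mul_apply, hei, hiw, h.1.fix, he,
      hαα, htw], fun X => ?_, fun v hv => ⟨f v (t.val *ᵥ a) • (α * A * α'), fun u => by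
        rw [e1 v hv, smul_mulVec, pure_smul_left]⟩⟩, e1⟩
  -- the contraction with `w` is moved by `α`
  have hc : ∀ Y, sctr f w (e Y) = α *ᵥ sctr f w Y := by
    intro Y
    have : sctr f w ∘ₗ e.toLinearMap = (Matrix.mulVecLin α) ∘ₗ sctr f w := by
      refine LinearMap.ext fun Y => ?_
      have hY : Y = ∑ j, ⟪(Y *ᵥ Pi.single j 1)⊗(Pi.single j (1 : F))⟫ := by
        ext i l; simp [Matrix.sum_apply, TensorMax.pure, vecMulVec_apply, Pi.single_apply]
      rw [hY, map_sum, map_sum]
      refine Finset.sum_congr rfl fun j _ => ?_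
      simp only [LinearMap.comp_apply, LinearEquiv.coe_coe, he, sctr_pure, mulVecLin_apply,
        mulVec_smul]
      congr 1
      conv_lhs => rw [← htw, ht]
    exact LinearMap.congr_fun this Y
  rw [LinearEquiv.mul_apply, LinearEquiv.mul_apply, hc, h.1.ctr, ← hc]
  exact congrArg _ (e.apply_symm_apply X)

end Single

/-- The possible components. -/
def SCoeff (f : LinearMap.BilinForm F (Fin k → F))
    (M : Subgroup (Matrix (Fin s → Fin k) (Fin k) F ≃ₗ[F] Matrix (Fin s → Fin k) (Fin k) F))
    (w : Fin k → F) (A : Matrix (Fin s → Fin k) (Fin s → Fin k) F) : Prop :=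
  ∀ a, f a w = 0 → ∃ g ∈ M, Single f w a A g

/-- A form invariant under the rank one maps of all factors is everything or nothing. -/
lemma top_of_invariant (hf : IsSymp f) (hk : 2 ≤ k) : ∀ (s : ℕ) (Y : Submodule F (TV F k s)),
    (∀ (j : Fin s) (v : Fin k → F), ∀ x ∈ Y, emb j (nmat f v) *ᵥ x ∈ Y) → Y ≠ ⊥ → Y = ⊤ := by
  intro s
  induction s with
  | zero =>
    intro Y _ hY
    refine Submodule.eq_top_of_finrank_eq (le_antisymm (Submodule.finrank_le _) ?_)
    rw [finrank_pi, Fintype.card_fun, Fintype.card_fin, Fintype.card_fin, pow_zero]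
    exact Nat.one_le_iff_ne_zero.2 fun h => hY (Submodule.finrank_eq_zero.1 h)
  | succ s ih =>
    intro Y hinv hY
    have h0 : ∀ v (x : TV F k (s + 1)), emb 0 (nmat f v) *ᵥ x =
        (slot 0).symm ⟪(sctr f v (slot 0 x))⊗v⟫ := fun v x => by
      have : (emb (0 : Fin (s + 1)) (nmat f v)).mulVecLin = (slot (0 : Fin (s + 1))).symm.toLinearMap ∘ₗ
          sroot f 1 v ∘ₗ (slot (0 : Fin (s + 1))).toLinearMap := by
        refine linearMap_ext_pv fun y => (slot (0 : Fin (s + 1))).injective ?_
        simp only [mulVecLin_apply, emb, WreathTensor14.kroneckerPow_mulVec_pv, slot_pv,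
          LinearMap.comp_apply, LinearEquiv.coe_coe, LinearEquiv.apply_symm_apply, sroot_apply,
          sctr_pure, one_mulVec, Pi.mulSingle_eq_same, nmat_mulVec, pure_smul_left, pure_smul_right]
        congr 2
        refine congrArg pv (funext fun i => ?_)
        simp [Fin.removeNth_apply, Fin.succAbove_ne]
      simpa using LinearMap.congr_fun this x
    have hstep : ∀ u v v', f v v' ≠ 0 → (slot 0).symm ⟪u⊗v⟫ ∈ Y →
        (slot 0).symm ⟪u⊗v'⟫ ∈ Y := fun u v v' hne h => by
      have := hinv 0 v' _ h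
      rw [h0, LinearEquiv.apply_symm_apply, sctr_pure, pure_smul_left, map_smul] at this
      exact (Submodule.smul_mem_iff _ hne).1 this
    obtain ⟨y, hy, hy0⟩ := Submodule.exists_mem_ne_zero_of_ne_bot hY
    obtain ⟨v₀, hv₀⟩ : ∃ v, sctr f v (slot 0 y) ≠ 0 := by
      by_contra! h
      exact hy0 ((slot 0).map_eq_zero_iff.1 (sctr_ext hf h))
    have hv₀0 : v₀ ≠ 0 := fun h => hv₀ (by rw [h]; simp)
    let Y' : Submodule F (TV F k s) :=
      { carrier := {u | ∀ v, (slot 0).symm ⟪u⊗v⟫ ∈ Y}
        add_mem' := fun ha hb v => by rw [pure_add_left, map_add]; exact Y.add_mem (ha v) (hb v)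
        zero_mem' := fun v => by simp
        smul_mem' := fun c u hu v => by rw [pure_smul_left, map_smul]; exact Y.smul_mem c (hu v) }
    have hmem : sctr f v₀ (slot 0 y) ∈ Y' := by
      intro v
      rcases eq_or_ne v 0 with rfl | hv
      · simp
      have h1 := hinv 0 v₀ y hy
      rw [h0] at h1
      obtain ⟨z₁, hz₁⟩ := hf.exists_one hv₀0
      obtain ⟨z₂, hz₂⟩ := hf.exists_one hv
      obtain ⟨z, hz, hz'⟩ : ∃ z, f v₀ z ≠ 0 ∧ f z v ≠ 0 := by
        have h2 : f z₂ v ≠ 0 := by rw [hf.skew, hz₂]; simp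
        by_cases e1 : f z₁ v = 0
        · by_cases e2 : f v₀ z₂ = 0
          · exact ⟨z₁ + z₂, by simp [hz₁, e2], by simp [e1, h2]⟩
          · exact ⟨z₂, e2, h2⟩
        · exact ⟨z₁, by simp [hz₁], e1⟩
      exact hstep _ z v hz' (hstep _ v₀ z hz h1)
    have hY' : Y' = ⊤ := by
      refine ih Y' (fun j v' u hu v => ?_) (fun h => hv₀ (by simpa [h] using hmem))
      have h1 := hinv ((0 : Fin (s + 1)).succAbove j) v' _ (hu v)
      convert h1 using 1
      have : ((slot (0 : Fin (s + 1))).symm.toLinearMap ∘ₗ pureL v) ∘ₗ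
          (emb j (nmat f v')).mulVecLin =
          (emb ((0 : Fin (s + 1)).succAbove j) (nmat f v')).mulVecLin ∘ₗ
            ((slot 0).symm.toLinearMap ∘ₗ pureL v) := by
        refine linearMap_ext_pv fun y => ?_
        simp only [LinearMap.comp_apply, LinearEquiv.coe_coe, TensorMax.pureL_apply,
          mulVecLin_apply, emb, WreathTensor14.kroneckerPow_mulVec_pv]
        rw [← WreathTensor14.slot_pv_insertNth (0 : Fin (s + 1)) v y,
          ← WreathTensor14.slot_pv_insertNth (0 : Fin (s + 1)) v, LinearEquiv.symm_apply_apply,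
          LinearEquiv.symm_apply_apply, WreathTensor14.kroneckerPow_mulVec_pv]
        refine congrArg pv (funext fun i => ?_)
        rcases Fin.eq_self_or_eq_succAbove (0 : Fin (s + 1)) i with rfl | ⟨i', rfl⟩
        · simp [(Fin.succAbove_ne (0 : Fin (s + 1)) j).symm]
        · rcases eq_or_ne i' j with rfl | hij
          · simp
          · simp [hij, Fin.succAbove_right_injective.ne hij]
      exact LinearMap.congr_fun this u
    refine eq_top_iff.2 fun x _ => ?_
    rw [pi_eq_sum_univ' x]
    refine Submodule.sum_mem _ fun p _ => Submodule.smul_mem _ _ ?_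
    rw [← pv_single, ← (slot (0 : Fin (s + 1))).symm_apply_apply (pv _), slot_pv]
    exact (hY'.ge Submodule.mem_top) _

/-- Skew matrices closed under conjugation by the factors, with scalar anticommutators, vanish. -/
lemma skew_eq_zero [Finite F] (hf : IsSymp f) (h2 : (2 : F) ≠ 0) (hk : 4 ≤ k) :
    ∀ (s : ℕ) (S : AddSubmonoid (Matrix (Fin s → Fin k) (Fin s → Fin k) F)),
    (∀ A ∈ S, -A ∈ S) →
    (∀ A ∈ S, ∀ x y, tform f s (A *ᵥ x) y = -tform f s x (A *ᵥ y)) →
    (∀ gs : Fin s → GL (Fin k) F, (∀ i, Isom f (gs i)) → ∀ A ∈ S,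
      kroneckerPow (fun i => (gs i).val) * A * kroneckerPow (fun i => ((gs i)⁻¹).val) ∈ S) →
    (∀ A ∈ S, ∀ B ∈ S, ∃ c : F, A * B + B * A = c • 1) → ∀ A ∈ S, A = 0 := by
  classical
  intro s S hneg hskew hconj hanti A hA
  have hhalf : ∀ B, B + B ∈ S → B ∈ S := by
    intro B hB
    obtain ⟨p, hp⟩ := CharP.exists F
    have hpp : p.Prime := CharP.char_is_prime F p
    have hodd : p % 2 = 1 := by
      rcases Nat.mod_two_eq_zero_or_one p with h0 | h0
      · exfalso
        have hp2 : p = 2 := ((Nat.prime_dvd_prime_iff_eq Nat.prime_two hpp).1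
          (Nat.dvd_of_mod_eq_zero h0)).symm
        subst hp2
        exact h2 (CharP.cast_eq_zero F 2)
      · exact h0
    have : B = ((p + 1) / 2) • (B + B) := by
      rw [← two_nsmul, smul_smul, Nat.div_mul_cancel (by omega), add_nsmul, one_nsmul,
        ← Nat.cast_smul_eq_nsmul F, CharP.cast_eq_zero, zero_smul, zero_add]
    rw [this]
    exact S.nsmul_mem hB _
  have key : ∀ (j : Fin s) (v : Fin k → F), emb j (nmat f v) * A * emb j (nmat f v) = 0 := by
    intro j v
    obtain ⟨r, rfl⟩ : ∃ r, s = r + 1 := ⟨s - 1, by have := j.isLt; omega⟩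
    let B : Matrix (Fin r → Fin k) (Fin r → Fin k) F → (Fin k → F) →
        Matrix (Fin (r + 1) → Fin k) (Fin (r + 1) → Fin k) F := fun θ z =>
      LinearMap.toMatrix' ((slot j).symm.toLinearMap ∘ₗ sroot f θ z ∘ₗ (slot j).toLinearMap)
    have hBx : ∀ θ z x, B θ z *ᵥ x = (slot j).symm (sroot f θ z (slot j x)) := fun θ z x => by
      simp only [B, LinearMap.toMatrix'_mulVec]; rfl
    have hemb : ∀ z, emb j (nmat f z) = B 1 z := fun z => by
      have : (emb j (nmat f z)).mulVecLin = (B 1 z).mulVecLin := by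
        refine linearMap_ext_pv fun y => (slot j).injective ?_
        simp only [mulVecLin_apply, hBx, emb, WreathTensor14.kroneckerPow_mulVec_pv, slot_pv,
          LinearEquiv.apply_symm_apply, sroot_apply, sctr_pure, one_mulVec, Pi.mulSingle_eq_same,
          nmat_mulVec, pure_smul_left, pure_smul_right]
        congr 2
        refine congrArg pv (funext fun i => ?_)
        simp [Fin.removeNth_apply, Fin.succAbove_ne]
      exact matrix_ext_lin this
    set σ : Matrix (Fin r → Fin k) (Fin r → Fin k) F := LinearMap.toMatrix'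
      (sctr f v ∘ₗ (slot j).toLinearMap ∘ₗ A.mulVecLin ∘ₗ (slot j).symm.toLinearMap ∘ₗ pureL v)
      with hσ
    have hNAN : emb j (nmat f v) * A * emb j (nmat f v) = B σ v :=
      matrix_ext_lin (LinearMap.ext fun x => by
        simp only [mulVecLin_apply, ← mulVec_mulVec, hemb, hBx, sroot_apply, one_mulVec, hσ,
          LinearMap.toMatrix'_mulVec]
        rfl)
    have hmem : B σ v ∈ S := by
      have hN2 : emb j (nmat f v) * emb j (nmat f v) = 0 := by
        rw [WreathTensor14.emb_mul, show nmat f v * nmat f v = 0 from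
          Matrix.ext_of_mulVec_single fun l => by
            rw [← mulVec_mulVec, nmat_mulVec, nmat_mulVec, map_smul, LinearMap.smul_apply, hf.alt,
              smul_zero, zero_smul, zero_mulVec],
          WreathTensor14.emb_zero]
      have hc : ∀ c : F, (1 + emb j (c • nmat f v)) * A * (1 - emb j (c • nmat f v)) ∈ S := by
        intro c
        obtain ⟨a, ha, hav, -, hai⟩ := exists_transvection hf c v
        have := hconj (Pi.mulSingle j a) (fun i => by
          rcases eq_or_ne i j with rfl | h
          · simpa using ha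
          · simpa [h] using isom_one f) A hA
        rwa [WreathTensor14.emb_mem_of_family, hav, hai, WreathTensor14.emb_add,
          WreathTensor14.emb_sub, WreathTensor14.emb_one] at this
      rw [← hNAN]
      refine hhalf _ ?_
      have h1 := S.add_mem (hc 1) (hc (-1))
      have h3 := hneg _ (S.add_mem h1 (hneg _ (S.add_mem hA hA)))
      convert h3 using 1
      rw [one_smul, neg_one_smul, show emb j (-nmat f v) = -emb j (nmat f v) from
        eq_neg_of_add_eq_zero_left (by rw [← WreathTensor14.emb_add, neg_add_cancel,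
          WreathTensor14.emb_zero])]
      noncomm_ring
    by_cases hv0 : v = 0
    · rw [hNAN]
      refine matrix_ext_lin (LinearMap.ext fun x => ?_)
      subst hv0
      simp [hBx]
    -- all conjugates
    have hall : ∀ (z : Fin k → F), z ≠ 0 → ∀ hs : Fin r → GL (Fin k) F, (∀ i, Isom f (hs i)) →
        B (kroneckerPow (fun i => (hs i).val) * σ * kroneckerPow (fun i => ((hs i)⁻¹).val)) z
          ∈ S := by
      intro z hz hs hhs
      obtain ⟨a, ha, hav⟩ := exists_isom_map hf hv0 hz
      have := hconj (Fin.insertNth (α := fun _ => GL (Fin k) F) j a hs) (fun i => by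
        rcases Fin.eq_self_or_eq_succAbove j i with rfl | ⟨l, rfl⟩
        · simpa using ha
        · simpa using hhs l) _ hmem
      convert this using 1
      refine matrix_ext_lin (linearMap_ext_pv fun y => (slot j).injective ?_)
      simp only [mulVecLin_apply, ← mulVec_mulVec, hBx, LinearEquiv.apply_symm_apply,
        WreathTensor14.kroneckerPow_mulVec_pv]
      rw [← kronE_apply]
      simp only [sroot_apply, sctr_pure, slot_pv, WreathTensor14.slot_kronE,
        LinearEquiv.apply_symm_apply, Fin.insertNth_apply_same, Fin.removeNth_insertNth, hav]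
      rw [kronE_apply, mulVec_smul, mulVec_smul, mulVec_smul]
      have hc1 : f ((a⁻¹).val *ᵥ y j) v = f (y j) z := by
        rw [← ha ((a⁻¹).val *ᵥ y j) v, hav, mulVec_mulVec, ← Units.val_mul, mul_inv_cancel,
          Units.val_one, one_mulVec]
      rw [hc1]
      congr 2
      rw [← mulVec_mulVec, ← mulVec_mulVec, WreathTensor14.kroneckerPow_mulVec_pv]
      congr 2
      refine congrArg pv (funext fun i => ?_)
      simp [Fin.removeNth_apply]
    obtain ⟨z, hvz⟩ := hf.exists_one hv0
    have hz0 : z ≠ 0 := fun h => by simp [h] at hvz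
    obtain ⟨x, hx0, hxv, hxz⟩ := TensorMax.exists_ne_zero_orth_two (κ := Fin k)
      (by simp; omega) (sdual f v) (sdual f z)
    rw [dotProduct_comm, dotProduct_sdual] at hxv hxz
    have hprod : ∀ hs : Fin r → GL (Fin k) F, (∀ i, Isom f (hs i)) → ∀ u,
        σ *ᵥ (kronE hs (σ *ᵥ u)) = 0 := by
      intro hs hhs u
      set σ' := kroneckerPow (fun i => (hs i).val) * σ * kroneckerPow (fun i => ((hs i)⁻¹).val)
      obtain ⟨c, hc⟩ := hanti _ hmem _ (hall z hz0 hs hhs)
      have app : ∀ u x, (slot j) ((B σ v * B σ' z + B σ' z * B σ v) *ᵥ (slot j).symm ⟪u⊗x⟫) =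
          c • ⟪u⊗x⟫ := fun u x => by
        rw [hc, smul_mulVec, one_mulVec, map_smul, LinearEquiv.apply_symm_apply]
      have hu0 : ∀ u, ⟪(σ *ᵥ (σ' *ᵥ u))⊗v⟫ = -(c • ⟪u⊗v⟫) := fun u => by
        have := app u v
        simp only [add_mulVec, ← mulVec_mulVec, hBx, LinearEquiv.apply_symm_apply, sroot_apply,
          sctr_pure, hf.alt, zero_smul, mulVec_zero, TensorMax.pure_zero_left, map_zero, add_zero,
          mulVec_smul, hvz, one_smul, hf.skew v z] at this
        rw [← this]
        simp [pure_neg_left]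
      have hc0 : c = 0 := by
        obtain ⟨u₀, hu₀⟩ : ∃ u₀ : TV F k r, u₀ ≠ 0 := by
          have : Nonempty (Fin k) := ⟨⟨0, by omega⟩⟩
          exact exists_ne 0
        have := app u₀ x
        simp only [add_mulVec, ← mulVec_mulVec, hBx, LinearEquiv.apply_symm_apply, sroot_apply,
          sctr_pure, hxv, hxz, zero_smul, mulVec_zero, TensorMax.pure_zero_left, map_zero,
          add_zero] at this
        rcases smul_eq_zero.1 this.symm with h | h
        · exact h
        · exact absurd ((TensorMax.pure_eq_zero_iff hx0).1 h) hu₀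
      have := hu0 (kronE hs u)
      rw [hc0, zero_smul, neg_zero, TensorMax.pure_eq_zero_iff hv0] at this
      convert this using 2
      rw [kronE_apply, kronE_apply]
      simp only [σ', mulVec_mulVec, Matrix.mul_assoc, kroneckerPow_mul]
      simp [kroneckerPow_one]
    -- the common kernel
    let K : Submodule F (TV F k r) :=
      { carrier := {x | ∀ hs : Fin r → GL (Fin k) F, (∀ i, Isom f (hs i)) →
          σ *ᵥ (kronE hs x) = 0}
        add_mem' := fun ha hb hs hhs => by rw [map_add, mulVec_add, ha hs hhs, hb hs hhs, add_zero]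
        zero_mem' := fun hs _ => by simp
        smul_mem' := fun c x hx hs hhs => by rw [map_smul, mulVec_smul, hx hs hhs, smul_zero] }
    have hσ0 : σ = 0 := by
      by_contra hne
      have hK : K = ⊤ := by
        refine top_of_invariant hf (by omega) r K (fun l y x hx hs hhs => ?_) fun hbot => ?_
        · obtain ⟨a, ha, hav, -, -⟩ := exists_transvection hf 1 y
          have := hx (hs * Pi.mulSingle l a) (fun i => (hhs i).mul (by
            rcases eq_or_ne i l with rfl | h
            · simpa using ha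
            · simpa [h] using isom_one f))
          rw [map_mul, LinearEquiv.mul_apply] at this
          have e : kronE (Pi.mulSingle l a) x = x + emb l (nmat f y) *ᵥ x := by
            rw [kronE_apply, show (fun i => ((Pi.mulSingle l a : Fin r → GL (Fin k) F) i).val) =
              Pi.mulSingle l a.val from funext fun i => by
                rcases eq_or_ne i l with rfl | h <;> simp [*], ← emb, hav, one_smul,
              WreathTensor14.emb_add, WreathTensor14.emb_one, add_mulVec, one_mulVec]
          rw [e, map_add, mulVec_add, hx hs hhs, zero_add] at this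
          exact this
        · obtain ⟨u, hu⟩ : ∃ u, σ *ᵥ u ≠ 0 := by
            by_contra! h
            exact hne (Matrix.ext_of_mulVec_single fun i => by rw [h, zero_mulVec])
          exact hu ((Submodule.mem_bot F).1 (hbot ▸ (show σ *ᵥ u ∈ K from fun hs hhs =>
            hprod hs hhs u)))
      refine hne (Matrix.ext_of_mulVec_single fun i => ?_)
      have := (hK.ge (Submodule.mem_top (x := (Pi.single i 1 : TV F k r)))) 1 fun _ => isom_one f
      rw [zero_mulVec]
      simpa using this
    rw [hNAN]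
    refine matrix_ext_lin (LinearMap.ext fun x => ?_)
    simp [hBx, hσ0]
  -- the pairing of pure vectors
  have hadj : ∀ (j : Fin s) (v : Fin k → F) (x y : Fin s → Fin k → F), v ≠ 0 →
      x j = v → y j = v → tform f s (A *ᵥ pv x) (pv y) = 0 := by
    intro j v x y hv hxj hyj
    obtain ⟨z, hz⟩ := hf.exists_one hv
    have hN : ∀ w : Fin s → Fin k → F, emb j (nmat f v) *ᵥ pv w =
        pv (Function.update w j (f (w j) v • v)) := fun w => by
      rw [emb, WreathTensor14.kroneckerPow_mulVec_pv]
      congr 1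
      funext i
      rcases eq_or_ne i j with rfl | h
      · simp [nmat_mulVec]
      · simp [h]
    have hsk : ∀ a b, tform f s (emb j (nmat f v) *ᵥ a) b =
        -tform f s a (emb j (nmat f v) *ᵥ b) := by
      have : LinearMap.comp (tform f s) (emb j (nmat f v)).mulVecLin =
          -(LinearMap.compl₂ (tform f s) (emb j (nmat f v)).mulVecLin) := by
        refine form_ext_pv fun a b => ?_
        change tform f s (emb j (nmat f v) *ᵥ pv a) (pv b) =
          -tform f s (pv a) (emb j (nmat f v) *ᵥ pv b)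
        rw [hN, hN, tform_pv, tform_pv, ← Finset.mul_prod_erase _ _ (Finset.mem_univ j),
          ← Finset.mul_prod_erase _ (fun i => f (a i) (Function.update b j (f (b j) v • v) i))
            (Finset.mem_univ j)]
        rw [Finset.prod_congr rfl fun i hi => by
          rw [Function.update_of_ne (Finset.ne_of_mem_erase hi)]]
        rw [Finset.prod_congr (f := fun i => f (a i) (Function.update b j (f (b j) v • v) i)) rfl
          fun i hi => by rw [Function.update_of_ne (Finset.ne_of_mem_erase hi)]]
        simp only [Function.update_self, map_smul, LinearMap.smul_apply, smul_eq_mul,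
          hf.skew (b j) v]
        ring
      exact fun a b => LinearMap.congr_fun₂ this a b
    have h := congrArg (fun m => tform f s (m *ᵥ pv (Function.update x j z))
      (pv (Function.update y j z))) (key j v)
    simp only [← mulVec_mulVec, zero_mulVec, map_zero, LinearMap.zero_apply] at h
    rw [hsk, hN, hN] at h
    simp only [Function.update_self, Function.update_idem, hf.skew v z, hz] at h
    have hu : ∀ w : Fin s → Fin k → F, w j = v →
        pv (Function.update w j ((-1 : F) • v)) = -pv w := fun w hw => by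
      funext p
      simp only [pv, Pi.neg_apply]
      rw [← Finset.mul_prod_erase _ _ (Finset.mem_univ j),
        ← Finset.mul_prod_erase _ (fun i => w i (p i)) (Finset.mem_univ j),
        Finset.prod_congr rfl fun i hi => by
          rw [Function.update_of_ne (Finset.ne_of_mem_erase hi)]]
      simp [hw]
    rw [hu x hxj, hu y hyj, mulVec_neg] at h
    simpa using h
  -- alternating in every factor
  have hswap : ∀ (J : Finset (Fin s)) (x y : Fin s → Fin k → F),
      tform f s (A *ᵥ pv (J.piecewise y x)) (pv (J.piecewise x y)) =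
        (-1 : F) ^ J.card * tform f s (A *ᵥ pv x) (pv y) := by
    intro J x y
    induction J using Finset.induction_on with
    | empty => simp
    | @insert j J hj ih =>
      rw [Finset.card_insert_of_notMem hj, pow_succ', mul_assoc, ← ih, Finset.piecewise_insert,
        Finset.piecewise_insert]
      set X := J.piecewise y x
      set Y := J.piecewise x y
      have hX : X j = x j := Finset.piecewise_eq_of_notMem _ _ _ hj
      have hY : Y j = y j := Finset.piecewise_eq_of_notMem _ _ _ hj
      let β : (Fin k → F) → (Fin k → F) → F := fun a b =>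
        tform f s (A *ᵥ pv (Function.update X j a)) (pv (Function.update Y j b))
      have hlin : ∀ (W : Fin s → Fin k → F) a a', pv (Function.update W j (a + a')) =
          pv (Function.update W j a) + pv (Function.update W j a') := fun W a a' => by
        funext p
        simp only [pv, Pi.add_apply]
        rw [← Finset.mul_prod_erase _ _ (Finset.mem_univ j), ← Finset.mul_prod_erase _
            (fun i => Function.update W j a i (p i)) (Finset.mem_univ j), ← Finset.mul_prod_erase _
            (fun i => Function.update W j a' i (p i)) (Finset.mem_univ j)]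
        rw [Finset.prod_congr rfl fun i hi => by
          rw [Function.update_of_ne (Finset.ne_of_mem_erase hi)],
          Finset.prod_congr (f := fun i => Function.update W j a i (p i)) rfl fun i hi => by
          rw [Function.update_of_ne (Finset.ne_of_mem_erase hi)],
          Finset.prod_congr (f := fun i => Function.update W j a' i (p i)) rfl fun i hi => by
          rw [Function.update_of_ne (Finset.ne_of_mem_erase hi)]]
        simp
        ring
      have hβ : ∀ a, β a a = 0 := fun a => by
        rcases eq_or_ne a 0 with rfl | ha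
        · simp only [β]
          rw [show pv (Function.update X j 0) = 0 from funext fun p =>
            Finset.prod_eq_zero (Finset.mem_univ j) (by simp)]
          simp
        · exact hadj j a _ _ ha (Function.update_self ..) (Function.update_self ..)
      have := hβ (x j + y j)
      simp only [β, hlin, mulVec_add, map_add, LinearMap.add_apply] at this
      rw [show tform f s (A *ᵥ pv (Function.update X j (x j))) (pv (Function.update Y j (x j))) = 0
        from hβ (x j), show tform f s (A *ᵥ pv (Function.update X j (y j)))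
        (pv (Function.update Y j (y j))) = 0 from hβ (y j), zero_add, add_zero,
        ← hX, Function.update_eq_self, ← hY, Function.update_eq_self, hX, hY] at this
      rw [neg_one_mul]
      linear_combination this
  refine matrix_ext_lin (linearMap_ext_pv fun x => ?_)
  rw [mulVecLin_zero, LinearMap.zero_apply, mulVecLin_apply]
  refine tform_nd hf s _ fun y => ?_
  have hzero : ∀ a b, tform f s (A *ᵥ pv a) (pv b) = 0 := fun a b => by
    have h := hswap Finset.univ a b
    rw [Finset.piecewise_univ, Finset.piecewise_univ, Finset.card_univ, Fintype.card_fin,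
      hskew A hA, tform_comm hf] at h
    have hne : (-1 : F) ^ s ≠ 0 := pow_ne_zero _ (neg_ne_zero.2 one_ne_zero)
    have : 2 * tform f s (A *ᵥ pv a) (pv b) = 0 := by
      apply mul_left_cancel₀ hne
      linear_combination (norm := ring_nf) -h
    exact (mul_eq_zero.1 this).resolve_left h2
  have : LinearMap.comp (tform f s) A.mulVecLin = 0 := form_ext_pv fun a b => by simpa using hzero a b
  exact LinearMap.congr_fun₂ this (pv x) y

end CfsgLib.SympWreath17
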