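import Cfsg.Agent.SympWreath17.Basic

/-!
Rank one and rank two maps of a symplectic space, and the collapse of a space of coefficients that is
invariant under the products with the rank one maps to a product of maps of the factors.
-/

set_option autoImplicit false
set_option linter.unusedSectionVars false

namespace CfsgLib.SympWreath17

open Matrix Module Function
open CfsgLib.Aschbacher (kroneckerPow kroneckerPow_mul kroneckerPow_one)

variable {F : Type*} [Field F] {k n : ℕ} {f : LinearMap.BilinForm F (Fin k → F)}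

/-- The symmetric rank two map `z ↦ f z v • u + f z u • v`. -/
def hmat (f : LinearMap.BilinForm F (Fin k → F)) (u v : Fin k → F) : Matrix (Fin k) (Fin k) F :=
  nmat f (u + v) - nmat f u - nmat f v

lemma hmat_mulVec (f : LinearMap.BilinForm F (Fin k → F)) (u v z : Fin k → F) :
    hmat f u v *ᵥ z = f z v • u + f z u • v := by
  simp only [hmat, sub_mulVec, nmat_mulVec, map_add]
  module

lemma nmat_zero : nmat f 0 = 0 := by rw [nmat, zero_vecMulVec]

lemma nmat_smul (μ : F) (w : Fin k → F) : nmat f (μ • w) = μ ^ 2 • nmat f w :=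
  ext_of_mulVec_single fun i => by
    simp only [nmat_mulVec, smul_mulVec, map_smul, smul_eq_mul]
    module

section
variable (hf : IsSymp f)
include hf

lemma nmat_sq (w : Fin k → F) : nmat f w * nmat f w = 0 :=
  ext_of_mulVec_single fun i => by
    simp only [← mulVec_mulVec, zero_mulVec, nmat_mulVec, mulVec_smul, hf.alt, zero_smul, smul_zero]

lemma nmat_mul_hmat {u w : Fin k → F} (h : f u w = 1) : nmat f u * hmat f u w = -nmat f u :=
  ext_of_mulVec_single fun i => by
    simp only [← mulVec_mulVec, neg_mulVec, nmat_mulVec, hmat_mulVec, map_add, map_smul,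
      LinearMap.add_apply, LinearMap.smul_apply, hf.alt, hf.skew u w, h, smul_eq_mul]
    module

lemma hmat_mul_nmat {u w : Fin k → F} (h : f u w = 1) : hmat f u w * nmat f u = nmat f u :=
  ext_of_mulVec_single fun i => by
    simp only [← mulVec_mulVec, nmat_mulVec, mulVec_smul, hmat_mulVec, hf.alt, h]
    module

lemma amat_mul_amat {v u u' : Fin k → F} (h1 : f v u = 0) (h2 : f v u' = 0) (h3 : f u u' = 1) :
    amat f v u * amat f v u' = nmat f v ∧ amat f v u' * amat f v u = -nmat f v := by
  have h3' : f u' u = -1 := by rw [hf.skew, h3]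
  have h1' : f u v = 0 := by rw [hf.skew, h1, neg_zero]
  have h2' : f u' v = 0 := by rw [hf.skew, h2, neg_zero]
  constructor <;> refine ext_of_mulVec_single fun i => ?_ <;>
    · simp only [← mulVec_mulVec, neg_mulVec, nmat_mulVec, amat_mulVec, mulVec_sub, mulVec_smul,
        hf.alt, h1, h2, h3, h3', h1', h2']
      module

lemma amat_sq {v u : Fin k → F} (h1 : f v u = 0) : amat f v u * amat f v u = 0 :=
  ext_of_mulVec_single fun i => by
    simp only [← mulVec_mulVec, zero_mulVec, amat_mulVec, mulVec_sub, mulVec_smul, hf.alt, h1,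
      hf.skew v u, neg_zero, zero_smul, smul_zero, sub_zero]

lemma nmat_mul_amat {v u : Fin k → F} (h1 : f v u = 0) : nmat f v * amat f v u = 0 :=
  ext_of_mulVec_single fun i => by
    simp only [← mulVec_mulVec, zero_mulVec, nmat_mulVec, amat_mulVec, map_sub, map_smul,
      LinearMap.sub_apply, LinearMap.smul_apply, hf.alt, hf.skew v u, h1, neg_zero, smul_zero,
      sub_zero, zero_smul]

lemma amat_partner {v u u' : Fin k → F} (h3 : f u u' = 1) (h2 : f v u' = 0) :
    amat f v u *ᵥ u' = -v := by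
  rw [amat_mulVec, hf.skew u u', h3, hf.skew v u', h2, neg_zero, zero_smul, sub_zero, neg_one_smul]

lemma amat_conj {a : GL (Fin k) F} (ha : Isom f a) (u v : Fin k → F) :
    a.val * amat f u v = amat f (a.val *ᵥ u) (a.val *ᵥ v) * a.val :=
  ext_of_mulVec_single fun i => by
    simp only [← mulVec_mulVec, amat_mulVec, mulVec_sub, mulVec_smul, ha _ _]

end

lemma nmat_conj {a : GL (Fin k) F} (ha : Isom f a) (v : Fin k → F) :
    a.val * nmat f v = nmat f (a.val *ᵥ v) * a.val :=
  ext_of_mulVec_single fun i => by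
    simp only [← mulVec_mulVec, nmat_mulVec, mulVec_smul, ha _ _]

/-- A product of a matrix of the first factor and one of the other factors. -/
def kr (A : Matrix (Fin k) (Fin k) F) :
    Matrix (Fin n → Fin k) (Fin n → Fin k) F →ₗ[F]
      Matrix (Fin (n + 1) → Fin k) (Fin (n + 1) → Fin k) F where
  toFun θ := Matrix.of fun p q => A (p 0) (q 0) * θ (Fin.tail p) (Fin.tail q)
  map_add' θ φ := by ext p q; simp [mul_add]
  map_smul' c θ := by ext p q; simp; ring

lemma kr_apply (A : Matrix (Fin k) (Fin k) F) (θ : Matrix (Fin n → Fin k) (Fin n → Fin k) F)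
    (p q : Fin (n + 1) → Fin k) : kr A θ p q = A (p 0) (q 0) * θ (Fin.tail p) (Fin.tail q) := rfl

lemma kr_mul (A A' : Matrix (Fin k) (Fin k) F)
    (θ θ' : Matrix (Fin n → Fin k) (Fin n → Fin k) F) :
    kr A θ * kr A' θ' = kr (A * A') (θ * θ') := by
  ext p q
  let e : Fin k × (Fin n → Fin k) ≃ (Fin (n + 1) → Fin k) := Fin.consEquiv fun _ => Fin k
  rw [Matrix.mul_apply, ← e.sum_comp, Fintype.sum_prod_type, kr_apply, Matrix.mul_apply,
    Matrix.mul_apply, Finset.sum_mul_sum]
  refine Finset.sum_congr rfl fun a _ => Finset.sum_congr rfl fun r _ => ?_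
  simp only [e, kr_apply, Fin.consEquiv, Equiv.coe_fn_mk, Fin.cons_zero, Fin.tail_cons]
  ring

lemma kp_cons (A : Matrix (Fin k) (Fin k) F) (B : Fin n → Matrix (Fin k) (Fin k) F) :
    kroneckerPow (Fin.cons A B) = kr A (kroneckerPow B) := by
  ext p q
  simp only [kr_apply, kroneckerPow, Matrix.of_apply, Fin.prod_univ_succ, Fin.cons_zero,
    Fin.cons_succ]
  rfl

/-- A matrix in one factor. -/
def emb (j : Fin n) (a : Matrix (Fin k) (Fin k) F) : Matrix (Fin n → Fin k) (Fin n → Fin k) F :=
  kroneckerPow (update 1 j a)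

lemma emb_zero (a : Matrix (Fin k) (Fin k) F) : emb (0 : Fin (n + 1)) a = kr a 1 := by
  rw [emb, ← kroneckerPow_one (F := F) (d := k) (t := n), ← kp_cons]
  congr 1
  ext i
  cases i using Fin.cases <;> simp [Fin.succ_ne_zero]

lemma emb_succ (j : Fin n) (a : Matrix (Fin k) (Fin k) F) : emb j.succ a = kr 1 (emb j a) := by
  rw [emb, emb, ← kp_cons, Fin.cons_update]
  congr 1
  ext i
  cases i using Fin.cases <;> simp [update_apply, Fin.succ_inj]

/-- A block with respect to the first factor. -/
def slice (θ : Matrix (Fin (n + 1) → Fin k) (Fin (n + 1) → Fin k) F) (p q : Fin n → Fin k) :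
    Matrix (Fin k) (Fin k) F :=
  Matrix.of fun a b => θ (Fin.cons a p) (Fin.cons b q)

lemma ext_slice {θ φ : Matrix (Fin (n + 1) → Fin k) (Fin (n + 1) → Fin k) F}
    (h : ∀ p q, slice θ p q = slice φ p q) : θ = φ := by
  ext p q
  simpa [slice, Fin.cons_self_tail] using
    congrFun (congrFun (h (Fin.tail p) (Fin.tail q)) (p 0)) (q 0)

lemma slice_sub (θ φ : Matrix (Fin (n + 1) → Fin k) (Fin (n + 1) → Fin k) F) (p q : Fin n → Fin k) :
    slice (θ - φ) p q = slice θ p q - slice φ p q := rfl

lemma slice_kr (A : Matrix (Fin k) (Fin k) F) (θ : Matrix (Fin n → Fin k) (Fin n → Fin k) F)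
    (p q : Fin n → Fin k) : slice (kr A θ) p q = θ p q • A := by
  ext a b
  simp [slice, kr_apply, mul_comm]

lemma slice_emb_mul (a : Matrix (Fin k) (Fin k) F)
    (θ : Matrix (Fin (n + 1) → Fin k) (Fin (n + 1) → Fin k) F) (p q : Fin n → Fin k) :
    slice (emb 0 a * θ) p q = a * slice θ p q := by
  ext x y
  let e : Fin k × (Fin n → Fin k) ≃ (Fin (n + 1) → Fin k) := Fin.consEquiv fun _ => Fin k
  rw [slice, Matrix.of_apply, emb_zero, Matrix.mul_apply, Matrix.mul_apply, ← e.sum_comp,
    Fintype.sum_prod_type]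
  refine Finset.sum_congr rfl fun c _ => ?_
  simp [e, kr_apply, Fin.consEquiv, Matrix.one_apply, slice]

lemma slice_mul_emb (a : Matrix (Fin k) (Fin k) F)
    (θ : Matrix (Fin (n + 1) → Fin k) (Fin (n + 1) → Fin k) F) (p q : Fin n → Fin k) :
    slice (θ * emb 0 a) p q = slice θ p q * a := by
  ext x y
  let e : Fin k × (Fin n → Fin k) ≃ (Fin (n + 1) → Fin k) := Fin.consEquiv fun _ => Fin k
  rw [slice, Matrix.of_apply, emb_zero, Matrix.mul_apply, Matrix.mul_apply, ← e.sum_comp,
    Fintype.sum_prod_type]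
  refine Finset.sum_congr rfl fun c _ => ?_
  simp [e, kr_apply, Fin.consEquiv, Matrix.one_apply, slice]

/-- A matrix of one of the three shapes occurring in collapsed coefficients. -/
def Typed (f : LinearMap.BilinForm F (Fin k → F)) (A : Matrix (Fin k) (Fin k) F) : Prop :=
  A = 1 ∨ (∃ v, v ≠ 0 ∧ A = nmat f v) ∨
    ∃ v u u', v ≠ 0 ∧ f v u = 0 ∧ f v u' = 0 ∧ f u u' = 1 ∧ A = amat f v u

lemma ne_one_of_sq {A : Matrix (Fin k) (Fin k) F} {v : Fin k → F} (hv : v ≠ 0) (h : A * A = 0) :
    A ≠ 1 := fun e => hv (by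
  subst e
  rw [one_mul] at h
  rw [← one_mulVec v, h, zero_mulVec])

lemma mat_scalar_of_eigen {A : Matrix (Fin k) (Fin k) F}
    (h : ∀ v, A *ᵥ v ∈ Submodule.span F ({v} : Set (Fin k → F))) : ∃ c : F, A = c • 1 := by
  rcases Nat.eq_zero_or_pos k with rfl | hk
  · exact ⟨0, Subsingleton.elim _ _⟩
  choose c hc using fun v => Submodule.mem_span_singleton.1 (h v)
  have hent : ∀ v i, (A *ᵥ v) i = c v * v i := fun v i => by rw [← hc v]; rfl
  refine ⟨c (Pi.single ⟨0, hk⟩ 1), ?_⟩
  ext i j
  have hij : ∀ i j, A i j = c (Pi.single j 1) * (1 : Matrix (Fin k) (Fin k) F) i j := fun i j => by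
    have := hent (Pi.single j 1) i
    rwa [mulVec_single_one, Pi.single_apply, ← Matrix.one_apply] at this
  rcases eq_or_ne i j with rfl | hne
  · rcases eq_or_ne i ⟨0, hk⟩ with rfl | hi
    · simpa using hij ⟨0, hk⟩ ⟨0, hk⟩
    set v : Fin k → F := Pi.single i 1 + Pi.single ⟨0, hk⟩ 1
    have h1 := hent v i
    have h2 := hent v ⟨0, hk⟩
    simp only [v, mulVec_add, Pi.add_apply, mulVec_single_one, Matrix.col_apply] at h1 h2
    simp [hij, hi, hi.symm, Matrix.one_apply] at h1 h2
    simp [hij i i, h1, h2, Matrix.one_apply]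
  · rw [hij i j]; simp [hne]

variable (f) in
/-- Invariance under the two products with the rank one maps of each factor. -/
def NInv (T : Submodule F (Matrix (Fin n → Fin k) (Fin n → Fin k) F)) : Prop :=
  ∀ j v, ∀ θ ∈ T, emb j (nmat f v) * θ - θ * emb j (nmat f v) ∈ T ∧
    emb j (nmat f v) * θ * emb j (nmat f v) ∈ T

lemma NInv.comap {T : Submodule F (Matrix (Fin (n + 1) → Fin k) (Fin (n + 1) → Fin k) F)}
    (hT : NInv f T) (A : Matrix (Fin k) (Fin k) F) : NInv f (T.comap (kr A)) := by
  intro j v θ hθ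
  obtain ⟨h1, h2⟩ := hT j.succ v (kr A θ) hθ
  simp only [emb_succ, kr_mul, one_mul, mul_one] at h1 h2
  exact ⟨by simpa [map_sub] using h1, h2⟩

/-- The collapse of an invariant space of coefficients. -/
theorem exists_typed (hf : IsSymp f) : ∀ (n : ℕ)
    (T : Submodule F (Matrix (Fin n → Fin k) (Fin n → Fin k) F)), NInv f T →
    ∀ θ ∈ T, (¬ ∃ c : F, θ = c • 1) →
    ∃ B : Fin n → Matrix (Fin k) (Fin k) F, kroneckerPow B ∈ T ∧ (∀ j, Typed f (B j)) ∧
      ∃ j, B j ≠ 1
  | 0, T, _, θ, _, hns => by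
    refine absurd ⟨θ default default, ?_⟩ hns
    ext p q
    rw [Subsingleton.elim p default, Subsingleton.elim q default]
    simp
  | n + 1, T, hT, θ, hθ, hns => by
    -- finish from one collapsed factor
    have done : ∀ A, Typed f A → A ≠ 1 → ∀ θ' : Matrix (Fin n → Fin k) (Fin n → Fin k) F,
        θ' ≠ 0 → kr A θ' ∈ T → ∃ B : Fin (n + 1) → Matrix (Fin k) (Fin k) F,
          kroneckerPow B ∈ T ∧ (∀ j, Typed f (B j)) ∧ ∃ j, B j ≠ 1 := by
      intro A hA hA1 θ' hθ' hmem
      by_cases hsc : ∃ c : F, θ' = c • 1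
      · obtain ⟨c, rfl⟩ := hsc
        have hc : c ≠ 0 := fun h => hθ' (by rw [h, zero_smul])
        refine ⟨Fin.cons A fun _ => 1, ?_, ?_, 0, by simpa using hA1⟩
        · have := T.smul_mem c⁻¹ hmem
          rw [map_smul, inv_smul_smul₀ hc] at this
          rwa [kp_cons, kroneckerPow_one]
        · exact Fin.cases (by simpa using hA) fun i => Or.inl (by simp)
      · obtain ⟨B, hB, hty, -⟩ := exists_typed hf n _ (hT.comap A) θ' hmem hsc
        exact ⟨Fin.cons A B, by rwa [kp_cons], Fin.cases (by simpa using hA) (by simpa using hty),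
          0, by simpa using hA1⟩
    by_cases hA : ∃ p q v, f (slice θ p q *ᵥ v) v ≠ 0
    · obtain ⟨p, q, v, hne⟩ := hA
      have hv : v ≠ 0 := fun h => hne (by rw [h, map_zero])
      refine done (nmat f v) (Or.inr (Or.inl ⟨v, hv, rfl⟩)) (ne_one_of_sq hv (nmat_sq hf v))
        (Matrix.of fun p q => f (slice θ p q *ᵥ v) v) (fun h => hne (congrFun (congrFun h p) q)) ?_
      convert (hT 0 v θ hθ).2 using 1
      refine ext_slice fun p q => ?_
      rw [slice_kr, slice_mul_emb, slice_emb_mul]
      refine ext_of_mulVec_single fun i => ?_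
      simp only [smul_mulVec, ← mulVec_mulVec, nmat_mulVec, mulVec_smul, smul_smul, Matrix.of_apply]
      rw [mul_comm]
    push Not at hA
    have hsa : ∀ p q x y, f (slice θ p q *ᵥ x) y = f x (slice θ p q *ᵥ y) := by
      intro p q x y
      have h := hA p q (x + y)
      simp only [mulVec_add, map_add, LinearMap.add_apply, hA p q x, hA p q y, zero_add,
        add_zero] at h
      rw [hf.skew (slice θ p q *ᵥ y) x]
      linear_combination h
    by_cases hB : ∃ p q v, slice θ p q *ᵥ v ∉ Submodule.span F ({v} : Set (Fin k → F))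
    · obtain ⟨p, q, v, hnm⟩ := hB
      set a := slice θ p q *ᵥ v with ha
      have hv : v ≠ 0 := fun h => hnm (by rw [ha, h, mulVec_zero]; exact zero_mem _)
      obtain ⟨y, hy⟩ := hf.exists_one hv
      obtain ⟨u, hu, hau⟩ : ∃ u, f v u = 0 ∧ f a u ≠ 0 := by
        by_contra! hc
        refine hnm (Submodule.mem_span_singleton.2 ⟨f a y, ?_⟩)
        refine (sub_eq_zero.1 (hf.nd _ fun z => ?_)).symm
        have := hc (z - f v z • y) (by simp [hy])
        simp only [map_sub, map_smul, smul_eq_mul] at this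
        simp only [map_sub, LinearMap.sub_apply, map_smul, LinearMap.smul_apply, smul_eq_mul]
        linear_combination this
      have hva : f v a = 0 := by rw [hf.skew, ha, hA p q v, neg_zero]
      have hua : f u a ≠ 0 := hf.ne_zero_comm hau
      have hty : Typed f (amat f v u) := Or.inr (Or.inr ⟨v, u, (f u a)⁻¹ • a, hv, hu,
        by simp [hva], by simp [inv_mul_cancel₀ hua], rfl⟩)
      refine done (amat f v u) hty (ne_one_of_sq hv (amat_sq hf hu))
        (Matrix.of fun p q => f (slice θ p q *ᵥ v) u) (fun h => hau (congrFun (congrFun h p) q)) ?_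
      convert (hT 0 u _ (hT 0 v θ hθ).1).1 using 1
      refine ext_slice fun p q => ?_
      simp only [slice_kr, slice_sub, slice_emb_mul, slice_mul_emb]
      refine ext_of_mulVec_single fun i => ?_
      set z : Fin k → F := Pi.single i 1
      simp only [smul_mulVec, amat_mulVec, sub_mulVec, mulVec_sub, ← mulVec_mulVec, nmat_mulVec,
        mulVec_smul, Matrix.of_apply, hu, hf.skew v u, neg_zero, zero_smul, smul_sub, smul_smul,
        mulVec_zero, smul_zero]
      rw [show f (slice θ p q *ᵥ u) v = -f (slice θ p q *ᵥ v) u by rw [hsa, hf.skew]]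
      module
    push Not at hB
    choose c hc using fun p q => mat_scalar_of_eigen (hB p q)
    have hθe : θ = kr 1 (Matrix.of c) := ext_slice fun p q => by rw [slice_kr, hc]; rfl
    have hns' : ¬ ∃ d : F, Matrix.of c = d • 1 := by
      rintro ⟨d, hd⟩
      refine hns ⟨d, ?_⟩
      rw [hθe, hd, map_smul, ← kroneckerPow_one, ← kp_cons, ← kroneckerPow_one]
      congr 2
      exact funext (Fin.cases rfl fun _ => rfl)
    obtain ⟨B, hB', hty, j, hj⟩ :=
      exists_typed hf n _ (hT.comap 1) (Matrix.of c) (by show kr 1 _ ∈ T; rw [← hθe]; exact hθ) hns'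
    exact ⟨Fin.cons 1 B, by rwa [kp_cons], Fin.cases (Or.inl (by simp)) (by simpa using hty),
      j.succ, by simpa using hj⟩

end CfsgLib.SympWreath17
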