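import Cfsg.Agent.SympWreath17.Pairing
import Cfsg.Agent.SympWreath17.Plane

/-!
A member and a conjugate of a member in general position, factors of dimension two: the group of
the two root groups contains a torus, and the conjugate is a member.
-/

set_option autoImplicit false
set_option linter.unusedSectionVars false

namespace CfsgLib.SympWreath17

open Matrix Module
open CfsgLib.TensorMax (InM memb mem_memb pure_mem_memb exists_dual pureL pureL_injective)
open CfsgLib.WreathTensor14 (TV slot)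
open scoped MatrixGroups

local notation "⟪" u "⊗" w "⟫" => TensorMax.pure u w

variable {F : Type*} [Field F] {k s : ℕ} {f : LinearMap.BilinForm F (Fin k → F)}
  {M : Subgroup (Matrix (Fin s → Fin k) (Fin k) F ≃ₗ[F] Matrix (Fin s → Fin k) (Fin k) F)}

/-- A matrix in the coordinates of a hyperbolic pair. -/
lemma pair_decomp (hf : IsSymp f) (hk : k = 2) {w z : Fin k → F} (hwz : f w z = 1)
    (X : Matrix (Fin s → Fin k) (Fin k) F) :
    X = ⟪(sctr f z X)⊗w⟫ - ⟪(sctr f w X)⊗z⟫ := by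
  have hY : X = ∑ j, ⟪(X *ᵥ Pi.single j 1)⊗(Pi.single j (1 : F))⟫ := by
    ext i m; simp [Matrix.sum_apply, TensorMax.pure, vecMulVec_apply, Pi.single_apply]
  let L : Matrix (Fin s → Fin k) (Fin k) F →ₗ[F] Matrix (Fin s → Fin k) (Fin k) F :=
    pureL w ∘ₗ sctr f z - pureL z ∘ₗ sctr f w
  change X = L X
  have key : ∀ (u : TV F k s) v, ⟪u⊗v⟫ = L ⟪u⊗v⟫ := fun u v => by
    conv_lhs => rw [plane_eq hf hk hwz v]
    simp only [L, LinearMap.sub_apply, LinearMap.comp_apply, TensorMax.pureL_apply, sctr_pure,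
      pure_sub_right, pure_smul_right, pure_smul_left]
  rw [hY, map_sum]
  exact Finset.sum_congr rfl fun j _ => key _ _

lemma mem_memb_iff_two (hf : IsSymp f) (hk : k = 2) {w z : Fin k → F} (hwz : f w z = 1)
    (X : Matrix (Fin s → Fin k) (Fin k) F) : X ∈ memb w ↔ sctr f w X = 0 := by
  refine ⟨fun h => ?_, fun h => ?_⟩
  · obtain ⟨x, rfl⟩ := mem_memb.1 h
    rw [sctr_pure, hf.alt, zero_smul]
  · rw [pair_decomp hf hk hwz X, h, TensorMax.pure_zero_left, sub_zero]
    exact pure_mem_memb _ _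

/-- An element fixing a member pointwise and inducing the identity on the quotient is a root
element. -/
lemma Sctx.eq_root_of_fix (hM : Sctx f M) (hk : k = 2) (hr : ∃ r : F, r ≠ 0 ∧ r ^ 2 ≠ 1)
    {w z : Fin k → F} (hwz : f w z = 1) (hw : w ≠ 0)
    {e : Matrix (Fin s → Fin k) (Fin k) F ≃ₗ[F] Matrix (Fin s → Fin k) (Fin k) F} (he : e ∈ M)
    (hfix : ∀ u, e ⟪u⊗w⟫ = ⟪u⊗w⟫) (hctr : ∀ X, sctr f w (e X) = sctr f w X) :
    ∃ c : F, ∀ X, e X = X + c • sroot f 1 w X := by
  have hf := hM.symp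
  have : Nonempty (Fin k) := ⟨⟨0, by omega⟩⟩
  obtain ⟨α, β, hαβ⟩ := hM.split_two hk hr hw he fun u => by rw [hfix]; exact pure_mem_memb _ _
  obtain ⟨η, hη⟩ := exists_dual hw
  set κ := β w ⬝ᵥ η
  have hα : ∀ u, κ • α u = u := fun u => by
    have := congrArg (fun X => X *ᵥ η) ((hαβ u w).symm.trans (hfix u))
    simpa [TensorMax.pure_mulVec, hη, κ] using this
  obtain ⟨u₀, hu₀⟩ := exists_ne (0 : TV F k s)
  have hκ : κ ≠ 0 := fun h0 => hu₀ (by rw [← hα u₀, h0, zero_smul])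
  have heq : ∀ u v, e ⟪u⊗v⟫ = ⟪u⊗(κ⁻¹ • β v)⟫ := fun u v => by
    conv_rhs => rw [← hα u]
    rw [hαβ, pure_smul_left, pure_smul_right, smul_smul, mul_inv_cancel₀ hκ, one_smul]
  obtain ⟨ξ, hξ⟩ := exists_dual hu₀
  have hcancel : ∀ x y : Fin k → F, ⟪u₀⊗x⟫ = ⟪u₀⊗y⟫ → x = y := fun x y hxy => by
    have := congrArg (fun X => ξ ᵥ* X) hxy
    simp only [TensorMax.pure, vecMul_vecMulVec, dotProduct_comm ξ, hξ, one_smul] at this
    exact this
  have hBw : κ⁻¹ • β w = w := hcancel _ _ (by rw [← heq, hfix])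
  have hBf : ∀ v, f (κ⁻¹ • β v) w = f v w := fun v => by
    have := congrArg (fun x => x ⬝ᵥ ξ) (hctr ⟪u₀⊗v⟫)
    simp only [heq, sctr_pure, smul_dotProduct, hξ, smul_eq_mul, mul_one] at this
    exact this
  set c := -f (κ⁻¹ • β z) z with hc
  have hBz : κ⁻¹ • β z = z - c • w := by
    rw [plane_eq hf hk hwz (κ⁻¹ • β z), hBf, hc, hf.skew w z, hwz]
    module
  refine ⟨c, fun X => ?_⟩
  rw [sroot_apply, one_mulVec]
  conv_lhs => rw [pair_decomp hf hk hwz X]
  rw [map_sub, hfix, heq, hBz, pure_sub_right, pure_smul_right]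
  conv_rhs => arg 1; rw [pair_decomp hf hk hwz X]
  module

universe v in
/-- The algebra of one endomorphism, as an abstract commutative ring. -/
lemma exists_commAlg {V : Type v} [AddCommGroup V] [Module F V] (SC : Module.End F V) :
    ∃ (R : Type v) (_ : CommRing R) (_ : Algebra F R) (ι : R →ₐ[F] Module.End F V) (σ : R),
      Function.Injective ι ∧ ι σ = SC := by
  set R := Algebra.adjoin F ({SC} : Set (Module.End F V))
  let : CommRing R := { (inferInstance : Ring R) with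
    mul_comm := fun x y => Subtype.ext (congrArg Subtype.val
      ((Algebra.isMulCommutative_adjoin_singleton F SC).is_comm.comm x y)) }
  exact ⟨R, inferInstance, R.algebra, R.val, ⟨SC, Algebra.subset_adjoin (Set.mem_singleton SC)⟩,
    Subtype.val_injective, rfl⟩

namespace Meet

variable {w : Fin k → F} {T : Submodule F (Matrix (Fin s → Fin k) (Fin k) F)}
  {P : Matrix (Fin s → Fin k) (Fin k) F →ₗ[F] Matrix (Fin s → Fin k) (Fin k) F}
  (h : Meet f M w T P)
include h

set_option maxHeartbeats 1000000 in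
/-- In general position the conjugate of a member is a member, factors of dimension two. -/
theorem two_dim [Finite F] (hM : Sctx f M) (hk : k = 2) (hr : ∃ r : F, r ≠ 0 ∧ r ^ 2 ≠ 1)
    (big : ∀ g ∈ M, finrank F (memb w ⊓ T : Submodule F (Matrix (Fin s → Fin k) (Fin k) F)) <
        finrank F ((memb w).map g.toLinearMap ⊓ memb w :
          Submodule F (Matrix (Fin s → Fin k) (Fin k) F)) →
      ∀ u ∈ memb w, g (sroot f 1 w (g.symm u)) ∈ memb w) :
    ∃ z, f w z = 1 ∧ T ≤ memb z := by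
  classical
  have hf := hM.symp
  have hw := h.ne_zero
  have : Nonempty (Fin k) := ⟨⟨0, by omega⟩⟩
  have : Finite (Matrix (Fin s → Fin k) (Fin k) F ≃ₗ[F] Matrix (Fin s → Fin k) (Fin k) F) :=
    Finite.of_injective (fun g => (g : Matrix (Fin s → Fin k) (Fin k) F → Matrix (Fin s → Fin k) (Fin k) F))
      DFunLike.coe_injective
  obtain ⟨z, hwz⟩ := hf.exists_one hw
  set U : Submodule F (Matrix (Fin s → Fin k) (Fin k) F) := memb w with hU
  set W₀ := T ⊔ U with hW₀
  set N := sroot f (1 : Matrix (Fin s → Fin k) (Fin s → Fin k) F) w with hNdef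
  have hN : ∀ Y, N Y = ⟪(sctr f w Y)⊗w⟫ := fun Y => by rw [hNdef, sroot_apply, one_mulVec]
  have hUiff : ∀ Y, Y ∈ U ↔ sctr f w Y = 0 := mem_memb_iff_two hf hk hwz
  have hNN : ∀ Y, N (N Y) = 0 := fun Y => NU hM (imN Y)
  have hsurj : ∀ x : TV F k s, sctr f w ⟪(-x)⊗z⟫ = x := fun x => by
    rw [sctr_pure, hf.skew w z, hwz]; module
  set C := T.map (sctr f w) with hC
  let Φ₁ : Matrix (Fin s → Fin k) (Fin k) F →ₗ[F] C :=
    (sctr f w ∘ₗ P).codRestrict C fun Y => Submodule.mem_map_of_mem (h.imP Y)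
  have hΦ₁ : ∀ Y, (Φ₁ Y : TV F k s) = sctr f w (P Y) := fun Y => rfl
  let Φ₂ := Φ₁ ∘ₗ N
  set SC : Module.End F C := Φ₁ ∘ₗ pureL w ∘ₗ C.subtype with hSC
  have hSC' : ∀ c : C, SC c = Φ₁ ⟪(c : TV F k s)⊗w⟫ := fun c => rfl
  -- the complement
  have hEC : ∀ e : TV F k s, ⟪e⊗w⟫ ∈ T → e ∈ C → e = 0 := fun e he hc => by
    obtain ⟨t, ht, rfl⟩ := Submodule.mem_map.1 hc
    have := h.backT t ht (by rw [← hNdef, hN]; exact he)
    exact (hUiff t).1 this
  have hΦU : ∀ u ∈ U, Φ₁ u = 0 → u ∈ T := fun u hu h0 =>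
    h.backU u hu ((hUiff _).2 (congrArg Subtype.val h0))
  have hSCinj : Function.Injective SC := by
    rw [← LinearMap.ker_eq_bot, LinearMap.ker_eq_bot']
    exact fun c hc => Subtype.ext (hEC _ (hΦU _ (pure_mem_memb _ _) hc) c.2)
  have hSCsurj : Function.Surjective SC := LinearMap.surjective_of_injective hSCinj
  have hexU : ∀ c : C, ∃ u ∈ U, Φ₁ u = c := fun c => by
    obtain ⟨x, rfl⟩ := hSCsurj c
    exact ⟨_, pure_mem_memb _ _, (hSC' x).symm⟩
  have hΦ₂U : ∀ u ∈ U, Φ₂ u = 0 := fun u hu => by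
    simp only [Φ₂, LinearMap.comp_apply, NU hM hu, hNdef, map_zero]
  have hΦ₂SC : ∀ Y, ∀ hc : sctr f w Y ∈ C, Φ₂ Y = SC ⟨_, hc⟩ := fun Y hc => by
    simp only [Φ₂, LinearMap.comp_apply, hN, hSC']
  have hctrC : ∀ Y ∈ W₀, sctr f w Y ∈ C := fun Y hY => by
    obtain ⟨t, ht, u, hu, rfl⟩ := Submodule.mem_sup.1 hY
    rw [map_add, (hUiff u).1 hu, add_zero]
    exact Submodule.mem_map_of_mem ht
  have hΦ₂0 : ∀ Y ∈ W₀, Φ₂ Y = 0 → Y ∈ U := fun Y hY h0 => by
    rw [hΦ₂SC Y (hctrC Y hY), ← map_zero SC] at h0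
    exact (hUiff Y).2 (congrArg Subtype.val (hSCinj h0))
  have hexW : ∀ c₁ c₂ : C, ∃ Y ∈ W₀, Φ₁ Y = c₁ ∧ Φ₂ Y = c₂ := fun c₁ c₂ => by
    obtain ⟨u, hu, hu'⟩ := hexU c₁
    obtain ⟨x, rfl⟩ := hSCsurj c₂
    obtain ⟨t, ht, hx⟩ := Submodule.mem_map.1 x.2
    refine ⟨t + u, Submodule.add_mem_sup ht hu, ?_, ?_⟩
    · have : Φ₁ t = 0 := Subtype.ext (by rw [hΦ₁, h.PT ht, map_zero]; rfl)
      rw [map_add, this, zero_add, hu']
    · rw [map_add, hΦ₂U u hu, add_zero, hΦ₂SC t (hx ▸ x.2)]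
      exact congrArg SC (Subtype.ext hx)
  -- the algebra
  obtain ⟨R, _, _, ι, σ, hι, hισ⟩ := exists_commAlg SC
  have : Finite (Module.End F C) := Module.finite_of_finite F
  have : Finite R := Finite.of_injective ι hι
  have hσR : ∀ (m : R) (c : C), SC (ι m c) = ι m (SC c) := fun m c => by
    rw [← hισ, ← Module.End.mul_apply, ← Module.End.mul_apply, ← map_mul, ← map_mul, mul_comm]
  have hunit : ∀ m : R, Function.Injective (ι m) → IsUnit m := fun m hm => by
    obtain ⟨m', hm'⟩ := (Finite.injective_iff_surjective.1 (fun x y hxy => hι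
      (LinearMap.ext fun c => hm (by
        have := congrArg (fun x : R => ι x c) hxy
        simpa [map_mul] using this))) : Function.Surjective fun x : R => m * x) 1
    exact IsUnit.of_mul_eq_one m' hm'
  obtain ⟨t₀, ht₀, ht₀U⟩ : ∃ t ∈ T, t ∉ U := by
    by_contra! h0
    exact h.not_le h0
  have : Nontrivial C := ⟨⟨⟨_, Submodule.mem_map_of_mem ht₀⟩, 0,
    fun h0 => ht₀U ((hUiff _).2 (congrArg Subtype.val h0))⟩⟩
  have : Nontrivial R := ⟨⟨1, 0, fun h0 => one_ne_zero (α := Module.End F C) (by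
    rw [← map_one ι, h0, map_zero])⟩⟩
  have hscal : ∀ (a : F) (c : C), ι (algebraMap F R a) c = a • c := fun a c => by
    rw [ι.commutes]; rfl
  have hRext : ∀ (p q : R), (∀ c, ι p c = ι q c) → p = q := fun p q h0 =>
    hι (LinearMap.ext h0)
  -- the pairs
  let good : (Matrix (Fin s → Fin k) (Fin k) F ≃ₗ[F] Matrix (Fin s → Fin k) (Fin k) F) × SL(2, R) →
      Prop := fun p => p.1 ∈ M ∧ (∀ Y, p.1 Y - Y ∈ W₀) ∧ (∀ Y ∈ U ⊓ T, p.1 Y = Y) ∧
    ∀ Y ∈ W₀, Φ₁ (p.1 Y) = ι (p.2 0 0) (Φ₁ Y) + ι (p.2 0 1) (Φ₂ Y) ∧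
      Φ₂ (p.1 Y) = ι (p.2 1 0) (Φ₁ Y) + ι (p.2 1 1) (Φ₂ Y)
  have hinv : ∀ p, good p → ∀ Y ∈ W₀, p.1 Y ∈ W₀ := fun p hp Y hY => by
    have := W₀.add_mem (hp.2.1 Y) hY
    rwa [sub_add_cancel] at this
  have hgood_mul : ∀ x y, good x → good y → good (x * y) := by
    intro x y hx hy
    refine ⟨M.mul_mem hx.1 hy.1, fun Y => ?_, fun Y hY => ?_, fun Y hY => ?_⟩
    · have := W₀.add_mem (hx.2.1 (y.1 Y)) (hy.2.1 Y)
      rw [sub_add_sub_cancel] at this
      exact this
    · rw [Prod.fst_mul, LinearEquiv.mul_apply, hy.2.2.1 Y hY, hx.2.2.1 Y hY]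
    · obtain ⟨f1, f2⟩ := hy.2.2.2 Y hY
      obtain ⟨g1, g2⟩ := hx.2.2.2 _ (hinv y hy Y hY)
      rw [f1, f2] at g1 g2
      refine ⟨g1.trans ?_, g2.trans ?_⟩ <;>
      · simp only [Prod.snd_mul, Matrix.SpecialLinearGroup.coe_mul, Matrix.mul_apply,
          Fin.sum_univ_two, LinearMap.add_apply, map_mul, Module.End.mul_apply, map_add]
        abel
  have hgood_one : good 1 :=
    ⟨M.one_mem, fun Y => by simp, fun Y _ => rfl, fun Y _ => ⟨by simp, by simp⟩⟩
  let mX : F → SL(2, R) := fun c => ⟨!![1, algebraMap F R c; 0, 1], by simp [Matrix.det_fin_two]⟩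
  let mY : F → SL(2, R) := fun c => ⟨!![1, 0; algebraMap F R c * σ, 1], by simp [Matrix.det_fin_two]⟩
  choose eX heX heXY using fun c : F => hM.inM_root_one c w
  choose eY heY heYY using h.inP
  have heXY' : ∀ c Y, eX c Y = Y + c • N Y := fun c Y => by
    rw [heXY, hN, sroot_apply, smul_mulVec, one_mulVec, pure_smul_left]
  have hgX : ∀ c, good (eX c, mX c) := fun c => by
    refine ⟨heX c, fun Y => ?_, fun Y hY => ?_, fun Y hY => ?_⟩
    · rw [heXY', add_sub_cancel_left]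
      exact Submodule.mem_sup_right (U.smul_mem _ (imN Y))
    · rw [heXY', hNdef, NU hM hY.1, smul_zero, add_zero]
    · simp only [heXY', map_add, map_smul, mX, Φ₂, LinearMap.comp_apply, hNN, map_zero, smul_zero,
        add_zero]
      exact ⟨by simp [hscal], by simp⟩
  have hgY : ∀ c, good (eY c, mY c) := fun c => by
    refine ⟨heY c, fun Y => ?_, fun Y hY => ?_, fun Y hY => ?_⟩
    · rw [heYY, add_sub_cancel_left]
      exact Submodule.mem_sup_left (h.imP _ |> fun e => by simpa using T.smul_mem c e)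
    · rw [heYY, LinearMap.smul_apply, h.PT hY.2, smul_zero, add_zero]
    · have e1 : Φ₁ (P Y) = 0 := Subtype.ext (by rw [hΦ₁, h.PT (h.imP Y), map_zero]; rfl)
      have e2 : Φ₂ (P Y) = SC (Φ₁ Y) := hΦ₂SC _ (Φ₁ Y).2
      simp only [heYY, LinearMap.smul_apply, map_add, map_smul, mY, e1, e2, smul_zero, add_zero]
      exact ⟨by simp, by simp [hscal, hισ, add_comm]⟩
  set Γ := Subgroup.closure
    (Set.range (fun c => (eX c, mX c)) ∪ Set.range (fun c => (eY c, mY c))) with hΓdef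
  have hΓ : ∀ p ∈ Γ, good p := by
    intro p hp
    induction hp using Subgroup.closure_induction with
    | mem x hx => rcases hx with ⟨c, rfl⟩ | ⟨c, rfl⟩; exacts [hgX c, hgY c]
    | one => exact hgood_one
    | mul x y _ _ h1 h2 => exact hgood_mul x y h1 h2
    | inv x _ h1 =>
      have hpow : ∀ n : ℕ, good (x ^ n) := fun n => by
        induction n with
        | zero => rw [pow_zero]; exact hgood_one
        | succ n ih => rw [pow_succ]; exact hgood_mul _ _ ih h1
      rw [inv_eq_of_mul_eq_one_left (a := x ^ (orderOf x - 1)) (b := x) (by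
        rw [← pow_succ, Nat.sub_add_cancel (orderOf_pos x), pow_orderOf_eq_one])]
      exact hpow _
  let τ : Γ →* SL(2, R) := (MonoidHom.snd _ _).comp Γ.subtype
  have hstab : ∀ p, good p → p.2 1 0 = 0 → (∀ u ∈ U, p.1 u ∈ U) ∧
      ∃ (P' V : TV F k s ≃ₗ[F] TV F k s) (a : F), a ≠ 0 ∧ (∀ u, P' u = a • V u) ∧
        (∀ u, p.1 ⟪u⊗w⟫ = ⟪(P' u)⊗w⟫) ∧ (∀ X, sctr f w (p.1 X) = V (sctr f w X)) ∧
        (∀ c : C, V c = ι (p.2 1 1) c) ∧ p.2 0 0 = algebraMap F R a * p.2 1 1 := by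
    intro p hp h0
    have hU' : ∀ u ∈ U, p.1 u ∈ U := fun u hu => by
      have hW : u ∈ W₀ := Submodule.mem_sup_right hu
      refine hΦ₂0 _ (hinv p hp u hW) ?_
      rw [(hp.2.2.2 u hW).2, h0, hΦ₂U u hu]
      simp only [map_zero, LinearMap.zero_apply, add_zero]
    refine ⟨hU', ?_⟩
    obtain ⟨P', V, a, ha, hPV, hP', hV⟩ :=
      hM.stab_data hw hp.1 fun u => hU' _ (pure_mem_memb u w)
    have hVC : ∀ c : C, V c = ι (p.2 1 1) c := fun c => by
      obtain ⟨t, ht, htc⟩ := Submodule.mem_map.1 c.2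
      have hW : t ∈ W₀ := Submodule.mem_sup_left ht
      have e := (hp.2.2.2 t hW).2
      rw [h0, hΦ₂SC _ (hctrC _ (hinv p hp t hW)), hΦ₂SC t (hctrC t hW)] at e
      simp only [map_zero, LinearMap.zero_apply, zero_add, ← hσR] at e
      have := congrArg Subtype.val (hSCinj e)
      simp only [hV, htc] at this
      rw [this]
    refine ⟨P', V, a, ha, hPV, hP', hV, hVC, hRext _ _ fun d => ?_⟩
    obtain ⟨c, rfl⟩ := hSCsurj d
    have e := (hp.2.2.2 _ (Submodule.mem_sup_right (pure_mem_memb (c : TV F k s) w))).1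
    rw [hΦ₂U _ (pure_mem_memb _ _), map_zero, add_zero, hP', hPV, hVC, ← hSC',
      ← Submodule.coe_smul, ← hSC'] at e
    rw [← e, ← hscal]
    simp only [map_mul, Module.End.mul_apply]
    rw [hσR, hσR]
  -- the square of an element of ratio one
  have hsq : ∀ p, good p → p.2 1 0 = 0 → p.2 0 0 = p.2 1 1 →
      ∃ c : F, (∀ X, p.1 (p.1 X) = X + c • N X) ∧
        ((p * p).2 : Matrix (Fin 2) (Fin 2) R) = !![1, algebraMap F R c; 0, 1] := by
    intro p hp h0 heq
    obtain ⟨hU', P', V, a, ha, hPV, hP', hV, hVC, hm⟩ := hstab p hp h0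
    have hdet : p.2 0 0 * p.2 1 1 = 1 := by
      have := p.2.2
      rw [Matrix.det_fin_two, h0, mul_zero, sub_zero] at this
      exact this
    have ha1 : a = 1 := by
      have hu : IsUnit (p.2 1 1) := IsUnit.of_mul_eq_one (p.2 0 0) (by rw [mul_comm]; exact hdet)
      rw [heq] at hm
      refine (algebraMap F R).injective ?_
      rw [map_one]
      exact hu.mul_right_cancel (by rw [one_mul]; exact hm.symm)
    subst ha1
    simp only [one_smul] at hPV
    have hVV : ∀ x, V (V x) = x := by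
      have hE : ∀ e, ⟪e⊗w⟫ ∈ T → V e = e := fun e he => pureL_injective hw (by
        rw [TensorMax.pureL_apply, TensorMax.pureL_apply, ← hPV, ← hP',
          hp.2.2.1 _ ⟨pure_mem_memb _ _, he⟩])
      have hsum : T.comap (pureL w) ⊔ C = ⊤ := by
        refine Submodule.eq_top_of_disjoint _ _ ?_ ?_
        · have hr' : finrank F C + finrank F (U ⊓ T : Submodule F _) = finrank F T := by
            have e := ((sctr f w).domRestrict T).finrank_range_add_finrank_ker
            rw [LinearMap.range_domRestrict, LinearMap.ker_domRestrict] at e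
            have e' : LinearMap.ker (sctr f w) = U := by ext Y; rw [LinearMap.mem_ker, hUiff]
            have e'' : finrank F (Submodule.comap T.subtype U) = finrank F (U ⊓ T : Submodule F _) := by
              rw [(Submodule.equivMapOfInjective T.subtype (Submodule.injective_subtype _) _).finrank_eq,
                Submodule.map_comap_subtype, inf_comm]
            rw [e'] at e
            rw [← e'']
            exact e
          have hd : finrank F (T.comap (pureL w)) = finrank F (U ⊓ T : Submodule F _) := by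
            rw [(Submodule.equivMapOfInjective (pureL w) (pureL_injective hw) _).finrank_eq,
              Submodule.map_comap_eq]
            rfl
          rw [hd, finrank_fintype_fun_eq_card, ← h.dimT, ← hr']
          omega
        · rw [Submodule.disjoint_def]
          exact fun e he hc => hEC e he hc
      intro x
      obtain ⟨e, he, c, hc, rfl⟩ := Submodule.mem_sup.1 (hsum.ge (Submodule.mem_top (x := x)))
      have hc2 : V (V c) = c := by
        rw [show c = ((⟨c, hc⟩ : C) : TV F k s) from rfl, hVC, hVC]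
        congr 1
        have h11 : p.2 1 1 * p.2 1 1 = 1 := (congrArg (· * _) heq.symm).trans hdet
        rw [← Module.End.mul_apply, ← map_mul, h11, map_one]
        rfl
      rw [map_add, map_add, hE e he, hE e he, hc2]
    obtain ⟨c, hc⟩ := hM.eq_root_of_fix hk hr hwz hw (M.mul_mem hp.1 hp.1)
      (fun u => by rw [LinearEquiv.mul_apply, hP', hP', hPV, hPV, hVV])
      (fun X => by rw [LinearEquiv.mul_apply, hV, hV, hVV])
    refine ⟨c, hc, ?_⟩
    have hq := hgood_mul p p hp hp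
    have hd : ∀ c₁ c₂ : C, c₁ + c • c₂ = ι ((p * p).2 0 0) c₁ + ι ((p * p).2 0 1) c₂ ∧
        c₂ = ι ((p * p).2 1 0) c₁ + ι ((p * p).2 1 1) c₂ := fun c₁ c₂ => by
      obtain ⟨Y, hY, rfl, rfl⟩ := hexW c₁ c₂
      have h2 : Φ₂ ((p * p).1 Y) = Φ₂ Y := by
        rw [Prod.fst_mul, hc]; simp [Φ₂, hNdef.symm, hNN]
      have h1 : Φ₁ ((p * p).1 Y) = Φ₁ Y + c • Φ₂ Y := by
        rw [Prod.fst_mul, hc]; simp [Φ₂, hNdef.symm]
      exact ⟨h1.symm.trans (hq.2.2.2 Y hY).1, h2.symm.trans (hq.2.2.2 Y hY).2⟩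
    ext i j : 1
    fin_cases i <;> fin_cases j
    · exact hRext _ _ fun d => by simpa using ((hd d 0).1).symm
    · exact hRext _ _ fun d => by simpa [hscal] using ((hd 0 d).1).symm
    · exact hRext _ _ fun d => by simpa using ((hd d 0).2).symm
    · exact hRext _ _ fun d => by simpa using ((hd 0 d).2).symm
  -- non-unit lower entries vanish
  have hS : ∀ g : Γ, ¬ IsUnit ((τ g : Matrix (Fin 2) (Fin 2) R) 1 0) →
      (τ g : Matrix (Fin 2) (Fin 2) R) 1 0 = 0 := by
    rintro ⟨p, hp⟩ hnu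
    change p.2 1 0 = 0
    replace hnu : ¬ IsUnit (p.2 1 0) := hnu
    have hg := hΓ p hp
    obtain ⟨c, hc0, hc⟩ : ∃ c : C, c ≠ 0 ∧ ι (p.2 1 0) c = 0 := by
      by_contra! h0
      refine hnu (hunit _ ((injective_iff_map_eq_zero _).2 fun c hc => ?_))
      by_contra hne
      exact h0 c hne hc
    obtain ⟨u, hu, huc⟩ := hexU c
    have hpu : p.1 u ∈ U := by
      have hW : u ∈ W₀ := Submodule.mem_sup_right hu
      refine hΦ₂0 _ (hinv p hg u hW) ?_
      rw [(hg.2.2.2 u hW).2, huc, hc, hΦ₂U u hu, map_zero, add_zero]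
    have hbig := big p.1 hg.1 (Submodule.finrank_lt_finrank_of_lt (SetLike.lt_iff_le_and_exists.2
      ⟨fun Y hY => ⟨⟨Y, hY.1, hg.2.2.1 Y hY⟩, hY.1⟩, p.1 u, ⟨⟨u, hu, rfl⟩, hpu⟩, fun hm => hc0 ?_⟩))
    swap
    · have : u = p.1 u := p.1.injective (hg.2.2.1 _ hm).symm
      rw [← huc, this]
      exact Subtype.ext (by rw [hΦ₁, h.PT hm.2, map_zero]; rfl)
    -- the conjugate root element
    set q := p * (eX 1, mX 1) * p⁻¹ with hq
    have hqΓ : q ∈ Γ :=
      Γ.mul_mem (Γ.mul_mem hp (Subgroup.subset_closure (Or.inl ⟨1, rfl⟩))) (Γ.inv_mem hp)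
    have hgq := hΓ q hqΓ
    have hqY : ∀ Y, q.1 Y = Y + p.1 (N (p.1.symm Y)) := fun Y => by
      rw [hq, Prod.fst_mul, Prod.fst_mul, LinearEquiv.mul_apply, LinearEquiv.mul_apply]
      change p.1 (eX 1 (p.1.symm Y)) = _
      rw [heXY', one_smul, map_add, LinearEquiv.apply_symm_apply]
    have hq10 : q.2 1 0 = 0 := hRext _ _ fun d => by
      obtain ⟨v, hv, rfl⟩ := hexU d
      have hW : v ∈ W₀ := Submodule.mem_sup_right hv
      have e := (hgq.2.2.2 v hW).2
      rw [hΦ₂U _ (by rw [hqY]; exact U.add_mem hv (hbig v hv)), hΦ₂U v hv, map_zero, add_zero] at e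
      rw [← e, map_zero, LinearMap.zero_apply]
    obtain ⟨-, P', V, a, ha, hPV, hP', hV, -, hm⟩ := hstab q hgq hq10
    set D := fun Y => p.1 (N (p.1.symm Y)) with hD
    have hDD : ∀ Y, D (D Y) = 0 := fun Y => by simp [hD, hNdef.symm, hNN]
    have hP2 : ∀ x, P' (P' x - x) = P' x - x := fun x => pureL_injective hw (by
      simp only [TensorMax.pureL_apply]
      have e1 : ⟪(P' x - x)⊗w⟫ = D ⟪x⊗w⟫ := by
        rw [pure_sub_left, ← hP', hqY, add_sub_cancel_left]
      rw [← hP', e1, hqY, show p.1 (N (p.1.symm (D ⟪x⊗w⟫))) = 0 from hDD _, add_zero])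
    have hV2 : ∀ x, V (V x - x) = V x - x := fun x => by
      obtain ⟨Y, rfl⟩ : ∃ Y, sctr f w Y = x := ⟨_, hsurj x⟩
      have e1 : V (sctr f w Y) - sctr f w Y = sctr f w (D Y) := by
        rw [← hV, hqY, map_add, add_sub_cancel_left]
      rw [e1, ← hV, hqY, show p.1 (N (p.1.symm (D Y))) = 0 from hDD _, add_zero]
    have ha1 : a = 1 := by
      by_contra hne
      have hscl : ∀ x, (2 * a) • V x = (a + 1) • x := fun x => by
        have h1 := hP2 x
        have h2 := hV2 x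
        simp only [hPV, map_sub, map_smul, smul_sub] at h1 h2
        rw [sub_eq_iff_eq_add] at h2
        rw [h2] at h1
        have h3 : (a - 1) • ((2 * a) • V x - (a + 1) • x) = 0 := by
          linear_combination (norm := module) h1
        exact sub_eq_zero.1 ((smul_eq_zero.1 h3).resolve_left (sub_ne_zero.2 hne))
      obtain ⟨x, hx⟩ := exists_ne (0 : TV F k s)
      have h2a : 2 * a ≠ 0 := mul_ne_zero hM.two ha
      have hVx : ∀ y, V y = ((a + 1) / (2 * a)) • y := fun y => by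
        rw [div_eq_inv_mul, mul_smul, ← hscl, inv_smul_smul₀ h2a]
      have h2 := hV2 x
      simp only [hVx, smul_sub, smul_smul] at h2
      set ν := (a + 1) / (2 * a) with hν
      have h3 : ((ν - 1) * (ν - 1)) • x = 0 := by linear_combination (norm := module) h2
      have h4 : ν = 1 := sub_eq_zero.1 (mul_self_eq_zero.1 ((smul_eq_zero.1 h3).resolve_right hx))
      rw [hν, div_eq_one_iff_eq h2a] at h4
      exact hne (by linear_combination -h4)
    rw [ha1, map_one, one_mul] at hm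
    obtain ⟨c', hc', -⟩ := hsq q hgq hq10 hm
    have hpU : ∀ v ∈ U, p.1 v ∈ U := fun v hv => by
      obtain ⟨x, rfl⟩ := mem_memb.1 hv
      have e := hc' (p.1 ⟪(-x)⊗z⟫)
      rw [hqY, hqY] at e
      simp only [map_add, LinearEquiv.symm_apply_apply, hNN, map_zero, add_zero] at e
      rw [show N ⟪(-x)⊗z⟫ = ⟪x⊗w⟫ by rw [hN, hsurj]] at e
      have e' : (2 : F) • p.1 ⟪x⊗w⟫ = c' • N (p.1 ⟪(-x)⊗z⟫) := by
        rw [two_smul]; linear_combination (norm := abel) e
      rw [← inv_smul_smul₀ hM.two (p.1 ⟪x⊗w⟫), e']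
      exact U.smul_mem _ (U.smul_mem _ (imN _))
    refine hRext _ _ fun d => ?_
    obtain ⟨v, hv, rfl⟩ := hexU d
    have e := (hg.2.2.2 v (Submodule.mem_sup_right hv)).2
    rw [hΦ₂U _ (hpU v hv), hΦ₂U v hv, map_zero, add_zero] at e
    rw [← e, map_zero, LinearMap.zero_apply]
  obtain ⟨⟨p, hp⟩, b, hb2, hb0, hpm⟩ := exists_scalar_diag (G := Γ) hM.two hr τ
    (hunit σ (by rw [hισ]; exact hSCinj)) (fun c => ⟨_, Subgroup.subset_closure (Or.inl ⟨c, rfl⟩)⟩)
    (fun c => ⟨_, Subgroup.subset_closure (Or.inr ⟨c, rfl⟩)⟩) (fun c => rfl) (fun c => rfl) hS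
    (fun g h0 => by
      obtain ⟨-, P', V, a, -, -, -, -, -, hm⟩ := hstab g.1 (hΓ _ g.2) h0
      refine ⟨a, hm, fun ha => ?_⟩
      subst ha
      rw [map_one, one_mul] at hm
      obtain ⟨c, -, hc⟩ := hsq g.1 (hΓ _ g.2) h0 hm
      exact ⟨c, hc⟩)
  have hg := hΓ p hp
  replace hpm : (p.2 : Matrix (Fin 2) (Fin 2) R) = !![algebraMap F R b, 0; 0, algebraMap F R b⁻¹] :=
    hpm
  obtain ⟨-, P', V, a, ha, hPV, hP', hV, hVC, hm⟩ := hstab p hg (by rw [hpm]; rfl)
  have hab : a = b ^ 2 := by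
    simp only [hpm, Matrix.of_apply, Matrix.cons_val_zero, Matrix.cons_val_one, ← map_mul] at hm
    have := (algebraMap F R).injective hm
    rw [pow_two]; nth_rw 1 [this]; field_simp
  have hE : ∀ e, ⟪e⊗w⟫ ∈ T → e = 0 := fun e he => by
    have h1 : P' e = e := pureL_injective hw (by
      rw [TensorMax.pureL_apply, TensorMax.pureL_apply, ← hP', hg.2.2.1 _ ⟨pure_mem_memb _ _, he⟩])
    rw [hPV] at h1
    have hmem : V e - e ∈ C := by
      have := hctrC _ (hg.2.1 ⟪(-e)⊗z⟫)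
      rwa [map_sub, hV, hsurj] at this
    have h2 : (a⁻¹ - 1) • e = V e - e := by
      rw [sub_smul, one_smul]
      conv_lhs => arg 1; rw [← h1, smul_smul, inv_mul_cancel₀ ha, one_smul]
    have hne : a⁻¹ - 1 ≠ 0 := sub_ne_zero.2 fun h0 => hb2 (by rw [← hab]; exact inv_eq_one.1 h0)
    rw [← inv_smul_smul₀ hne e, h2]
    refine hEC _ ?_ (C.smul_mem _ hmem)
    rw [← h2, inv_smul_smul₀ hne]
    exact he
  have hdis : U ⊓ T = ⊥ := (Submodule.eq_bot_iff _).2 fun Y hY => by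
    obtain ⟨e, rfl⟩ := mem_memb.1 hY.1
    rw [hE e hY.2, TensorMax.pure_zero_left]
  have hCtop : C = ⊤ := by
    refine Submodule.eq_top_of_finrank_eq ?_
    rw [hC, finrank_fintype_fun_eq_card, ← h.dimT]
    have hinj : Function.Injective ((sctr f w).domRestrict T) := by
      rw [← LinearMap.ker_eq_bot, LinearMap.ker_eq_bot']
      intro t ht
      exact Subtype.ext ((Submodule.mem_bot F).1 (hdis ▸ ⟨(hUiff _).2 ht, t.2⟩))
    rw [← LinearMap.range_domRestrict, LinearMap.finrank_range_of_inj hinj]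
  have hVs : ∀ x, V x = b⁻¹ • x := fun x => by
    rw [show x = ((⟨x, hCtop ▸ Submodule.mem_top⟩ : C) : TV F k s) from rfl, hVC, hpm]
    simp [hscal]
  have hpw : ∀ u, p.1 ⟪u⊗w⟫ = b • ⟪u⊗w⟫ := fun u => by
    rw [hP', hPV, hVs, smul_smul, hab, pure_smul_left]
    congr 1
    field_simp
  have hpT : ∀ t ∈ T, p.1 t = b⁻¹ • t := fun t ht => by
    have hW : t ∈ W₀ := Submodule.mem_sup_left ht
    have h1 : Φ₁ (p.1 t) = 0 := by
      rw [(hg.2.2.2 t hW).1, hpm]
      simp only [Matrix.of_apply, Matrix.cons_val_zero, Matrix.cons_val_one,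
        map_zero, LinearMap.zero_apply, add_zero]
      rw [show Φ₁ t = 0 from Subtype.ext (by rw [hΦ₁, h.PT ht, map_zero]; rfl), map_zero]
    obtain ⟨t', ht', u, hu, hsum⟩ := Submodule.mem_sup.1 (hinv p hg t hW)
    have hu0 : u = 0 := by
      refine (Submodule.mem_bot F).1 (hdis ▸ ⟨hu, hΦU u hu ?_⟩)
      rw [← hsum, map_add, show Φ₁ t' = 0 from Subtype.ext (by rw [hΦ₁, h.PT ht', map_zero]; rfl),
        zero_add] at h1
      exact h1
    rw [hu0, add_zero] at hsum
    refine sub_eq_zero.1 ((Submodule.mem_bot F).1 (hdis ▸ ⟨(hUiff _).2 ?_,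
      T.sub_mem (hsum ▸ ht') (T.smul_mem _ ht)⟩))
    rw [map_sub, map_smul, hV, hVs, sub_self]
  -- the eigenvector
  obtain ⟨α, β, hαβ⟩ := hM.split_two hk hr hw hg.1 fun u => by
    rw [hpw]; exact U.smul_mem _ (pure_mem_memb _ _)
  obtain ⟨η, hη⟩ := exists_dual hw
  set κ := β w ⬝ᵥ η
  have hα : ∀ u, κ • α u = b • u := fun u => by
    have := congrArg (fun X => X *ᵥ η) ((hαβ u w).symm.trans (hpw u))
    simpa [TensorMax.pure_mulVec, smul_mulVec, hη, κ] using this
  obtain ⟨u₀, hu₀⟩ := exists_ne (0 : TV F k s)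
  have hκ : κ ≠ 0 := fun h0 => hu₀ ((smul_eq_zero.1 ((hα u₀).symm.trans (by rw [h0, zero_smul]))).resolve_left hb0)
  have heq : ∀ u v, p.1 ⟪u⊗v⟫ = ⟪u⊗((κ⁻¹ * b) • β v)⟫ := fun u v => by
    have : α u = (κ⁻¹ * b) • u := by rw [mul_smul, ← hα, inv_smul_smul₀ hκ]
    rw [hαβ, this, pure_smul_left, pure_smul_right]
  obtain ⟨ξ, hξ⟩ := exists_dual hu₀
  have hfB : f ((κ⁻¹ * b) • β z) w = b⁻¹ * f z w := by
    have := congrArg (fun x => x ⬝ᵥ ξ) (hV ⟪u₀⊗z⟫)
    simp only [heq, sctr_pure, hVs, map_smul, smul_dotProduct, hξ, smul_eq_mul,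
      mul_one] at this
    rw [map_smul, LinearMap.smul_apply, smul_eq_mul]
    simpa using this
  set μ := f ((κ⁻¹ * b) • β z) z with hμ
  have hBz : (κ⁻¹ * b) • β z = b⁻¹ • z + μ • w := by
    rw [plane_eq hf hk hwz ((κ⁻¹ * b) • β z), hfB, hμ, hf.skew w z, hwz]
    module
  have hbb : b⁻¹ - b ≠ 0 := sub_ne_zero.2 fun h0 => hb2 (by
    rw [pow_two]; nth_rw 1 [← h0]; exact inv_mul_cancel₀ hb0)
  set x := μ / (b⁻¹ - b) with hx
  refine ⟨z + x • w, by rw [map_add, map_smul, hwz, hf.alt, smul_zero, add_zero], fun t ht => ?_⟩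
  have hwz' : f w (z + x • w) = 1 := by rw [map_add, map_smul, hwz, hf.alt, smul_zero, add_zero]
  have hpz : ∀ u, p.1 ⟪u⊗(z + x • w)⟫ = b⁻¹ • ⟪u⊗(z + x • w)⟫ := fun u => by
    have hμx : μ + x * b = b⁻¹ * x := by rw [hx]; field_simp; ring
    rw [pure_add_right, pure_smul_right, map_add, map_smul, heq, hBz, hpw, pure_add_right,
      pure_smul_right, pure_smul_right, smul_add, smul_smul, smul_smul, ← hμx]
    module
  have e := hpT t ht
  rw [pair_decomp hf hk hwz' t, map_sub, hpw, hpz, smul_sub, sub_left_inj, ← sub_eq_zero,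
    ← sub_smul] at e
  rw [pair_decomp hf hk hwz' t,
    (smul_eq_zero.1 e).resolve_left fun h0 => hbb (by linear_combination -h0), zero_sub]
  exact Submodule.neg_mem _ (pure_mem_memb _ _)

end Meet

end CfsgLib.SympWreath17
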